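import Cfsg.Agent.Helper36.StR3
import Cfsg.Agent.Helper21.SMTRIV

/-!
# From the universal property of the Steinberg cover to the Schur multiplier of `G₂(q)`

Over a finite field the group presented by the relations (R1), (R2) of type `G₂` maps
isomorphically onto the Chevalley group; so a lift of this map along every central extension
gives a section of the extension.
-/

set_option autoImplicit false

namespace Cfsg.Agent.Helper36

open Cfsg Cfsg.Lie Cfsg.Agent.Helper17

universe u

section

variable (D : ChevalleyDatum) {K : Type u} [Field K]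

/-- The map of the cover to the Chevalley group (as a subgroup). -/
noncomputable def scThetaG (hD : D ∈ [chevG2, chevB2, chevD4, chevF4, chevE6, chevE7, chevE8]) :
    D.SteinbergCover K →* ↥(D.group K) :=
  (scTheta (K := K) D hD).codRestrict (D.group K) (scTheta_mem D hD)

theorem scThetaG_val (hD : D ∈ [chevG2, chevB2, chevD4, chevF4, chevE6, chevE7, chevE8])
    (r : ℕ) (t : K) :
    ((scThetaG D hD (D.scGen K r t) : GL D.Idx K) : Matrix D.Idx D.Idx K) = D.x K r t :=
  scTheta_val D hD r t

theorem scThetaG_surj (hD : D ∈ [chevG2, chevB2, chevD4, chevF4, chevE6, chevE7, chevE8]) :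
    Function.Surjective (scThetaG (K := K) D hD) := by
  rintro ⟨y, hy⟩
  obtain ⟨a, ha⟩ := scTheta_surj D hD y hy
  exact ⟨a, Subtype.ext ha⟩

/-- Over a finite field, for `G₂`, `F₄`, `E₈`, the cover maps injectively. -/
theorem scThetaG_inj [Finite K] (hD : D ∈ [chevG2, chevF4, chevE8]) (hD' : D ∈ [chevG2, chevB2, chevD4, chevF4, chevE6, chevE7, chevE8]) :
    Function.Injective (scThetaG (K := K) D hD') := by
  rw [injective_iff_map_eq_one]
  intro z hz
  have h1 : scTheta (K := K) D hD' z = 1 := congrArg Subtype.val hz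
  obtain ⟨B, hB⟩ := exists_uniChk hD
  obtain ⟨f₀, g, C⟩ := sCtx_of_mem (F := K) hD'
  have S := sRel_cover D (scTheta (K := K) D hD') (fun r t _ => scTheta_val D hD' r t)
  exact C.HS_ker_trivial S (scHMul D hD') (hDiag_of_mem hD') hB z (C.ker_le S z h1).1 h1

/-- If the map of the cover to the Chevalley group lifts along every central extension, the
Schur multiplier is trivial (`G₂`, `F₄`, `E₈` over a finite field). -/
theorem schur_trivial_of_lift [Fintype K] (hD : D ∈ [chevG2, chevF4, chevE8])
    (hD' : D ∈ [chevG2, chevB2, chevD4, chevF4, chevE6, chevE7, chevE8])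
    (hlift : ∀ (E : Type u) [Group E] (π₁ : E →* ↥(D.group K)), Function.Surjective π₁ →
      π₁.ker ≤ Subgroup.center E →
      ∃ τ : D.SteinbergCover K →* E, π₁.comp τ = scThetaG D hD') :
    Cfsg.HasCyclicSchurMultiplier ↥(D.group K) 1 := by
  apply Cfsg.Agent.Helper21.SMTRIV.sm_triv
  intro Γ _ σ hσ
  have hker : σ.ker ≤ Subgroup.center Γ := by
    intro z hz
    rw [Subgroup.mem_center_iff]
    intro g
    exact (hσ.cent z (MonoidHom.mem_ker.mp hz) g).symm
  obtain ⟨τ, hτ⟩ := hlift Γ σ hσ.surj hker
  let e : D.SteinbergCover K ≃* ↥(D.group K) :=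
    MulEquiv.ofBijective (scThetaG (K := K) D hD') ⟨scThetaG_inj D hD hD', scThetaG_surj D hD'⟩
  refine ⟨τ.comp e.symm.toMonoidHom, fun g => ?_⟩
  have h1 : σ (τ (e.symm g)) = scThetaG D hD' (e.symm g) := by
    rw [← hτ]; rfl
  have h2 : scThetaG (K := K) D hD' (e.symm g) = g := e.apply_symm_apply g
  show σ (τ (e.symm g)) = g
  rw [h1, h2]

end

end Cfsg.Agent.Helper36
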