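import Mathlib

/-!
helper36: fixed points on coset spaces.

* `card_fixed_dvd_of_commute`: if `b` has prime order `p`, commutes with `a`, and `p ∤ |H|`, then `p` divides
  the number of fixed points of `a` on `G ⧸ H`.
* `euler_fixed_rank2`: the Euler characteristic of the fixed point set of a non-trivial element of `B` in
  a rank 2 building-like coset geometry `G ⧸ B → G ⧸ P₁, G ⧸ P₂` is `1` (the fixed structure is a tree).
-/

set_option autoImplicit false

namespace Cfsg.Agent.Helper36

theorem card_fixed_dvd_of_commute {G : Type*} [Group G] [Finite G] (H : Subgroup G) (a b : G)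
    (hab : Commute a b) (p : ℕ) [hp : Fact p.Prime] (hb : orderOf b = p)
    (hH : ¬ p ∣ Nat.card H) : p ∣ Nat.card {x : G ⧸ H // a • x = x} := by
  classical
  have hcomm : ∀ c ∈ Subgroup.zpowers b, Commute a c := by
    intro c hc
    obtain ⟨k, rfl⟩ := Subgroup.mem_zpowers_iff.mp hc
    exact hab.zpow_right k
  letI : MulAction (Subgroup.zpowers b) {x : G ⧸ H // a • x = x} :=
    { smul := fun c x => ⟨(c : G) • x.1, by
        rw [smul_smul, (hcomm c c.2).eq, ← smul_smul, x.2]⟩
      one_smul := fun x => Subtype.ext (one_smul G x.1)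
      mul_smul := fun c d x => Subtype.ext (mul_smul (c : G) (d : G) x.1) }
  have hsm : ∀ (c : Subgroup.zpowers b) (x : {x : G ⧸ H // a • x = x}),
      (c • x).1 = (c : G) • x.1 := fun c x => rfl
  have hpg : IsPGroup p (Subgroup.zpowers b) :=
    IsPGroup.of_card (n := 1) (by rw [Nat.card_zpowers, hb, pow_one])
  have h1 := hpg.card_modEq_card_fixedPoints {x : G ⧸ H // a • x = x}
  have h2 : IsEmpty (MulAction.fixedPoints (Subgroup.zpowers b) {x : G ⧸ H // a • x = x}) := by
    constructor
    rintro ⟨⟨x, hx⟩, hfix⟩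
    have h3 := hfix ⟨b, Subgroup.mem_zpowers b⟩
    have h4 : b • x = x := congrArg Subtype.val h3
    induction x using QuotientGroup.induction_on with
    | H g =>
      rw [MulAction.Quotient.smul_mk, smul_eq_mul, QuotientGroup.eq] at h4
      have h5 : orderOf ((b * g)⁻¹ * g) = p := by
        have e : (b * g)⁻¹ * g = MulAut.conj g⁻¹ b⁻¹ := by
          rw [MulAut.conj_apply]; group
        rw [e, MulEquiv.orderOf_eq, orderOf_inv, hb]
      apply hH
      rw [← h5]
      exact Subgroup.orderOf_dvd_natCard H h4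
  have h6 : Nat.card (MulAction.fixedPoints (Subgroup.zpowers b) {x : G ⧸ H // a • x = x}) = 0 :=
    Nat.card_of_isEmpty
  rw [h6] at h1
  exact (Nat.modEq_zero_iff_dvd).mp h1

theorem euler_fixed_rank2 {G : Type*} [Group G] [Finite G] {W : Type*} (B : Subgroup G)
    (P : Bool → Subgroup G) (c : G → W) (asc : Bool → W → Prop) (n : Bool → G) (a : G)
    (hBP : ∀ j, B ≤ P j)
    (hc : ∀ g, ∀ b ∈ B, ∀ b' ∈ B, c (b * g * b') = c g)
    (hP : ∀ j, ∀ p ∈ P j, p ∈ B ∨ ∃ b ∈ B, ∃ b' ∈ B, p = b * n j * b')
    (h1 : ∀ j g, asc j (c g) → ¬ asc j (c (g * n j)))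
    (h2 : ∀ j g, ¬ asc j (c g) → ∃ p ∈ P j, asc j (c (g * p)))
    (h3 : ∀ g, (asc true (c g) ∧ asc false (c g)) ↔ g ∈ B)
    (ha : a ∈ B)
    (h4 : ∀ g, ¬ asc true (c g) → ¬ asc false (c g) → g⁻¹ * a * g ∉ B) :
    Nat.card {x : G ⧸ P true // a • x = x} + Nat.card {x : G ⧸ P false // a • x = x} =
      Nat.card {x : G ⧸ B // a • x = x} + 1 := by
  classical
  have hcr : ∀ g, ∀ b ∈ B, c (g * b) = c g := by
    intro g b hb
    have := hc g 1 B.one_mem b hb
    rwa [one_mul] at this
  have hcl : ∀ g, ∀ b ∈ B, c (b * g) = c g := by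
    intro g b hb
    have := hc g b hb 1 B.one_mem
    rwa [mul_one] at this
  have key : ∀ j g, asc j (c g) → ∀ p ∈ P j, asc j (c (g * p)) → p ∈ B := by
    intro j g hg p hp hgp
    rcases hP j p hp with h | ⟨b, hb, b', hb', rfl⟩
    · exact h
    · exfalso
      have e : c (g * (b * n j * b')) = c ((g * b) * n j) := by
        have e' : g * (b * n j * b') = (g * b * n j) * b' := by group
        rw [e']; exact hcr _ _ hb'
      rw [e] at hgp
      exact h1 j (g * b) (by rw [hcr g b hb]; exact hg) hgp
  let E : Bool → Set (G ⧸ B) := fun j =>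
    {x | a • x = x ∧ ∃ g : G, (g : G ⧸ B) = x ∧ asc j (c g)}
  have hfixB : ∀ g : G, a • (g : G ⧸ B) = (g : G ⧸ B) ↔ g⁻¹ * a * g ∈ B := by
    intro g
    rw [MulAction.Quotient.smul_mk, smul_eq_mul, QuotientGroup.eq]
    constructor
    · intro h
      have e : g⁻¹ * a * g = ((a * g)⁻¹ * g)⁻¹ := by group
      rw [e]; exact inv_mem h
    · intro h
      have e : (a * g)⁻¹ * g = (g⁻¹ * a * g)⁻¹ := by group
      rw [e]; exact inv_mem h
  have hcard : ∀ j, Nat.card {x : G ⧸ P j // a • x = x} = (E j).ncard := by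
    intro j
    have hinj : Set.InjOn (Subgroup.quotientMapOfLE (hBP j)) (E j) := by
      rintro x ⟨-, g, rfl, hg⟩ y ⟨-, g', rfl, hg'⟩ hxy
      rw [Subgroup.quotientMapOfLE_apply_mk, Subgroup.quotientMapOfLE_apply_mk,
        QuotientGroup.eq] at hxy
      rw [QuotientGroup.eq]
      apply key j g hg _ hxy
      have e : g * (g⁻¹ * g') = g' := by group
      rw [e]; exact hg'
    have himg : Subgroup.quotientMapOfLE (hBP j) '' (E j) = {y : G ⧸ P j | a • y = y} := by
      ext y
      constructor
      · rintro ⟨x, ⟨hx, g, rfl, hg⟩, rfl⟩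
        rw [Subgroup.quotientMapOfLE_apply_mk]
        show a • (g : G ⧸ P j) = (g : G ⧸ P j)
        rw [MulAction.Quotient.smul_mk, smul_eq_mul, QuotientGroup.eq]
        rw [MulAction.Quotient.smul_mk, smul_eq_mul, QuotientGroup.eq] at hx
        exact hBP j hx
      · intro hy
        induction y using QuotientGroup.induction_on with
        | H g =>
          have hy' : a • (g : G ⧸ P j) = (g : G ⧸ P j) := hy
          obtain ⟨g', hg'P, hg'⟩ : ∃ g' : G, g⁻¹ * g' ∈ P j ∧ asc j (c g') := by
            by_cases hg : asc j (c g)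
            · exact ⟨g, by rw [inv_mul_cancel]; exact one_mem _, hg⟩
            · obtain ⟨p, hp, hgp⟩ := h2 j g hg
              refine ⟨g * p, ?_, hgp⟩
              have e : g⁻¹ * (g * p) = p := by group
              rw [e]; exact hp
          have hgg' : (g : G ⧸ P j) = (g' : G ⧸ P j) := QuotientGroup.eq.mpr hg'P
          rw [hgg'] at hy'
          rw [MulAction.Quotient.smul_mk, smul_eq_mul, QuotientGroup.eq] at hy'
          have hp' : g'⁻¹ * (a * g') ∈ P j := by
            have e : g'⁻¹ * (a * g') = ((a * g')⁻¹ * g')⁻¹ := by group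
            rw [e]; exact inv_mem hy'
          have hB : g'⁻¹ * (a * g') ∈ B := by
            apply key j g' hg' _ hp'
            have e : g' * (g'⁻¹ * (a * g')) = a * g' := by group
            rw [e, hcl g' a ha]; exact hg'
          refine ⟨(g' : G ⧸ B), ⟨?_, g', rfl, hg'⟩, ?_⟩
          · rw [hfixB]
            have e : g'⁻¹ * a * g' = g'⁻¹ * (a * g') := by group
            rw [e]; exact hB
          · rw [Subgroup.quotientMapOfLE_apply_mk]
            exact hgg'.symm
    have e1 : Nat.card {x : G ⧸ P j // a • x = x} = Set.ncard {y : G ⧸ P j | a • y = y} := rfl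
    rw [e1, ← himg, Set.ncard_image_of_injOn hinj]
  have hunion : E true ∪ E false = {x : G ⧸ B | a • x = x} := by
    ext x
    constructor
    · rintro (h | h)
      · exact h.1
      · exact h.1
    · intro hx
      induction x using QuotientGroup.induction_on with
      | H g =>
        have hx' : a • (g : G ⧸ B) = (g : G ⧸ B) := hx
        have hgB := (hfixB g).mp hx'
        by_cases ht : asc true (c g)
        · exact Or.inl ⟨hx', g, rfl, ht⟩
        · by_cases hf : asc false (c g)
          · exact Or.inr ⟨hx', g, rfl, hf⟩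
          · exact absurd hgB (h4 g ht hf)
  have hinter : E true ∩ E false = {((1 : G) : G ⧸ B)} := by
    ext x
    constructor
    · rintro ⟨⟨-, g, rfl, hg⟩, ⟨-, g', hgg', hg'⟩⟩
      have hb : g⁻¹ * g' ∈ B := by
        have := QuotientGroup.eq.mp hgg'.symm
        exact this
      have hcg : c g' = c g := by
        have e : g' = g * (g⁻¹ * g') := by group
        rw [e]; exact hcr g _ hb
      rw [hcg] at hg'
      have hgB : g ∈ B := (h3 g).mp ⟨hg, hg'⟩
      show (g : G ⧸ B) = ((1 : G) : G ⧸ B)
      rw [QuotientGroup.eq]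
      exact mul_mem (inv_mem hgB) (one_mem _)
    · intro hx
      have hx' : x = ((1 : G) : G ⧸ B) := hx
      subst hx'
      have h1B := (h3 1).mpr B.one_mem
      have hfix : a • ((1 : G) : G ⧸ B) = ((1 : G) : G ⧸ B) := by
        rw [hfixB]
        have e : (1 : G)⁻¹ * a * 1 = a := by group
        rw [e]; exact ha
      exact ⟨⟨hfix, 1, rfl, h1B.1⟩, ⟨hfix, 1, rfl, h1B.2⟩⟩
  rw [hcard true, hcard false, ← Set.ncard_union_add_ncard_inter, hunion, hinter,
    Set.ncard_singleton]
  rfl

end Cfsg.Agent.Helper36
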