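import Cfsg.Agent.Helper36.SUCenter

set_option autoImplicit false
set_option linter.style.haveILetI false

namespace Cfsg.Agent.Helper36

open Polynomial

section

variable {F : Type*} [Field F] [Fintype F] {q : ℕ}

theorem one_lt_of_card_sq (hF : Fintype.card F = q ^ 2) : 1 < q := by
  have := Fintype.one_lt_card (α := F)
  rw [hF] at this
  by_contra h
  have hq : q = 0 ∨ q = 1 := by omega
  rcases hq with rfl | rfl <;> norm_num at this

/-- The involution `x ↦ x ^ q` of a field with `q ^ 2` elements (any characteristic). -/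
theorem exists_conj_general (hF : Fintype.card F = q ^ 2) :
    ∃ σ : F →+* F, (∀ x, σ x = x ^ q) ∧ (∀ x, σ (σ x) = x) ∧ ∃ d, σ d ≠ d := by
  classical
  have hq1 := one_lt_of_card_sq hF
  obtain ⟨p, hchar⟩ : ∃ p, CharP F p := ⟨ringChar F, ringChar.charP F⟩
  haveI := hchar
  have hp : p.Prime := CharP.char_is_prime F p
  obtain ⟨k, _, hk⟩ := FiniteField.card F p
  have hq : ∃ j, q = p ^ j := by
    have : q ∣ p ^ (k : ℕ) := by
      rw [← hk, hF]
      exact dvd_pow_self q two_ne_zero
    obtain ⟨j, _, hj⟩ := (Nat.dvd_prime_pow hp).1 this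
    exact ⟨j, hj⟩
  obtain ⟨j, rfl⟩ := hq
  haveI : Fact p.Prime := ⟨hp⟩
  haveI : ExpChar F p := ExpChar.prime hp
  have hσ : ∀ x : F, iterateFrobenius F p j x = x ^ p ^ j := fun x => rfl
  refine ⟨iterateFrobenius F p j, hσ, ?_, ?_⟩
  · intro x
    rw [hσ, hσ, ← pow_mul, ← pow_two, ← hF, FiniteField.pow_card]
  · by_contra hcon
    have hcon : ∀ d : F, iterateFrobenius F p j d = d := fun d =>
      by_contra fun hd => hcon ⟨d, hd⟩
    have hne := FiniteField.X_pow_card_sub_X_ne_zero F hq1
    have hdeg := FiniteField.X_pow_card_sub_X_natDegree_eq F hq1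
    have hsub : (Finset.univ : Finset F) ⊆ (X ^ (p ^ j) - X : F[X]).roots.toFinset := by
      intro d _
      rw [Multiset.mem_toFinset, Polynomial.mem_roots hne]
      have := hcon d
      rw [hσ] at this
      simp [this]
    have h2 := Finset.card_le_card hsub
    have h3 := (Multiset.toFinset_card_le (X ^ (p ^ j) - X : F[X]).roots).trans
      (Polynomial.card_roots' _)
    rw [Finset.card_univ, hF] at h2
    rw [hdeg] at h3
    nlinarith

/-- An element of norm `-1`. -/
theorem exists_norm_neg_one (hF : Fintype.card F = q ^ 2) : ∃ l : F, l * l ^ q = -1 := by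
  classical
  have hq1 := one_lt_of_card_sq hF
  by_cases h2 : ringChar F = 2
  · haveI : CharP F 2 := h2 ▸ ringChar.charP F
    refine ⟨1, ?_⟩
    rw [one_pow, mul_one]
    exact (CharTwo.neg_eq (1 : F)).symm
  · have hodd : Fintype.card F % 2 = 1 := by
      have := (FiniteField.even_card_iff_char_two (F := F)).not.1 h2
      omega
    have hqodd : q % 2 = 1 := by
      rw [hF, Nat.pow_mod] at hodd
      rcases Nat.mod_two_eq_zero_or_one q with h | h
      · rw [h] at hodd
        norm_num at hodd
      · exact h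
    have hdvd : 2 * (q + 1) ∣ Fintype.card F - 1 := by
      obtain ⟨k, rfl⟩ : ∃ k, q = 2 * k + 1 := ⟨q / 2, by omega⟩
      rw [hF]
      have : (2 * k + 1) ^ 2 - 1 = 2 * (2 * k + 1 + 1) * k := by
        have h : (2 * k + 1) ^ 2 = 2 * (2 * k + 1 + 1) * k + 1 := by ring
        rw [h, Nat.add_sub_cancel]
      rw [this]
      exact Dvd.intro _ rfl
    obtain ⟨ζ, hζ⟩ := exists_primitiveRoot_of_dvd (F := F) (2 * (q + 1)) hdvd
    have h1 := hζ.pow_of_dvd (p := q + 1) (by omega) (Dvd.intro_left 2 rfl)
    have h3 : 2 * (q + 1) / (q + 1) = 2 := Nat.mul_div_cancel 2 (by omega)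
    rw [h3] at h1
    refine ⟨ζ, ?_⟩
    rw [← pow_succ']
    exact h1.eq_neg_one_of_two_right

/-- An embedding of the field with `q` elements onto the fixed points of `x ↦ x ^ q`. -/
theorem exists_subfield_embedding {K : Type*} [Field K] [Fintype K]
    (hF : Fintype.card F = q ^ 2) (hK : Fintype.card K = q) :
    ∃ ι : K →+* F, ∀ x : F, x ^ q = x → ∃ k, ι k = x := by
  classical
  have hq1 := one_lt_of_card_sq hF
  obtain ⟨p, hchar⟩ : ∃ p, CharP F p := ⟨ringChar F, ringChar.charP F⟩
  haveI := hchar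
  have hp : p.Prime := CharP.char_is_prime F p
  haveI : Fact p.Prime := ⟨hp⟩
  obtain ⟨n, _, hn⟩ := FiniteField.card F p
  obtain ⟨n', hp', hn'⟩ := FiniteField.card K (ringChar K)
  have hKp : ringChar K = p := by
    have h1 : p ∣ ringChar K ^ (2 * (n' : ℕ)) := by
      rw [pow_mul', ← hn', hK, ← hF, hn]
      exact dvd_pow_self p n.ne_zero
    exact ((Nat.prime_dvd_prime_iff_eq hp hp').1 (hp.dvd_of_dvd_pow h1)).symm
  haveI : CharP K p := hKp ▸ ringChar.charP K
  letI : Algebra (ZMod p) K := ZMod.algebra K p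
  letI : Algebra (ZMod p) F := ZMod.algebra F p
  have h1 := FiniteField.pow_finrank_eq_card p K
  have h2 := FiniteField.pow_finrank_eq_card p F
  have hdvd : Module.finrank (ZMod p) K ∣ Module.finrank (ZMod p) F := by
    have h3 : p ^ Module.finrank (ZMod p) F = p ^ (2 * Module.finrank (ZMod p) K) := by
      rw [h2, hF, pow_mul', h1, hK]
    have h4 := Nat.pow_right_injective hp.two_le h3
    rw [h4]
    exact Dvd.intro_left 2 rfl
  obtain ⟨f⟩ := FiniteField.nonempty_algHom_of_finrank_dvd (F := ZMod p) (K := K) (L := F) hdvd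
  refine ⟨f.toRingHom, ?_⟩
  intro x hx
  have hne := FiniteField.X_pow_card_sub_X_ne_zero F hq1
  have hdeg := FiniteField.X_pow_card_sub_X_natDegree_eq F hq1
  have hS : (Finset.univ.image f : Finset F) ⊆ (X ^ q - X : F[X]).roots.toFinset := by
    intro y hy
    obtain ⟨k, _, rfl⟩ := Finset.mem_image.1 hy
    rw [Multiset.mem_toFinset, Polynomial.mem_roots hne]
    have : f k ^ q = f k := by
      rw [← map_pow, ← hK, FiniteField.pow_card]
    simp [this]
  have hcard : (Finset.univ.image f : Finset F).card = q := by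
    rw [Finset.card_image_of_injective _ (show Function.Injective (f : K → F) from f.toRingHom.injective),
      Finset.card_univ, hK]
  have hle : (X ^ q - X : F[X]).roots.toFinset.card ≤ q :=
    (Multiset.toFinset_card_le _).trans ((Polynomial.card_roots' _).trans_eq hdeg)
  have heq := Finset.eq_of_subset_of_card_le hS (by rw [hcard]; exact hle)
  have hx' : x ∈ (X ^ q - X : F[X]).roots.toFinset := by
    rw [Multiset.mem_toFinset, Polynomial.mem_roots hne]
    simp [hx]
  rw [← heq] at hx'
  obtain ⟨k, _, hk⟩ := Finset.mem_image.1 hx'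
  exact ⟨k, hk⟩

end

end Cfsg.Agent.Helper36
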