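import Cfsg.Agent.Helper36.GraphAut

/-!
# Graph automorphisms with signs through Steinberg's presentation (helper36)

For a datum `D`, a permutation `ρ` of the roots (with inverse table `ρ'`) and signs `ε r = ±1`
satisfying the table check `gsPairOK` (the commutator formula is compatible with
`x_r(t) ↦ x_{ρ r}(ε_r t)`), over a finite field there is an automorphism of the Chevalley group with
`x_r(t) ↦ x_{ρ r}(ε_r t)` (`gs_main`).
-/

set_option autoImplicit false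

namespace Cfsg.Agent.Helper36

open Cfsg Cfsg.Lie

/-- The commutator word of `(ρ r, ρ s)` at `(ε_r t, ε_s u)`, as monomials. -/
def gsMono1 (D : ChevalleyDatum) (ρ : ℕ → ℕ) (ε : ℕ → ℤ) (r s : ℕ) : List GaMono :=
  (D.commTerms (ρ r) (ρ s)).map fun c =>
    (c.1, c.2.1 * (-1) ^ c.2.2.1 * ε r ^ c.2.2.1 * ε s ^ c.2.2.2, c.2.2.1, c.2.2.2)

/-- The image of the commutator word of `(r, s)`, as monomials. -/
def gsMono2 (D : ChevalleyDatum) (ρ : ℕ → ℕ) (ε : ℕ → ℤ) (r s : ℕ) : List GaMono :=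
  (D.commTerms r s).map fun c =>
    (ρ c.1, ε c.1 * (c.2.1 * (-1) ^ c.2.2.1), c.2.2.1, c.2.2.2)

/-- The check for the pair `(r, s)`. -/
def gsPairOK (D : ChevalleyDatum) (ρ : ℕ → ℕ) (ε : ℕ → ℤ) (r s : ℕ) : Bool :=
  decide (ρ s ≠ ρ r) && decide (ρ s ≠ D.neg (ρ r)) &&
  ((D.commTerms r s).all fun c => decide (c.1 < D.nroots)) &&
  decide (gsMono1 D ρ ε r s = gsMono2 D ρ ε r s)

/-- The check for the root `r`. -/
def gsRootOK (D : ChevalleyDatum) (ρ ρ' : ℕ → ℕ) (ε : ℕ → ℤ) (r : ℕ) : Bool :=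
  decide (ρ r < D.nroots) && decide (ρ' r < D.nroots) && decide (ρ (ρ' r) = r) &&
  (decide (ε r = 1) || decide (ε r = -1)) &&
  (List.range D.nroots).all fun s => decide (s = r) || decide (s = D.neg r) || gsPairOK D ρ ε r s

section

variable {D : ChevalleyDatum} {K : Type*} [Field K]

theorem gsMono1_eval (ρ : ℕ → ℕ) (ε : ℕ → ℤ) (r s : ℕ) (t u : K) :
    D.commWord K (ρ r) (ρ s) ((ε r : K) * t) ((ε s : K) * u) =
      (gsMono1 D ρ ε r s).map (gaEval t u) := by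
  unfold ChevalleyDatum.commWord gsMono1
  rw [List.map_map]
  apply List.map_congr_left
  intro c _
  simp only [Function.comp, gaEval]
  congr 1
  push_cast
  rw [neg_pow, mul_pow, mul_pow]
  ring

theorem gsMono2_eval (ρ : ℕ → ℕ) (ε : ℕ → ℤ) (r s : ℕ) (t u : K) :
    (D.commWord K r s t u).map (fun q => (ρ q.1, (ε q.1 : K) * q.2)) =
      (gsMono2 D ρ ε r s).map (gaEval t u) := by
  unfold ChevalleyDatum.commWord gsMono2
  rw [List.map_map, List.map_map]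
  apply List.map_congr_left
  intro c _
  simp only [Function.comp, gaEval]
  congr 1
  push_cast
  rw [neg_pow]
  ring

theorem gs_word_eq (hX : XAdd D K) (ρ : ℕ → ℕ) (ε : ℕ → ℤ) {r s : ℕ}
    (h : gsPairOK D ρ ε r s = true) (t u : K) :
    wordGL hX (D.commWord K (ρ r) (ρ s) ((ε r : K) * t) ((ε s : K) * u)) =
      wordGL hX ((D.commWord K r s t u).map (fun q => (ρ q.1, (ε q.1 : K) * q.2))) := by
  rw [gsMono1_eval, gsMono2_eval]
  unfold gsPairOK at h
  rw [Bool.and_eq_true] at h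
  rw [of_decide_eq_true h.2]

theorem gsRootOK_spec {ρ ρ' : ℕ → ℕ} {ε : ℕ → ℤ} {r : ℕ} (h : gsRootOK D ρ ρ' ε r = true) :
    ρ r < D.nroots ∧ ρ' r < D.nroots ∧ ρ (ρ' r) = r ∧ (ε r = 1 ∨ ε r = -1) ∧
    ∀ s < D.nroots, s ≠ r → s ≠ D.neg r → gsPairOK D ρ ε r s = true := by
  unfold gsRootOK at h
  simp only [Bool.and_eq_true, decide_eq_true_eq, List.all_eq_true, List.mem_range,
    Bool.or_eq_true] at h
  obtain ⟨⟨⟨⟨h1, h2⟩, h3⟩, h4⟩, h5⟩ := h
  refine ⟨h1, h2, h3, h4, fun s hs hsr hsn => ?_⟩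
  rcases h5 s hs with (h6 | h6) | h6
  · exact absurd h6 hsr
  · exact absurd h6 hsn
  · exact h6

/-- The image of the generator `x̄_r(t)`. -/
noncomputable def gsY (hX : XAdd D K) (ρ : ℕ → ℕ) (ε : ℕ → ℤ) (r : ℕ) (t : K) : GL D.Idx K :=
  if r < D.nroots then xGL hX (ρ r) ((ε r : K) * t) else 1

/-- The homomorphism from the free group. -/
noncomputable def gsLift (hX : XAdd D K) (ρ : ℕ → ℕ) (ε : ℕ → ℤ) :
    FreeGroup (Fin D.nroots × K) →* GL D.Idx K :=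
  FreeGroup.lift (fun q => xGL hX (ρ q.1.val) ((ε q.1.val : K) * q.2))

theorem gsLift_stX (hX : XAdd D K) (ρ : ℕ → ℕ) (ε : ℕ → ℤ) (r : ℕ) (t : K) :
    gsLift hX ρ ε (D.stX r t) = gsY hX ρ ε r t := by
  unfold ChevalleyDatum.stX gsY
  by_cases h : r < D.nroots
  · rw [dif_pos h, if_pos h]
    unfold gsLift
    rw [FreeGroup.lift_apply_of]
  · rw [dif_neg h, if_neg h, map_one]

theorem gsLift_stWord (hX : XAdd D K) (ρ : ℕ → ℕ) (ε : ℕ → ℤ) (w : List (ℕ × K))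
    (hw : ∀ q ∈ w, q.1 < D.nroots) :
    gsLift hX ρ ε (D.stWord w) = wordGL hX (w.map fun q => (ρ q.1, (ε q.1 : K) * q.2)) := by
  unfold ChevalleyDatum.stWord wordGL
  rw [map_list_prod, List.map_map, List.map_map]
  congr 1
  apply List.map_congr_left
  intro q hq
  simp only [Function.comp]
  rw [gsLift_stX]
  unfold gsY
  rw [if_pos (hw q hq)]

variable {η : ℕ → ℕ → ℤ}

theorem gsLift_rel (R : BRel D K η) (ρ ρ' : ℕ → ℕ) (ε : ℕ → ℤ)
    (hOK : ∀ r < D.nroots, gsRootOK D ρ ρ' ε r = true) :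
    ∀ g ∈ D.steinbergRelsAB K, gsLift R.xadd ρ ε g = 1 := by
  rintro g (⟨r, t₁, t₂, hr, rfl⟩ | ⟨r, s, t, u, hr, hs, h1, h2, rfl⟩)
  · rw [map_mul, map_mul, map_inv, gsLift_stX, gsLift_stX, gsLift_stX]
    unfold gsY
    simp only [if_pos hr]
    rw [xGL_mul, ← mul_add, mul_inv_cancel]
  · obtain ⟨hρr, -, -, -, hpair⟩ := gsRootOK_spec (hOK r hr)
    obtain ⟨hρs, -, -, -, -⟩ := gsRootOK_spec (hOK s hs)
    have hP := hpair s hs h1 h2
    have hP' := hP
    unfold gsPairOK at hP'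
    rw [Bool.and_eq_true] at hP'
    obtain ⟨hP1, -⟩ := hP'
    rw [Bool.and_eq_true] at hP1
    obtain ⟨hP3, hrange⟩ := hP1
    rw [Bool.and_eq_true] at hP3
    obtain ⟨hne1, hne2⟩ := hP3
    have hne1' : ρ s ≠ ρ r := of_decide_eq_true hne1
    have hne2' : ρ s ≠ D.neg (ρ r) := of_decide_eq_true hne2
    have hw : ∀ q ∈ D.commWord K r s t u, q.1 < D.nroots := by
      intro q hq
      unfold ChevalleyDatum.commWord at hq
      rw [List.mem_map] at hq
      obtain ⟨c, hc, rfl⟩ := hq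
      exact of_decide_eq_true (List.all_eq_true.mp hrange c hc)
    rw [map_mul, map_mul, map_mul, map_mul, map_inv, map_inv, map_inv, gsLift_stX, gsLift_stX,
      gsLift_stWord _ _ _ _ hw]
    unfold gsY
    simp only [if_pos hr, if_pos hs]
    rw [← gs_word_eq R.xadd ρ ε hP t u]
    have hcf : xGL R.xadd (ρ s) ((ε s : K) * u) * xGL R.xadd (ρ r) ((ε r : K) * t) =
        xGL R.xadd (ρ r) ((ε r : K) * t) * xGL R.xadd (ρ s) ((ε s : K) * u) *
          wordGL R.xadd (D.commWord K (ρ r) (ρ s) ((ε r : K) * t) ((ε s : K) * u)) := by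
      apply Units.ext
      rw [Units.val_mul, Units.val_mul, Units.val_mul, xGL_val, xGL_val, wordGL_val]
      exact R.cf (ρ r) hρr (ρ s) hρs hne1' hne2' _ _
    have h3 : wordGL R.xadd (D.commWord K (ρ r) (ρ s) ((ε r : K) * t) ((ε s : K) * u)) =
        (xGL R.xadd (ρ s) ((ε s : K) * u))⁻¹ * (xGL R.xadd (ρ r) ((ε r : K) * t))⁻¹ *
          xGL R.xadd (ρ s) ((ε s : K) * u) * xGL R.xadd (ρ r) ((ε r : K) * t) := by
      have h4 : (xGL R.xadd (ρ s) ((ε s : K) * u))⁻¹ * (xGL R.xadd (ρ r) ((ε r : K) * t))⁻¹ *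
          (xGL R.xadd (ρ s) ((ε s : K) * u) * xGL R.xadd (ρ r) ((ε r : K) * t)) =
          wordGL R.xadd (D.commWord K (ρ r) (ρ s) ((ε r : K) * t) ((ε s : K) * u)) := by
        rw [hcf]; group
      rw [← h4]; group
    rw [h3]; group

/-- The homomorphism `x̄_r(t) ↦ x_{ρ r}(ε_r t)` from the group presented by (R1), (R2). -/
noncomputable def gsPsi (R : BRel D K η) (ρ ρ' : ℕ → ℕ) (ε : ℕ → ℤ)
    (hOK : ∀ r < D.nroots, gsRootOK D ρ ρ' ε r = true) : D.SteinbergCover K →* GL D.Idx K :=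
  PresentedGroup.toGroup (rels := D.steinbergRelsAB K)
    (f := fun q : Fin D.nroots × K => xGL R.xadd (ρ q.1.val) ((ε q.1.val : K) * q.2))
    (fun g hg => gsLift_rel R ρ ρ' ε hOK g hg)

theorem gsPsi_scGen (R : BRel D K η) (ρ ρ' : ℕ → ℕ) (ε : ℕ → ℤ)
    (hOK : ∀ r < D.nroots, gsRootOK D ρ ρ' ε r = true) {r : ℕ} (hr : r < D.nroots) (t : K) :
    gsPsi R ρ ρ' ε hOK (D.scGen K r t) = xGL R.xadd (ρ r) ((ε r : K) * t) := by
  have h1 : gsPsi R ρ ρ' ε hOK (D.scGen K r t) = gsLift R.xadd ρ ε (D.stX r t) := rfl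
  rw [h1, gsLift_stX]
  unfold gsY
  rw [if_pos hr]

theorem gsPsi_mem (R : BRel D K η) (ρ ρ' : ℕ → ℕ) (ε : ℕ → ℤ)
    (hOK : ∀ r < D.nroots, gsRootOK D ρ ρ' ε r = true) (a : D.SteinbergCover K) :
    gsPsi R ρ ρ' ε hOK a ∈ D.group K := by
  have h : a ∈ Subgroup.closure
      {g : D.SteinbergCover K | ∃ r < D.nroots, ∃ t : K, g = D.scGen K r t} := by
    rw [scGen_closure]; trivial
  induction h using Subgroup.closure_induction with
  | mem y hy =>
    obtain ⟨r, hr, t, rfl⟩ := hy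
    rw [gsPsi_scGen R ρ ρ' ε hOK hr]
    exact xGL_mem_group _ _ _
  | one => rw [map_one]; exact one_mem _
  | mul a b _ _ iha ihb => rw [map_mul]; exact mul_mem iha ihb
  | inv a _ iha => rw [map_inv]; exact inv_mem iha

theorem gsPsi_surj (R : BRel D K η) (ρ ρ' : ℕ → ℕ) (ε : ℕ → ℤ)
    (hOK : ∀ r < D.nroots, gsRootOK D ρ ρ' ε r = true)
    (y : GL D.Idx K) (hy : y ∈ D.group K) :
    ∃ a : D.SteinbergCover K, gsPsi R ρ ρ' ε hOK a = y := by
  unfold ChevalleyDatum.group at hy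
  induction hy using Subgroup.closure_induction with
  | mem y hy =>
    obtain ⟨r, t, hrt⟩ := hy
    obtain ⟨-, hρ'r, hρρ, -, -⟩ := gsRootOK_spec (hOK r.val r.isLt)
    obtain ⟨-, -, -, hε, -⟩ := gsRootOK_spec (hOK (ρ' r.val) hρ'r)
    have hy' : y = xGL R.xadd r.val t := by
      apply Units.ext
      rw [hrt, xGL_val]
      unfold ChevalleyDatum.x
      rw [dif_pos r.isLt]
    refine ⟨D.scGen K (ρ' r.val) ((ε (ρ' r.val) : K) * t), ?_⟩
    rw [gsPsi_scGen R ρ ρ' ε hOK hρ'r, hρρ, hy', ← mul_assoc]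
    have e : (ε (ρ' r.val) : K) * (ε (ρ' r.val) : K) = 1 := by
      rcases hε with h | h <;> rw [h] <;> simp
    rw [e, one_mul]
  | one => exact ⟨1, map_one _⟩
  | mul a b _ _ iha ihb =>
    obtain ⟨a', rfl⟩ := iha
    obtain ⟨b', rfl⟩ := ihb
    exact ⟨a' * b', map_mul _ _ _⟩
  | inv a _ iha =>
    obtain ⟨a', rfl⟩ := iha
    exact ⟨a'⁻¹, map_inv _ _⟩

/-- The automorphism `x_r(t) ↦ x_{ρ r}(ε_r t)` of the Chevalley group over a finite field, for tables `ρ`, `ε`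
passing the check `gsRootOK`. -/
theorem gs_main [Finite K]
    (hD : D ∈ [chevG2, chevB2, chevD4, chevF4, chevE6, chevE7, chevE8])
    (ρ ρ' : ℕ → ℕ) (ε : ℕ → ℤ)
    (hOK : ∀ r < D.nroots, gsRootOK D ρ ρ' ε r = true) :
    ∃ α : ↥(D.group K) ≃* ↥(D.group K), ∀ (g : ↥(D.group K)) (r : ℕ) (t : K), r < D.nroots →
      ((g : GL D.Idx K) : Matrix D.Idx D.Idx K) = D.x K r t →
      ((α g : GL D.Idx K) : Matrix D.Idx D.Idx K) = D.x K (ρ r) ((ε r : K) * t) := by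
  have R := bRel_of_mem (F := K) hD
  let θ' : D.SteinbergCover K →* ↥(D.group K) :=
    (scTheta D hD).codRestrict (D.group K) (scTheta_mem D hD)
  let ψ' : D.SteinbergCover K →* ↥(D.group K) :=
    (gsPsi R ρ ρ' ε hOK).codRestrict (D.group K) (gsPsi_mem R ρ ρ' ε hOK)
  have hθval : ∀ a, ((θ' a : ↥(D.group K)) : GL D.Idx K) = scTheta D hD a := fun a => rfl
  have hψval : ∀ a, ((ψ' a : ↥(D.group K)) : GL D.Idx K) = gsPsi R ρ ρ' ε hOK a := fun a => rfl
  have hθsurj : Function.Surjective θ' := by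
    intro y
    obtain ⟨a, ha⟩ := scTheta_surj D hD y.val y.property
    exact ⟨a, Subtype.ext ha⟩
  have hψsurj : Function.Surjective ψ' := by
    intro y
    obtain ⟨a, ha⟩ := gsPsi_surj R ρ ρ' ε hOK y.val y.property
    exact ⟨a, Subtype.ext ha⟩
  have hker : θ'.ker ≤ ψ'.ker := by
    intro a ha
    rw [MonoidHom.mem_ker] at ha ⊢
    have h1 : scTheta D hD a = 1 := by
      rw [← hθval a, ha]; rfl
    have hc := (scTheta_ker D hD a).mp h1
    apply Subtype.ext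
    rw [hψval]
    apply center_group_eq_one D hD _ (gsPsi_mem R ρ ρ' ε hOK a)
    intro b hb
    obtain ⟨b', rfl⟩ := gsPsi_surj R ρ ρ' ε hOK b hb
    rw [← map_mul, ← map_mul, Subgroup.mem_center_iff.mp hc b']
  let α₀ : ↥(D.group K) →* ↥(D.group K) := θ'.liftOfSurjective hθsurj ⟨ψ', hker⟩
  have hα : ∀ a, α₀ (θ' a) = ψ' a := fun a =>
    MonoidHom.liftOfRightInverse_comp_apply θ' _ _ ⟨ψ', hker⟩ a
  have hθgen : ∀ r < D.nroots, ∀ t : K,
      ((θ' (D.scGen K r t) : ↥(D.group K)) : GL D.Idx K) = xGL R.xadd r t := by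
    intro r _ t
    rw [hθval, scTheta_scGen]
  have hψgen : ∀ r < D.nroots, ∀ t : K,
      ((ψ' (D.scGen K r t) : ↥(D.group K)) : GL D.Idx K) = xGL R.xadd (ρ r) ((ε r : K) * t) := by
    intro r hr t
    rw [hψval, gsPsi_scGen R ρ ρ' ε hOK hr]
  have hαsurj : Function.Surjective α₀ := by
    intro y
    obtain ⟨a, ha⟩ := hψsurj y
    exact ⟨θ' a, by rw [hα, ha]⟩
  have hαinj : Function.Injective α₀ := Finite.injective_iff_surjective.mpr hαsurj
  refine ⟨MulEquiv.ofBijective α₀ ⟨hαinj, hαsurj⟩, ?_⟩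
  intro g r t hr hg
  have hg' : g = θ' (D.scGen K r t) := by
    apply Subtype.ext
    rw [hθgen r hr]
    exact Units.ext hg
  show (((α₀ g : ↥(D.group K)) : GL D.Idx K) : Matrix D.Idx D.Idx K) = D.x K (ρ r) ((ε r : K) * t)
  rw [hg', hα, hψgen r hr, xGL_val]

end

end Cfsg.Agent.Helper36
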