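import Mathlib
import Cfsg.Agent.Helper96.OHDefs
import Cfsg.Agent.Helper69.ODDefs

set_option autoImplicit false
set_option linter.unusedSectionVars false
set_option linter.unusedVariables false

/-! CALL OD (helper69), piece DSBASIS (double by helper36): the discriminant class can be read off
any basis. -/

namespace Cfsg.Agent.Helper36.OD59

open Module Polynomial Cfsg Cfsg.Geo
open Cfsg.Agent.Helper13.TIu Cfsg.Agent.Helper96.OH Cfsg.Agent.Helper69.OD
open scoped MatrixGroups

variable {ι : Type} [Fintype ι] [DecidableEq ι] {F : Type*} [Field F] (Q : (ι → F) → F)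

theorem ods_iff_basis (hQ : IsNondegenerateQuadraticForm Q) (W : Submodule F (ι → F))
    {κ : Type} [Fintype κ] [DecidableEq κ] (e : Basis κ F W) :
    ODs Q W ↔ IsSquare (Matrix.det (Matrix.of fun i j : κ =>
      QuadraticMap.polar Q (e i : ι → F) (e j : ι → F))) := by
  classical
  have hG : ∀ {κ' : Type} [Fintype κ'] [DecidableEq κ'] (b : Basis κ' F W),
      (Matrix.of fun i j : κ' => QuadraticMap.polar Q (b i : ι → F) (b j : ι → F))
        = LinearMap.BilinForm.toMatrix b ((pB Q hQ).restrict W) := by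
    intro κ' _ _ b
    ext i j
    rw [LinearMap.BilinForm.toMatrix_apply]
    rfl
  have hcard : Fintype.card κ = finrank F W := (Module.finrank_eq_card_basis e).symm
  let σ : κ ≃ Fin (finrank F W) := Fintype.equivFinOfCardEq hcard
  let e₁ : Basis (Fin (finrank F W)) F W := e.reindex σ
  have hdet : Matrix.det (LinearMap.BilinForm.toMatrix e₁ ((pB Q hQ).restrict W))
      = Matrix.det (LinearMap.BilinForm.toMatrix e ((pB Q hQ).restrict W)) := by
    have h1 : LinearMap.BilinForm.toMatrix e₁ ((pB Q hQ).restrict W)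
        = Matrix.reindex σ σ (LinearMap.BilinForm.toMatrix e ((pB Q hQ).restrict W)) := by
      ext i j
      simp [e₁, LinearMap.BilinForm.toMatrix_apply, Basis.reindex_apply]
    rw [h1, Matrix.det_reindex_self]
  rw [hG e, ← hdet]
  constructor
  · rintro ⟨e₀, he₀⟩
    rw [hG e₀] at he₀
    have h1 := LinearMap.BilinForm.toMatrix_mul_basis_toMatrix e₀ e₁ ((pB Q hQ).restrict W)
    rw [← h1, Matrix.det_mul, Matrix.det_mul, Matrix.det_transpose]
    obtain ⟨s, hs⟩ := he₀
    exact ⟨(e₀.toMatrix e₁).det * s, by rw [hs]; ring⟩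
  · intro h
    exact ⟨e₁, by rw [hG e₁]; exact h⟩

end Cfsg.Agent.Helper36.OD59
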