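import Mathlib
import Cfsg.Agent.Helper96.OHDefs
import Cfsg.Agent.Helper69.ODDefs

set_option autoImplicit false
set_option linter.unusedSectionVars false
set_option linter.unusedVariables false

/-! CALL OD part 2 (helper69), piece PMS (double by helper36): a similarity of the minus form with
a nonsquare multiplier. -/

namespace Cfsg.Agent.Helper36.OD59

open Module Polynomial Cfsg Cfsg.Geo
open Cfsg.Agent.Helper13.TIu Cfsg.Agent.Helper96.OH Cfsg.Agent.Helper69.OD
open scoped MatrixGroups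

variable {ι : Type} [Fintype ι] [DecidableEq ι] {F : Type*} [Field F] (Q : (ι → F) → F)

theorem pms_fb_inl {l m : Type} [Fintype l] [Fintype m] (A : Matrix l l F) (B : Matrix l m F)
    (C : Matrix m l F) (D : Matrix m m F) (v : l ⊕ m → F) (i : l) :
    ((Matrix.fromBlocks A B C D).mulVec v) (Sum.inl i)
      = (A.mulVec (fun j => v (Sum.inl j))) i + (B.mulVec (fun j => v (Sum.inr j))) i := by
  have hv : v = Sum.elim (fun j => v (.inl j)) (fun j => v (.inr j)) := by
    funext x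
    cases x <;> rfl
  conv_lhs => rw [hv]
  rw [Matrix.fromBlocks_mulVec]
  simp

theorem pms_fb_inr {l m : Type} [Fintype l] [Fintype m] (A : Matrix l l F) (B : Matrix l m F)
    (C : Matrix m l F) (D : Matrix m m F) (v : l ⊕ m → F) (i : m) :
    ((Matrix.fromBlocks A B C D).mulVec v) (Sum.inr i)
      = (C.mulVec (fun j => v (Sum.inl j))) i + (D.mulVec (fun j => v (Sum.inr j))) i := by
  have hv : v = Sum.elim (fun j => v (.inl j)) (fun j => v (.inr j)) := by
    funext x
    cases x <;> rfl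
  conv_lhs => rw [hv]
  rw [Matrix.fromBlocks_mulVec]
  simp

theorem od_pm_sim [Fintype F] (h2 : (2 : F) ≠ 0) (n : ℕ) (a b : F)
    (hab : ∀ x y : F, x ^ 2 + a * x * y + b * y ^ 2 = 0 → x = 0 ∧ y = 0) :
    ∃ (S Sinv : Matrix ((Fin n ⊕ Fin n) ⊕ Fin 2) ((Fin n ⊕ Fin n) ⊕ Fin 2) F) (lam : F),
      ¬ IsSquare lam ∧ S * Sinv = 1 ∧ Sinv * S = 1 ∧
      ∀ v, Cfsg.quadFormMinus n F a b (S.mulVec v) = lam * Cfsg.quadFormMinus n F a b v := by
  classical
  have hchar : ringChar F ≠ 2 := by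
    intro h
    haveI : CharP F 2 := ringChar.of_eq h
    exact h2 (by exact_mod_cast CharP.cast_eq_zero F 2)
  obtain ⟨lam, hlam⟩ := FiniteField.exists_nonsquare hchar
  have hlam0 : lam ≠ 0 := by
    rintro rfl
    exact hlam ⟨0, by ring⟩
  have h4 : (4 : F) ≠ 0 := by
    have : (4 : F) = 2 * 2 := by norm_num
    rw [this]; exact mul_ne_zero h2 h2
  have hD : 4 * b - a ^ 2 ≠ 0 := by
    intro hD0
    have h := hab (-a) 2 (by linear_combination hD0)
    exact h2 h.2
  -- solve W² + (4b - a²) v² = 4 lam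
  obtain ⟨W, v, hUv⟩ := FiniteField.exists_root_sum_quadratic
    (f := (X : F[X]) ^ 2 - C (4 * lam)) (g := C (4 * b - a ^ 2) * X ^ 2)
    (degree_X_pow_sub_C (by decide) (4 * lam)) (degree_C_mul_X_pow 2 hD)
    (FiniteField.odd_card_of_char_ne_two hchar)
  simp only [eval_sub, eval_pow, eval_X, eval_C, eval_mul] at hUv
  set u : F := (W - a * v) * 2⁻¹ with hu
  have hu2 : 2 * u = W - a * v := by
    rw [hu, mul_comm (W - a * v), ← mul_assoc, mul_inv_cancel₀ h2, one_mul]
  have hnorm4 : 4 * (u ^ 2 + a * u * v + b * v ^ 2) = 4 * lam := by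
    linear_combination hUv + (2 * u + a * v + W) * hu2
  have hnorm : u ^ 2 + a * u * v + b * v ^ 2 = lam := mul_left_cancel₀ h4 hnorm4
  have hM : !![u, -(b * v); v, u + a * v] * !![u + a * v, b * v; -v, u]
      = lam • (1 : Matrix (Fin 2) (Fin 2) F) := by
    rw [Matrix.mul_fin_two]
    have h11 : u * (u + a * v) + -(b * v) * -v = lam := by linear_combination hnorm
    have h12 : u * (b * v) + -(b * v) * u = 0 := by ring
    have h21 : v * (u + a * v) + (u + a * v) * -v = 0 := by ring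
    have h22 : v * (b * v) + (u + a * v) * u = lam := by linear_combination hnorm
    rw [h11, h12, h21, h22]
    ext i j
    fin_cases i <;> fin_cases j <;> simp
  have hM' : !![u + a * v, b * v; -v, u] * !![u, -(b * v); v, u + a * v]
      = lam • (1 : Matrix (Fin 2) (Fin 2) F) := by
    rw [Matrix.mul_fin_two]
    have h11 : (u + a * v) * u + b * v * v = lam := by linear_combination hnorm
    have h12 : (u + a * v) * -(b * v) + b * v * (u + a * v) = 0 := by ring
    have h21 : -v * u + u * v = 0 := by ring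
    have h22 : -v * -(b * v) + u * (u + a * v) = lam := by linear_combination hnorm
    rw [h11, h12, h21, h22]
    ext i j
    fin_cases i <;> fin_cases j <;> simp
  obtain ⟨S, hS⟩ : ∃ S : Matrix ((Fin n ⊕ Fin n) ⊕ Fin 2) ((Fin n ⊕ Fin n) ⊕ Fin 2) F,
      S = Matrix.fromBlocks (Matrix.fromBlocks (lam • (1 : Matrix (Fin n) (Fin n) F)) 0 0
        (1 : Matrix (Fin n) (Fin n) F)) 0 0 !![u, -(b * v); v, u + a * v] := ⟨_, rfl⟩
  obtain ⟨Sinv, hSinv⟩ : ∃ S : Matrix ((Fin n ⊕ Fin n) ⊕ Fin 2) ((Fin n ⊕ Fin n) ⊕ Fin 2) F,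
      S = Matrix.fromBlocks (Matrix.fromBlocks (lam⁻¹ • (1 : Matrix (Fin n) (Fin n) F)) 0 0
        (1 : Matrix (Fin n) (Fin n) F)) 0 0 (lam⁻¹ • !![u + a * v, b * v; -v, u]) := ⟨_, rfl⟩
  refine ⟨S, Sinv, lam, hlam, ?_, ?_, ?_⟩
  · rw [hS, hSinv, Matrix.fromBlocks_multiply, Matrix.fromBlocks_multiply]
    have e1 : (lam • (1 : Matrix (Fin n) (Fin n) F)) * (lam⁻¹ • (1 : Matrix (Fin n) (Fin n) F)) = 1 := by
      rw [Matrix.smul_mul, Matrix.mul_smul, Matrix.one_mul, smul_smul, mul_inv_cancel₀ hlam0, one_smul]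
    have e2 : !![u, -(b * v); v, u + a * v] * (lam⁻¹ • !![u + a * v, b * v; -v, u])
        = (1 : Matrix (Fin 2) (Fin 2) F) := by
      rw [Matrix.mul_smul, hM, smul_smul, inv_mul_cancel₀ hlam0, one_smul]
    simp only [Matrix.mul_zero, Matrix.zero_mul, add_zero, zero_add, Matrix.mul_one, e1, e2,
      Matrix.fromBlocks_one]
  · rw [hS, hSinv, Matrix.fromBlocks_multiply, Matrix.fromBlocks_multiply]
    have e1 : (lam⁻¹ • (1 : Matrix (Fin n) (Fin n) F)) * (lam • (1 : Matrix (Fin n) (Fin n) F)) = 1 := by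
      rw [Matrix.smul_mul, Matrix.mul_smul, Matrix.one_mul, smul_smul, inv_mul_cancel₀ hlam0, one_smul]
    have e2 : (lam⁻¹ • !![u + a * v, b * v; -v, u]) * !![u, -(b * v); v, u + a * v]
        = (1 : Matrix (Fin 2) (Fin 2) F) := by
      rw [Matrix.smul_mul, hM', smul_smul, inv_mul_cancel₀ hlam0, one_smul]
    simp only [Matrix.mul_zero, Matrix.zero_mul, add_zero, zero_add, Matrix.mul_one, e1, e2,
      Matrix.fromBlocks_one]
  · intro w
    have h_ll : ∀ j : Fin n, (S.mulVec w) (Sum.inl (Sum.inl j)) = lam * w (Sum.inl (Sum.inl j)) := by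
      intro j
      rw [hS, pms_fb_inl, pms_fb_inl]
      simp [Matrix.smul_mulVec]
    have h_lr : ∀ j : Fin n, (S.mulVec w) (Sum.inl (Sum.inr j)) = w (Sum.inl (Sum.inr j)) := by
      intro j
      rw [hS, pms_fb_inl, pms_fb_inr]
      simp
    have h_r0 : (S.mulVec w) (Sum.inr 0) = u * w (Sum.inr 0) - b * v * w (Sum.inr 1) := by
      rw [hS, pms_fb_inr]
      simp [Matrix.mulVec, dotProduct, Fin.sum_univ_two]
      ring
    have h_r1 : (S.mulVec w) (Sum.inr 1) = v * w (Sum.inr 0) + (u + a * v) * w (Sum.inr 1) := by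
      rw [hS, pms_fb_inr]
      simp [Matrix.mulVec, dotProduct, Fin.sum_univ_two]
    unfold Cfsg.quadFormMinus
    simp only [h_ll, h_lr, h_r0, h_r1]
    have hs : ∑ j : Fin n, lam * w (Sum.inl (Sum.inl j)) * w (Sum.inl (Sum.inr j))
        = lam * ∑ j : Fin n, w (Sum.inl (Sum.inl j)) * w (Sum.inl (Sum.inr j)) := by
      rw [Finset.mul_sum]
      apply Finset.sum_congr rfl
      intro j _
      ring
    rw [hs]
    linear_combination (w (Sum.inr 0) ^ 2 + a * w (Sum.inr 0) * w (Sum.inr 1)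
      + b * w (Sum.inr 1) ^ 2) * hnorm

end Cfsg.Agent.Helper36.OD59
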