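import Cfsg.Agent.Helper36.QuadForms
import Cfsg.Agent.Helper36.SympInv

set_option autoImplicit false

namespace Cfsg.Agent.Helper36

open Matrix

section

variable {F : Type*} [Field F] [Fintype F] [CharP F 2] {m : ℕ}

omit [Fintype F] [CharP F 2] in
theorem quadFormOdd_eq (v : Unit ⊕ (Fin m ⊕ Fin m) → F) :
    Cfsg.quadFormOdd m F v
      = v (.inl ()) * v (.inl ()) + Cfsg.quadFormPlus m F (v ∘ Sum.inr) := by
  unfold Cfsg.quadFormOdd Cfsg.quadFormPlus
  rw [pow_two]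
  rfl

omit [Fintype F] in
theorem polarPlus_eq_sympForm (u v : Fin m ⊕ Fin m → F) :
    polarPlus m F u v = Cfsg.sympForm m F u v := by
  rw [polarPlus_apply, sympForm_expand]
  apply Finset.sum_congr rfl
  intro i _
  rw [CharTwo.sub_eq_add]
  ring

/-- The block matrix `[[1, a], [0, A]]`. -/
def oddMat (a : Matrix Unit (Fin m ⊕ Fin m) F)
    (A : Matrix (Fin m ⊕ Fin m) (Fin m ⊕ Fin m) F) :
    Matrix (Unit ⊕ (Fin m ⊕ Fin m)) (Unit ⊕ (Fin m ⊕ Fin m)) F :=
  Matrix.fromBlocks 1 a 0 A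

omit [Fintype F] [CharP F 2] in
theorem oddMat_mul (a a' : Matrix Unit (Fin m ⊕ Fin m) F)
    (A A' : Matrix (Fin m ⊕ Fin m) (Fin m ⊕ Fin m) F) :
    oddMat a A * oddMat a' A' = oddMat (a' + a * A') (A * A') := by
  unfold oddMat
  rw [Matrix.fromBlocks_multiply]
  simp

omit [Fintype F] [CharP F 2] in
theorem oddMat_mulVec (a : Matrix Unit (Fin m ⊕ Fin m) F)
    (A : Matrix (Fin m ⊕ Fin m) (Fin m ⊕ Fin m) F) (v : Unit ⊕ (Fin m ⊕ Fin m) → F) :
    oddMat a A *ᵥ v = Sum.elim (v ∘ Sum.inl + a *ᵥ (v ∘ Sum.inr)) (A *ᵥ (v ∘ Sum.inr)) := by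
  unfold oddMat
  rw [Matrix.fromBlocks_mulVec, Matrix.one_mulVec, Matrix.zero_mulVec, zero_add]

omit [Fintype F] in
/-- When `[[1, a], [0, A]]` preserves the odd quadratic form. -/
theorem oddMat_preserves_iff (a : Matrix Unit (Fin m ⊕ Fin m) F)
    (A : Matrix (Fin m ⊕ Fin m) (Fin m ⊕ Fin m) F) :
    (∀ v, Cfsg.quadFormOdd m F (oddMat a A *ᵥ v) = Cfsg.quadFormOdd m F v) ↔
      ∀ w : Fin m ⊕ Fin m → F, (a *ᵥ w) () * (a *ᵥ w) () + Cfsg.quadFormPlus m F (A *ᵥ w)
        = Cfsg.quadFormPlus m F w := by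
  have key : ∀ v : Unit ⊕ (Fin m ⊕ Fin m) → F, Cfsg.quadFormOdd m F (oddMat a A *ᵥ v)
      = v (.inl ()) * v (.inl ()) + ((a *ᵥ (v ∘ Sum.inr)) () * (a *ᵥ (v ∘ Sum.inr)) ()
        + Cfsg.quadFormPlus m F (A *ᵥ (v ∘ Sum.inr))) := by
    intro v
    rw [quadFormOdd_eq, oddMat_mulVec, Sum.elim_comp_inr, Sum.elim_inl, Pi.add_apply,
      CharTwo.add_mul_self, Function.comp_apply, add_assoc]
  constructor
  · intro h w
    have h1 := h (Sum.elim 0 w)
    rw [key, quadFormOdd_eq, Sum.elim_comp_inr, Sum.elim_inl] at h1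
    exact add_left_cancel h1
  · intro h v
    rw [key, h, quadFormOdd_eq]

omit [Fintype F] in
/-- The lower-right block of an isometry is symplectic. -/
theorem symplectic_of_oddMat (a : Matrix Unit (Fin m ⊕ Fin m) F)
    (A : Matrix (Fin m ⊕ Fin m) (Fin m ⊕ Fin m) F)
    (h : ∀ w : Fin m ⊕ Fin m → F, (a *ᵥ w) () * (a *ᵥ w) () + Cfsg.quadFormPlus m F (A *ᵥ w)
        = Cfsg.quadFormPlus m F w) : A ∈ Matrix.symplecticGroup (Fin m) F := by
  apply mem_symplectic_of_preserves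
  intro u v
  rw [← polarPlus_eq_sympForm, ← polarPlus_eq_sympForm]
  have h1 := h (u + v)
  rw [Matrix.mulVec_add, Matrix.mulVec_add, quadFormPlus_add, quadFormPlus_add, Pi.add_apply,
    CharTwo.add_mul_self, ← h u, ← h v] at h1
  linear_combination h1

/-- Existence of the top row for a symplectic lower-right block. -/
theorem exists_oddMat_row (A : Matrix (Fin m ⊕ Fin m) (Fin m ⊕ Fin m) F)
    (hA : A ∈ Matrix.symplecticGroup (Fin m) F) :
    ∃ a : Matrix Unit (Fin m ⊕ Fin m) F, ∀ w : Fin m ⊕ Fin m → F,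
      (a *ᵥ w) () * (a *ᵥ w) () + Cfsg.quadFormPlus m F (A *ᵥ w) = Cfsg.quadFormPlus m F w := by
  have hpol : ∀ u v, polarPlus m F (A *ᵥ u) (A *ᵥ v) = polarPlus m F u v := by
    intro u v
    rw [polarPlus_eq_sympForm, polarPlus_eq_sympForm]
    exact sympForm_mulVec hA u v
  have hDadd : ∀ u v : Fin m ⊕ Fin m → F,
      Cfsg.quadFormPlus m F (A *ᵥ (u + v)) + Cfsg.quadFormPlus m F (u + v)
      = (Cfsg.quadFormPlus m F (A *ᵥ u) + Cfsg.quadFormPlus m F u)
        + (Cfsg.quadFormPlus m F (A *ᵥ v) + Cfsg.quadFormPlus m F v) := by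
    intro u v
    rw [Matrix.mulVec_add, quadFormPlus_add, quadFormPlus_add, hpol]
    have := CharTwo.add_self_eq_zero (polarPlus m F u v)
    linear_combination this
  have hDsmul : ∀ (c : F) (v : Fin m ⊕ Fin m → F),
      Cfsg.quadFormPlus m F (A *ᵥ (c • v)) + Cfsg.quadFormPlus m F (c • v)
      = c * c * (Cfsg.quadFormPlus m F (A *ᵥ v) + Cfsg.quadFormPlus m F v) := by
    intro c v
    rw [Matrix.mulVec_smul, quadFormPlus_smul, quadFormPlus_smul]
    ring
  haveI : ExpChar F 2 := ExpChar.prime Nat.prime_two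
  let L : (Fin m ⊕ Fin m → F) →ₗ[F] (Unit → F) :=
    { toFun := fun v _ => (frobeniusEquiv F 2).symm
        (Cfsg.quadFormPlus m F (A *ᵥ v) + Cfsg.quadFormPlus m F v)
      map_add' := fun u v => by
        funext _
        rw [hDadd, map_add]
        rfl
      map_smul' := fun c v => by
        funext _
        rw [hDsmul, map_mul, RingHom.id_apply, Pi.smul_apply, smul_eq_mul]
        congr 1
        rw [← pow_two, ← frobenius_def, frobeniusEquiv_symm_apply_frobenius] }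
  have hL : ∀ v, L v () * L v ()
      = Cfsg.quadFormPlus m F (A *ᵥ v) + Cfsg.quadFormPlus m F v := by
    intro v
    show (frobeniusEquiv F 2).symm (Cfsg.quadFormPlus m F (A *ᵥ v) + Cfsg.quadFormPlus m F v)
      * (frobeniusEquiv F 2).symm (Cfsg.quadFormPlus m F (A *ᵥ v) + Cfsg.quadFormPlus m F v) = _
    rw [← pow_two, ← frobenius_def, frobenius_apply_frobeniusEquiv_symm]
  refine ⟨LinearMap.toMatrix' L, ?_⟩
  intro w
  rw [← Matrix.toLin'_apply, Matrix.toLin'_toMatrix', hL]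
  have := CharTwo.add_self_eq_zero (Cfsg.quadFormPlus m F (A *ᵥ w))
  linear_combination this

omit [Fintype F] in
/-- Uniqueness of the top row. -/
theorem oddMat_row_unique (a a' : Matrix Unit (Fin m ⊕ Fin m) F)
    (A : Matrix (Fin m ⊕ Fin m) (Fin m ⊕ Fin m) F)
    (h : ∀ w : Fin m ⊕ Fin m → F, (a *ᵥ w) () * (a *ᵥ w) () + Cfsg.quadFormPlus m F (A *ᵥ w)
        = Cfsg.quadFormPlus m F w)
    (h' : ∀ w : Fin m ⊕ Fin m → F, (a' *ᵥ w) () * (a' *ᵥ w) () + Cfsg.quadFormPlus m F (A *ᵥ w)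
        = Cfsg.quadFormPlus m F w) : a = a' := by
  ext u j
  have h1 := h (Pi.single j 1)
  have h2 := h' (Pi.single j 1)
  rw [← h2] at h1
  have h3 := add_right_cancel h1
  rw [Matrix.mulVec_single_one, Matrix.mulVec_single_one] at h3
  have h4 : (a u j + a' u j) * (a u j + a' u j) = 0 := by
    rw [CharTwo.add_mul_self]
    have : a u j * a u j = a' u j * a' u j := h3
    rw [this]
    exact CharTwo.add_self_eq_zero _
  exact CharTwo.add_eq_zero.1 (mul_self_eq_zero.1 h4)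

omit [Fintype F] in
/-- Structure of an isometry of the odd quadratic form: it fixes the radical vector. -/
theorem oddOrth_structure
    (G Ginv : Matrix (Unit ⊕ (Fin m ⊕ Fin m)) (Unit ⊕ (Fin m ⊕ Fin m)) F)
    (hGG : G * Ginv = 1)
    (hG : ∀ v, Cfsg.quadFormOdd m F (G *ᵥ v) = Cfsg.quadFormOdd m F v) :
    G = oddMat G.toBlocks₁₂ G.toBlocks₂₂ := by
  have hadd : ∀ u v : Unit ⊕ (Fin m ⊕ Fin m) → F, Cfsg.quadFormOdd m F (u + v)
      = Cfsg.quadFormOdd m F u + Cfsg.quadFormOdd m F v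
        + polarPlus m F (u ∘ Sum.inr) (v ∘ Sum.inr) := by
    intro u v
    rw [quadFormOdd_eq, quadFormOdd_eq, quadFormOdd_eq]
    have : (u + v) ∘ Sum.inr = u ∘ Sum.inr + v ∘ Sum.inr := rfl
    rw [this, quadFormPlus_add, Pi.add_apply, CharTwo.add_mul_self]
    ring
  have hpol : ∀ u v : Unit ⊕ (Fin m ⊕ Fin m) → F,
      polarPlus m F ((G *ᵥ u) ∘ Sum.inr) ((G *ᵥ v) ∘ Sum.inr)
        = polarPlus m F (u ∘ Sum.inr) (v ∘ Sum.inr) := by
    intro u v
    have h1 := hadd (G *ᵥ u) (G *ᵥ v)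
    rw [← Matrix.mulVec_add, hG, hG, hG, hadd u v] at h1
    exact (add_left_cancel h1).symm
  have hcol : (G *ᵥ Pi.single (Sum.inl ()) 1) ∘ Sum.inr = 0 := by
    apply polarPlus_nd
    intro w
    have h1 := hpol (Pi.single (Sum.inl ()) 1) (Ginv *ᵥ (Sum.elim 0 w))
    rw [Matrix.mulVec_mulVec, hGG, Matrix.one_mulVec, Sum.elim_comp_inr] at h1
    rw [h1]
    have : (Pi.single (Sum.inl ()) 1 : Unit ⊕ (Fin m ⊕ Fin m) → F) ∘ Sum.inr = 0 := by
      funext j
      simp
    rw [this, map_zero, LinearMap.zero_apply]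
  have h21 : ∀ j, G (Sum.inr j) (Sum.inl ()) = 0 := by
    intro j
    have := congrFun hcol j
    rw [Matrix.mulVec_single_one] at this
    exact this
  have h11 : G (Sum.inl ()) (Sum.inl ()) = 1 := by
    have h1 := hG (Pi.single (Sum.inl ()) 1)
    rw [quadFormOdd_eq, quadFormOdd_eq, hcol] at h1
    have : (Pi.single (Sum.inl ()) 1 : Unit ⊕ (Fin m ⊕ Fin m) → F) ∘ Sum.inr = 0 := by
      funext j
      simp
    rw [this, Matrix.mulVec_single_one] at h1
    have h2 : G (Sum.inl ()) (Sum.inl ()) * G (Sum.inl ()) (Sum.inl ()) = 1 := by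
      have := add_right_cancel h1
      simpa using this
    have h3 : (G (Sum.inl ()) (Sum.inl ()) + 1) * (G (Sum.inl ()) (Sum.inl ()) + 1) = 0 := by
      rw [CharTwo.add_mul_self, h2, one_mul]
      exact CharTwo.add_self_eq_zero _
    exact CharTwo.add_eq_zero.1 (mul_self_eq_zero.1 h3)
  unfold oddMat
  ext x y
  rcases x with u | i <;> rcases y with u' | j
  · simpa using h11
  · rfl
  · simpa using h21 i
  · rfl

end

end Cfsg.Agent.Helper36
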