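import Cfsg.Agent.Helper36.Ree19
import Cfsg.Agent.Helper36.OutCyc

/-!
# Automorphisms of the Ree groups `²G₂(q)` normalising `U¹` and `V¹` (helper36)
-/

set_option autoImplicit false
set_option linter.unusedSectionVars false
set_option linter.unusedVariables false

namespace Cfsg.Agent.Helper36

open Cfsg Cfsg.Lie

/-- An automorphism mapping a finite subgroup into itself maps it onto itself. -/
theorem aut_mem_of_map_mem {G : Type*} [Group G] [Finite G] (S : Subgroup G) (α : MulAut G)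
    (h : ∀ g ∈ S, α g ∈ S) : ∀ g, α g ∈ S → g ∈ S := by
  intro g hg
  let f : ↥S → ↥S := fun s => ⟨α s.1, h s.1 s.2⟩
  have hf : Function.Injective f := by
    intro a b hab
    have : α a.1 = α b.1 := congrArg Subtype.val hab
    exact Subtype.ext (α.injective this)
  obtain ⟨s, hs⟩ := (Finite.surjective_of_injective hf) ⟨α g, hg⟩
  have : α s.1 = α g := congrArg Subtype.val hs
  rw [← α.injective this]
  exact s.2

section ree20

variable {K : Type*} [Field K] [CharP K 3] [Fintype K] {m : ℕ}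

theorem rn_inv_conj_U_V (hK : Fintype.card K = 3 ^ (2 * m + 1)) {u : ↥(twistedG2 K (3 ^ m))}
    (hu : u ∈ rU K m) :
    (((rn K m)⁻¹ * u * rn K m : ↥(twistedG2 K (3 ^ m))) : GL chevG2.Idx K) ∈
      chevG2.negUnipotent K := by
  have h := ree_N_conj_U hK (inv_mem (reeN0_mem_N (xAdd_of_mem (F := K) g2_mem)))
    (inv_mem (reeN0_mem_G1 (xAdd_of_mem (F := K) g2_mem) m))
    (fun hc => reeN0_not_mem_H (xAdd_of_mem (F := K) g2_mem) (by
      have := inv_mem hc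
      rwa [inv_inv] at this)) _ (mem_rU.mp hu)
  rw [inv_inv] at h
  exact h

theorem rn_conj_U_V (hK : Fintype.card K = 3 ^ (2 * m + 1)) {u : ↥(twistedG2 K (3 ^ m))}
    (hu : u ∈ rU K m) :
    ((rn K m * u * (rn K m)⁻¹ : ↥(twistedG2 K (3 ^ m))) : GL chevG2.Idx K) ∈
      chevG2.negUnipotent K :=
  ree_N_conj_U hK (reeN0_mem_N (xAdd_of_mem (F := K) g2_mem))
    (reeN0_mem_G1 (xAdd_of_mem (F := K) g2_mem) m)
    (reeN0_not_mem_H (xAdd_of_mem (F := K) g2_mem)) _ (mem_rU.mp hu)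

theorem rV_mem_V (hK : Fintype.card K = 3 ^ (2 * m + 1)) {v : ↥(twistedG2 K (3 ^ m))}
    (hv : v ∈ rV K m) : (v : GL chevG2.Idx K) ∈ chevG2.negUnipotent K := by
  have h := rn_conj_U_V hK (mem_rV.mp hv)
  have e : rn K m * ((rn K m)⁻¹ * v * rn K m) * (rn K m)⁻¹ = v := by group
  rw [e] at h
  exact h

theorem rn_conj_mem_rV {u : ↥(twistedG2 K (3 ^ m))} (hu : u ∈ rU K m) :
    rn K m * u * (rn K m)⁻¹ ∈ rV K m := by
  apply mem_rV.mpr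
  have e : (rn K m)⁻¹ * (rn K m * u * (rn K m)⁻¹) * rn K m = u := by group
  rw [e]
  exact hu

theorem rU_inf_rV (hK : Fintype.card K = 3 ^ (2 * m + 1)) {u : ↥(twistedG2 K (3 ^ m))}
    (hu : u ∈ rU K m) (hv : u ∈ rV K m) : u = 1 :=
  Subtype.ext (g2_U_inf_V (mem_rU.mp hu) (rV_mem_V hK hv))

theorem rB_inf_rV (hK : Fintype.card K = 3 ^ (2 * m + 1)) {u : ↥(twistedG2 K (3 ^ m))}
    (hu : u ∈ rB K m) (hv : u ∈ rV K m) : u = 1 := by
  have R := bRel_of_mem (F := K) g2_mem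
  have h : (u : GL chevG2.Idx K) ∈ chevG2.borelSubgroup K ⊓ chevG2.negUnipotent K :=
    Subgroup.mem_inf.mpr ⟨mem_rB.mp hu, rV_mem_V hK hv⟩
  rw [R.bv, Subgroup.mem_bot] at h
  exact Subtype.ext h

theorem rH_conj_rU {h u : ↥(twistedG2 K (3 ^ m))} (hh : h ∈ rH K m) (hu : u ∈ rU K m) :
    h * u * h⁻¹ ∈ rU K m := rB_conj_rU (rH_le_rB hh) hu

theorem rn_inv_conj_rH {h : ↥(twistedG2 K (3 ^ m))} (hh : h ∈ rH K m) :
    (rn K m)⁻¹ * h * rn K m ∈ rH K m := by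
  have R := bRel_of_mem (F := K) g2_mem
  exact mem_rH.mpr (R.N_conj_H' _ (reeN0_mem_N (xAdd_of_mem (F := K) g2_mem)) _ (mem_rH.mp hh))

theorem rH_conj_rV {h v : ↥(twistedG2 K (3 ^ m))} (hh : h ∈ rH K m) (hv : v ∈ rV K m) :
    h * v * h⁻¹ ∈ rV K m := by
  apply mem_rV.mpr
  have e : (rn K m)⁻¹ * (h * v * h⁻¹) * rn K m =
      ((rn K m)⁻¹ * h * rn K m) * ((rn K m)⁻¹ * v * rn K m) * ((rn K m)⁻¹ * h * rn K m)⁻¹ := by
    group
  rw [e]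
  exact rH_conj_rU (rn_inv_conj_rH hh) (mem_rV.mp hv)

/-- `H¹` is the intersection of the normalisers of `U¹` and `V¹`. -/
theorem ree_H_char (hK : Fintype.card K = 3 ^ (2 * m + 1)) (g : ↥(twistedG2 K (3 ^ m))) :
    g ∈ rH K m ↔ (∀ u ∈ rU K m, g * u * g⁻¹ ∈ rU K m) ∧ (∀ v ∈ rV K m, g * v * g⁻¹ ∈ rV K m) := by
  obtain ⟨σ, hσ⟩ := exists_reeSig hK
  constructor
  · intro hg
    exact ⟨fun u hu => rH_conj_rU hg hu, fun v hv => rH_conj_rV hg hv⟩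
  · rintro ⟨hU, hV⟩
    have hB := ree_norm_U hK g hU
    obtain ⟨u, hu, h, hh, e⟩ := ree_B_decomp hK hσ (mem_rB.mp hB) g.2
    obtain ⟨huU, huG⟩ := Subgroup.mem_inf.mp hu
    obtain ⟨hhH, hhG⟩ := Subgroup.mem_inf.mp hh
    have hhr : (⟨h, hhG⟩ : ↥(twistedG2 K (3 ^ m))) ∈ rH K m := mem_rH.mpr hhH
    have hur : (⟨u, huG⟩ : ↥(twistedG2 K (3 ^ m))) ∈ rU K m := mem_rU.mpr huU
    have hg : g = (⟨u, huG⟩ : ↥(twistedG2 K (3 ^ m))) * ⟨h, hhG⟩ := Subtype.ext e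
    -- `u` normalises `V¹`
    have huV : ∀ v ∈ rV K m, (⟨u, huG⟩ : ↥(twistedG2 K (3 ^ m))) * v *
        (⟨u, huG⟩ : ↥(twistedG2 K (3 ^ m)))⁻¹ ∈ rV K m := by
      intro v hv
      have h1 := hV _ (rH_conj_rV (inv_mem hhr) hv)
      have e1 : g * ((⟨h, hhG⟩ : ↥(twistedG2 K (3 ^ m)))⁻¹ * v *
          (⟨h, hhG⟩ : ↥(twistedG2 K (3 ^ m)))⁻¹⁻¹) * g⁻¹ =
          (⟨u, huG⟩ : ↥(twistedG2 K (3 ^ m))) * v * (⟨u, huG⟩ : ↥(twistedG2 K (3 ^ m)))⁻¹ := by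
        rw [hg]; group
      rw [e1] at h1
      exact h1
    -- `w = n₀⁻¹ u n₀` normalises `U¹`
    have hwB : (rn K m)⁻¹ * (⟨u, huG⟩ : ↥(twistedG2 K (3 ^ m))) * rn K m ∈ rB K m := by
      apply ree_norm_U hK
      intro u' hu'
      have h1 := mem_rV.mp (huV _ (rn_conj_mem_rV hu'))
      have e1 : (rn K m)⁻¹ * ((⟨u, huG⟩ : ↥(twistedG2 K (3 ^ m))) * (rn K m * u' * (rn K m)⁻¹) *
          (⟨u, huG⟩ : ↥(twistedG2 K (3 ^ m)))⁻¹) * rn K m =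
          ((rn K m)⁻¹ * (⟨u, huG⟩ : ↥(twistedG2 K (3 ^ m))) * rn K m) * u' *
            ((rn K m)⁻¹ * (⟨u, huG⟩ : ↥(twistedG2 K (3 ^ m))) * rn K m)⁻¹ := by group
      rw [e1] at h1
      exact h1
    have hwV := rn_inv_conj_U_V hK hur
    have R := bRel_of_mem (F := K) g2_mem
    have hw1 : (((rn K m)⁻¹ * (⟨u, huG⟩ : ↥(twistedG2 K (3 ^ m))) * rn K m :
        ↥(twistedG2 K (3 ^ m))) : GL chevG2.Idx K) ∈
        chevG2.borelSubgroup K ⊓ chevG2.negUnipotent K :=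
      Subgroup.mem_inf.mpr ⟨mem_rB.mp hwB, hwV⟩
    rw [R.bv, Subgroup.mem_bot] at hw1
    have hw2 : (rn K m)⁻¹ * (⟨u, huG⟩ : ↥(twistedG2 K (3 ^ m))) * rn K m = 1 := Subtype.ext hw1
    have hu1 : (⟨u, huG⟩ : ↥(twistedG2 K (3 ^ m))) = 1 := by
      have e2 : (⟨u, huG⟩ : ↥(twistedG2 K (3 ^ m))) =
          rn K m * ((rn K m)⁻¹ * (⟨u, huG⟩ : ↥(twistedG2 K (3 ^ m))) * rn K m) * (rn K m)⁻¹ := by
        group
      rw [e2, hw2]; group
    rw [hg, hu1, one_mul]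
    exact hhr

/-- `U¹` is a Sylow 3-subgroup. -/
theorem rU_sylow (hK : Fintype.card K = 3 ^ (2 * m + 1)) :
    IsPGroup 3 ↥(rU K m) ∧ ¬ 3 ∣ (rU K m).index ∧ Nat.card ↥(rU K m) = (3 ^ (2 * m + 1)) ^ 3 := by
  obtain ⟨σ, hσ⟩ := exists_reeSig hK
  have hUc : Nat.card ↥(rU K m) = (3 ^ (2 * m + 1)) ^ 3 := by
    rw [← ree_U_card hK hσ]
    unfold rU
    rw [← Subgroup.inf_subgroupOf_right]
    exact Nat.card_congr (Subgroup.subgroupOfEquivOfLe (inf_le_right)).toEquiv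
  refine ⟨IsPGroup.of_card (n := (2 * m + 1) * 3) (by rw [hUc, pow_mul]), ?_, hUc⟩
  have h1 := (rU K m).index_mul_card
  rw [hUc, ree_card hK hσ] at h1
  have hq : 0 < (3 ^ (2 * m + 1)) ^ 3 := by positivity
  have h2 : (rU K m).index = (3 ^ (2 * m + 1) - 1) * ((3 ^ (2 * m + 1)) ^ 3 + 1) := by
    apply Nat.eq_of_mul_eq_mul_right hq
    rw [h1]; ring
  rw [h2]
  obtain ⟨q, hq2⟩ : ∃ q, 3 ^ (2 * m + 1) = 3 * q := ⟨3 ^ (2 * m), by rw [pow_succ]; ring⟩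
  have hq1 : 1 ≤ q := by
    rcases Nat.eq_zero_or_pos q with h | h
    · rw [h] at hq2; simp at hq2
    · exact h
  rw [hq2]
  intro hdvd
  have o1 : ¬ 3 ∣ (3 * q - 1) := by omega
  have o2 : ¬ 3 ∣ ((3 * q) ^ 3 + 1) := by
    intro h
    have : 3 ∣ (3 * q) ^ 3 := Dvd.dvd.pow (dvd_mul_right 3 q) (by norm_num)
    omega
  rcases (Nat.Prime.dvd_mul Nat.prime_three).mp hdvd with h | h
  · exact o1 h
  · exact o2 h

end ree20

end Cfsg.Agent.Helper36
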