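import Mathlib
import Cfsg.Prelude.Def_KGroupFacts
import Cfsg.Prelude.Def_LieTwisted
import Cfsg.Agent.Helper65.R3Defs
import Cfsg.Agent.Helper35.StemSylow
import Cfsg.Agent.Helper36.Ree20

/-!
# CALL S2113 (helper65), piece G3: the Ree glue for the prime 3 (helper36)
-/

set_option autoImplicit false

namespace Cfsg.Agent.Helper36

open scoped commutatorElement
open Cfsg.Agent.Helper65

/-- The torus elements `rh z` of the Ree group commute. -/
theorem rh_commute {K : Type*} [Field K] [Fintype K] [CharP K 3] {m : ℕ}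
    (hK : Fintype.card K = 3 ^ (2 * m + 1)) (z z' : Kˣ) :
    rh hK z * rh hK z' = rh hK z' * rh hK z := by
  apply Subtype.ext
  have hz : (z : K) ≠ 0 := z.ne_zero
  have hz' : (z' : K) ≠ 0 := z'.ne_zero
  have ha : frT K m (z : K) ≠ 0 := (map_ne_zero _).mpr hz
  have ha' : frT K m (z' : K) ≠ 0 := (map_ne_zero _).mpr hz'
  have c77 := g2_hGL_comm (xAdd_of_mem (F := K) g2_mem) (r := 7) (s := 7) (by norm_num)
    (by norm_num) ha ha'
  have c76 := g2_hGL_comm (xAdd_of_mem (F := K) g2_mem) (r := 7) (s := 6) (by norm_num)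
    (by norm_num) ha hz'
  have c67 := g2_hGL_comm (xAdd_of_mem (F := K) g2_mem) (r := 6) (s := 7) (by norm_num)
    (by norm_num) hz ha'
  have c66 := g2_hGL_comm (xAdd_of_mem (F := K) g2_mem) (r := 6) (s := 6) (by norm_num)
    (by norm_num) hz hz'
  exact ((c77.mul_right c76).mul_left (c67.mul_right c66)).eq

/-- PIECE G3 (Ree glue for the prime 3; `hmain` is `r3_main` of `tools/calls/R3Asm.lean.txt`). -/
theorem ree_three_part {K : Type*} [Field K] [Fintype K] [CharP K 3] {m : ℕ} (hm : 1 ≤ m)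
    (hK : Fintype.card K = 3 ^ (2 * m + 1))
    {Γ : Type*} [Group Γ] [Finite Γ] (σ : Γ →* ↥(Cfsg.Lie.twistedG2 K (3 ^ m)))
    (hσ : Cfsg.IsStemExtension σ)
    (hmain : ∀ S : Cfsg.Agent.Helper65.R3 K ↥(Cfsg.Lie.twistedG2 K (3 ^ m)) Γ,
      ∀ w ∈ Subgroup.closure {c : Γ | ∃ x y : Γ, (∃ t u v, S.σ x = S.X t u v) ∧
        (∃ t u v, S.σ y = S.X t u v) ∧ c = ⁅x, y⁆}, S.σ w = 1 → w = 1)
    (z : Γ) (hz : z ∈ σ.ker) (hz3 : orderOf z = 3) : False := by
  classical
  obtain ⟨hsurj, hcen, hder⟩ := hσ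
  let S : Cfsg.Agent.Helper65.R3 K ↥(Cfsg.Lie.twistedG2 K (3 ^ m)) Γ :=
    { L := frL K m
      X := rx K m
      η := fun c => if h : c = 0 then 1 else rh hK (Units.mk0 c h)
      σ := σ
      hLL := frL_frL hK
      hX := rx_mul hK
      hη := by
        intro c hc t u v
        rw [dif_neg hc]
        exact rh_conj hK (Units.mk0 c hc) t u v
      hηc := by
        intro c c' hc hc'
        rw [dif_neg hc, dif_neg hc']
        exact rh_commute hK _ _
      hinj := fun t u v t' u' v' h => rx_inj h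
      hcen := hcen
      hsec := fun t u v => hsurj (rx K m t u v)
      htor := fun c hc => hsurj _ }
  let P : Subgroup Γ := (rU K m).comap σ
  have hPidx : P.index = (rU K m).index := Subgroup.index_comap_of_surjective _ hsurj
  obtain ⟨hmem, hcomm⟩ := Cfsg.Agent.Helper35.stem_pow_index_mem_commutator P z (hcen hz) (hder hz)
  let T : Set Γ := {c : Γ | ∃ x y : Γ, (∃ t u v, S.σ x = S.X t u v) ∧
        (∃ t u v, S.σ y = S.X t u v) ∧ c = ⁅x, y⁆}
  have hle : commutator P ≤ (Subgroup.closure T).comap P.subtype := by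
    rw [_root_.commutator_def, Subgroup.commutator_le]
    intro a _ b _
    rw [Subgroup.mem_comap]
    apply Subgroup.subset_closure
    refine ⟨(a : Γ), (b : Γ), ?_, ?_, ?_⟩
    · exact (mem_U_iff hK _).mp (mem_rU.mp a.2)
    · exact (mem_U_iff hK _).mp (mem_rU.mp b.2)
    · simp [commutatorElement_def]
  have h1 : z ^ P.index ∈ Subgroup.closure T := hle hcomm
  have h2 : σ (z ^ P.index) = 1 := by
    rw [map_pow, MonoidHom.mem_ker.mp hz, one_pow]
  have h3 : z ^ P.index = 1 := hmain S _ h1 h2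
  have h4 : orderOf z ∣ P.index := orderOf_dvd_of_pow_eq_one h3
  rw [hz3, hPidx] at h4
  exact (rU_sylow hK).2.1 h4

end Cfsg.Agent.Helper36
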