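import Cfsg.Agent.Helper36.Ree18

/-!
# Coordinates on `U¹` and `H¹` of the Ree groups `²G₂(q)` (helper36)

`rx t u v`, `rh z`, `rn` are the elements `x(t, u, v)`, `h(z)`, `n₀` as elements of the group `²G₂(q)`;
the product law of `U¹`, the action of `H¹`, and group theoretic characterisations of `B¹` and `H¹`.
-/

set_option autoImplicit false
set_option linter.unusedSectionVars false
set_option linter.unusedVariables false

namespace Cfsg.Agent.Helper36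

open Cfsg Cfsg.Lie

section ree19

variable {K : Type*} [Field K] [CharP K 3] [Fintype K] {m : ℕ}
  {σ : ↥(chevG2.group K) →* ↥(chevG2.group K)}

/-- The product law of `U¹`. -/
theorem reeU_mul (hK : Fintype.card K = 3 ^ (2 * m + 1)) (hσ : ReeSig m σ) (hX : XAdd chevG2 K)
    (t u v t' u' v' : K) :
    wordGL hX (reeWordU (3 ^ m) t u v) * wordGL hX (reeWordU (3 ^ m) t' u' v') =
      wordGL hX (reeWordU (3 ^ m) (t + t') (u + u' - t * frL K m t')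
        (v + v' - t' * u + t * t' * frL K m t' - t ^ 2 * frL K m t')) := by
  have hmem : wordGL hX (reeWordU (3 ^ m) t u v) * wordGL hX (reeWordU (3 ^ m) t' u' v') ∈
      chevG2.posUnipotent K ⊓ twistedG2 K (3 ^ m) :=
    Subgroup.mem_inf.mpr ⟨mul_mem (reeU_mem_U hX _ _ _) (reeU_mem_U hX _ _ _),
      mul_mem (reeU_mem_G1 hX _ _ _) (reeU_mem_G1 hX _ _ _)⟩
  obtain ⟨t₂, u₂, v₂, e⟩ := (ree_U_iff hK hσ hX _).mp hmem
  rw [e]
  rw [wordGL_reeU, wordGL_reeU, g2_U_mul, wordGL_reeU] at e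
  obtain ⟨-, h2, -, -, h5, h6⟩ := g2_U_unique hX e
  rw [← h2, ← h5, ← h6, frT_pow3]
  congr 1 <;> ring

/-- `x(t, u, v)` as an element of the Ree group. -/
noncomputable def rx (K : Type*) [Field K] [CharP K 3] [Fintype K] (m : ℕ) (t u v : K) :
    ↥(twistedG2 K (3 ^ m)) :=
  ⟨wordGL (xAdd_of_mem (F := K) g2_mem) (reeWordU (3 ^ m) t u v), reeU_mem_G1 _ t u v⟩

/-- `h(z)` as an element of the Ree group. -/
noncomputable def rh (hK : Fintype.card K = 3 ^ (2 * m + 1)) (z : Kˣ) : ↥(twistedG2 K (3 ^ m)) :=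
  ⟨hGL (xAdd_of_mem (F := K) g2_mem) 7 (frT K m z) * hGL (xAdd_of_mem (F := K) g2_mem) 6 z,
    reeH_mem hK _ z.ne_zero⟩

/-- `n₀` as an element of the Ree group. -/
noncomputable def rn (K : Type*) [Field K] [CharP K 3] [Fintype K] (m : ℕ) :
    ↥(twistedG2 K (3 ^ m)) :=
  ⟨reeN0 (xAdd_of_mem (F := K) g2_mem), reeN0_mem_G1 _ m⟩

theorem rx_mem_U (t u v : K) :
    ((rx K m t u v : ↥(twistedG2 K (3 ^ m))) : GL chevG2.Idx K) ∈ chevG2.posUnipotent K :=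
  reeU_mem_U _ t u v

theorem rx_mul (hK : Fintype.card K = 3 ^ (2 * m + 1)) (t u v t' u' v' : K) :
    rx K m t u v * rx K m t' u' v' = rx K m (t + t') (u + u' - t * frL K m t')
      (v + v' - t' * u + t * t' * frL K m t' - t ^ 2 * frL K m t') := by
  obtain ⟨σ, hσ⟩ := exists_reeSig hK
  exact Subtype.ext (reeU_mul hK hσ _ t u v t' u' v')

theorem rx_inj {t u v t' u' v' : K} (h : rx K m t u v = rx K m t' u' v') :
    t = t' ∧ u = u' ∧ v = v' :=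
  reeU_inj _ (congrArg Subtype.val h)

theorem rx_zero : rx K m 0 0 0 = 1 := by
  apply Subtype.ext
  exact reeU_zero _

theorem mem_U_iff (hK : Fintype.card K = 3 ^ (2 * m + 1)) (g : ↥(twistedG2 K (3 ^ m))) :
    (g : GL chevG2.Idx K) ∈ chevG2.posUnipotent K ↔ ∃ t u v : K, g = rx K m t u v := by
  obtain ⟨σ, hσ⟩ := exists_reeSig hK
  constructor
  · intro h
    obtain ⟨t, u, v, e⟩ := (ree_U_iff hK hσ (xAdd_of_mem (F := K) g2_mem) _).mp
      (Subgroup.mem_inf.mpr ⟨h, g.2⟩)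
    exact ⟨t, u, v, Subtype.ext e⟩
  · rintro ⟨t, u, v, rfl⟩
    exact rx_mem_U t u v

theorem rh_mem_H (hK : Fintype.card K = 3 ^ (2 * m + 1)) (z : Kˣ) :
    ((rh hK z : ↥(twistedG2 K (3 ^ m))) : GL chevG2.Idx K) ∈ chevG2.diagonalSubgroup K :=
  mul_mem (hGL_mem _ (by decide) ((map_ne_zero _).mpr z.ne_zero)) (hGL_mem _ (by decide) z.ne_zero)

theorem mem_H_iff (hK : Fintype.card K = 3 ^ (2 * m + 1)) (g : ↥(twistedG2 K (3 ^ m))) :
    (g : GL chevG2.Idx K) ∈ chevG2.diagonalSubgroup K ↔ ∃ z : Kˣ, g = rh hK z := by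
  obtain ⟨σ, hσ⟩ := exists_reeSig hK
  constructor
  · intro h
    obtain ⟨z, hz, e⟩ := ree_H_fixed hK hσ (xAdd_of_mem (F := K) g2_mem) h
      (twistedG2_le_sigFix hK hσ g.2).2
    exact ⟨Units.mk0 z hz, Subtype.ext e⟩
  · rintro ⟨z, rfl⟩
    exact rh_mem_H hK z

/-- The action of `h(z)` on `U¹`. -/
theorem rh_conj (hK : Fintype.card K = 3 ^ (2 * m + 1)) (z : Kˣ) (t u v : K) :
    rh hK z * rx K m t u v * (rh hK z)⁻¹ =
      rx K m ((frL K m z)⁻¹ * (z : K) ^ 2 * t) (frL K m z * (z : K)⁻¹ * u) (z * v) := by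
  obtain ⟨σ, hσ⟩ := exists_reeSig hK
  apply Subtype.ext
  have h := ree_h_conj hK hσ (xAdd_of_mem (F := K) g2_mem) z.ne_zero rfl t u v
  rw [frT_pow3] at h
  exact h

theorem rx_mul0 (hK : Fintype.card K = 3 ^ (2 * m + 1)) (t u v u' v' : K) :
    rx K m t u v * rx K m 0 u' v' = rx K m t (u + u') (v + v') := by
  rw [rx_mul hK]
  congr 1 <;> simp

theorem rx_split (hK : Fintype.card K = 3 ^ (2 * m + 1)) (t u v : K) :
    rx K m t u v = rx K m t 0 0 * rx K m 0 u v := by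
  rw [rx_mul0 hK, zero_add, zero_add]

theorem rx_pow3 (hK : Fintype.card K = 3 ^ (2 * m + 1)) (t u v : K) :
    rx K m t u v ^ 3 = rx K m 0 0 (-(t ^ 2 * frL K m t)) := by
  have h3 : (3 : K) = 0 := by
    have := CharP.cast_eq_zero K 3
    exact_mod_cast this
  rw [pow_succ, pow_two, rx_mul hK, rx_mul hK]
  congr 1
  · linear_combination t * h3
  · linear_combination (u - t * frL K m t) * h3
  · linear_combination (v - t * u) * h3

theorem rx_ne_one : rx K m 1 0 0 ≠ 1 := by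
  intro h
  rw [← rx_zero] at h
  exact one_ne_zero (rx_inj h).1

theorem frL_frL (hK : Fintype.card K = 3 ^ (2 * m + 1)) (c : K) :
    frL K m (frL K m c) = c ^ 3 := by
  rw [← frT_pow3 m (frL K m c), frT_frL hK]

theorem ree_exists_L (hK : Fintype.card K = 3 ^ (2 * m + 1)) (hm : 1 ≤ m) :
    ∃ t : K, frL K m t ≠ t := by
  obtain ⟨z, -, hz3⟩ := ree_exists_z hK hm
  by_contra hcon
  push Not at hcon
  apply hz3
  have h1 : frT K m z = z := by
    have := frT_frL hK z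
    rwa [hcon z] at this
  rw [← h1, frT_pow3, hcon, h1]

/-- `χ` is onto: `χ(c² c^r) = c`. -/
theorem ree_chi_surj (hK : Fintype.card K = 3 ^ (2 * m + 1)) {c : K} (hc : c ≠ 0) :
    (frL K m (c ^ 2 * frL K m c))⁻¹ * (c ^ 2 * frL K m c) ^ 2 = c := by
  have hL : frL K m c ≠ 0 := (map_ne_zero _).mpr hc
  rw [map_mul, map_pow, frL_frL hK]
  field_simp

/-- `χ` is one-to-one: `z = χ(z)² χ(z)^r`. -/
theorem ree_chi_inv (hK : Fintype.card K = 3 ^ (2 * m + 1)) {z : K} (hz : z ≠ 0) :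
    ((frL K m z)⁻¹ * z ^ 2) ^ 2 * frL K m ((frL K m z)⁻¹ * z ^ 2) = z := by
  have hL : frL K m z ≠ 0 := (map_ne_zero _).mpr hz
  rw [map_mul, map_inv₀, map_pow, frL_frL hK]
  field_simp

/-- `U¹`, `H¹`, `B¹` as subgroups of the Ree group. -/
def rU (K : Type*) [Field K] (m : ℕ) : Subgroup ↥(twistedG2 K (3 ^ m)) :=
  (chevG2.posUnipotent K).subgroupOf (twistedG2 K (3 ^ m))

def rH (K : Type*) [Field K] (m : ℕ) : Subgroup ↥(twistedG2 K (3 ^ m)) :=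
  (chevG2.diagonalSubgroup K).subgroupOf (twistedG2 K (3 ^ m))

def rB (K : Type*) [Field K] (m : ℕ) : Subgroup ↥(twistedG2 K (3 ^ m)) :=
  (chevG2.borelSubgroup K).subgroupOf (twistedG2 K (3 ^ m))

/-- The opposite unipotent subgroup `n₀ U¹ n₀⁻¹`. -/
noncomputable def rV (K : Type*) [Field K] [CharP K 3] [Fintype K] (m : ℕ) :
    Subgroup ↥(twistedG2 K (3 ^ m)) where
  carrier := {v | (rn K m)⁻¹ * v * rn K m ∈ rU K m}
  mul_mem' := by
    intro a b ha hb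
    have e : (rn K m)⁻¹ * (a * b) * rn K m =
        ((rn K m)⁻¹ * a * rn K m) * ((rn K m)⁻¹ * b * rn K m) := by group
    show (rn K m)⁻¹ * (a * b) * rn K m ∈ rU K m
    rw [e]
    exact mul_mem ha hb
  one_mem' := by
    show (rn K m)⁻¹ * 1 * rn K m ∈ rU K m
    have e : (rn K m)⁻¹ * 1 * rn K m = 1 := by group
    rw [e]
    exact one_mem _
  inv_mem' := by
    intro a ha
    have e : (rn K m)⁻¹ * a⁻¹ * rn K m = ((rn K m)⁻¹ * a * rn K m)⁻¹ := by group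
    show (rn K m)⁻¹ * a⁻¹ * rn K m ∈ rU K m
    rw [e]
    exact inv_mem ha

theorem mem_rV {v : ↥(twistedG2 K (3 ^ m))} :
    v ∈ rV K m ↔ (rn K m)⁻¹ * v * rn K m ∈ rU K m := Iff.rfl

theorem mem_rU {g : ↥(twistedG2 K (3 ^ m))} :
    g ∈ rU K m ↔ (g : GL chevG2.Idx K) ∈ chevG2.posUnipotent K := Subgroup.mem_subgroupOf

theorem mem_rH {g : ↥(twistedG2 K (3 ^ m))} :
    g ∈ rH K m ↔ (g : GL chevG2.Idx K) ∈ chevG2.diagonalSubgroup K := Subgroup.mem_subgroupOf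

theorem mem_rB {g : ↥(twistedG2 K (3 ^ m))} :
    g ∈ rB K m ↔ (g : GL chevG2.Idx K) ∈ chevG2.borelSubgroup K := Subgroup.mem_subgroupOf

theorem rU_le_rB : rU K m ≤ rB K m := fun g hg => mem_rB.mpr (BRel.U_le_B _ _ (mem_rU.mp hg))

theorem rH_le_rB : rH K m ≤ rB K m := fun g hg => mem_rB.mpr (BRel.H_le_B _ _ (mem_rH.mp hg))

/-- `B¹` normalises `U¹`. -/
theorem rB_conj_rU {b u : ↥(twistedG2 K (3 ^ m))} (hb : b ∈ rB K m) (hu : u ∈ rU K m) :
    b * u * b⁻¹ ∈ rU K m := by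
  have R := bRel_of_mem (F := K) g2_mem
  have hle : chevG2.borelSubgroup K ≤
      Subgroup.normalizer (chevG2.posUnipotent K : Set (GL chevG2.Idx K)) :=
    sup_le Subgroup.le_normalizer R.hU
  exact mem_rU.mpr ((Subgroup.mem_normalizer_iff.mp (hle (mem_rB.mp hb)) _).mp (mem_rU.mp hu))

theorem rn_not_mem_rH : rn K m ∉ rH K m := fun h => reeN0_not_mem_H _ (mem_rH.mp h)

/-- Elements of `N¹` outside `H¹` send `U` into `V`. -/
theorem ree_N_conj_U (hK : Fintype.card K = 3 ^ (2 * m + 1)) {n : GL chevG2.Idx K}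
    (hn : n ∈ chevG2.monomialSubgroup K) (hG : n ∈ twistedG2 K (3 ^ m))
    (hH : n ∉ chevG2.diagonalSubgroup K) :
    ∀ u ∈ chevG2.posUnipotent K, n * u * n⁻¹ ∈ chevG2.negUnipotent K := by
  obtain ⟨σ, hσ⟩ := exists_reeSig hK
  exact ree_n_conj_U (ree_N_cases hK hσ hn hG hH)

/-- `U ∩ V = 1`. -/
theorem g2_U_inf_V {u : GL chevG2.Idx K} (hu : u ∈ chevG2.posUnipotent K)
    (hv : u ∈ chevG2.negUnipotent K) : u = 1 := by
  have R := bRel_of_mem (F := K) g2_mem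
  have h : u ∈ chevG2.borelSubgroup K ⊓ chevG2.negUnipotent K :=
    Subgroup.mem_inf.mpr ⟨BRel.U_le_B _ _ hu, hv⟩
  rw [R.bv, Subgroup.mem_bot] at h
  exact h

/-- The normaliser of `U¹` is `B¹`. -/
theorem ree_norm_U (hK : Fintype.card K = 3 ^ (2 * m + 1)) (g : ↥(twistedG2 K (3 ^ m)))
    (h : ∀ u ∈ rU K m, g * u * g⁻¹ ∈ rU K m) : g ∈ rB K m := by
  obtain ⟨σ, hσ⟩ := exists_reeSig hK
  have R := bRel_of_mem (F := K) g2_mem
  obtain ⟨u₁, hu₁, n, hn, u₂, hu₂, e⟩ := ree_bruhat hK hσ g.2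
  obtain ⟨hu₁U, hu₁G⟩ := Subgroup.mem_inf.mp hu₁
  obtain ⟨hnN, hnG⟩ := Subgroup.mem_inf.mp hn
  obtain ⟨hu₂U, hu₂G⟩ := Subgroup.mem_inf.mp hu₂
  by_cases hnH : n ∈ chevG2.diagonalSubgroup K
  · apply mem_rB.mpr
    rw [e]
    exact mul_mem (mul_mem (BRel.U_le_B _ _ hu₁U) (BRel.H_le_B _ _ hnH)) (BRel.U_le_B _ _ hu₂U)
  · exfalso
    have hcon := ree_N_conj_U hK hnN hnG hnH
    have hx0U := rx_mem_U (K := K) (m := m) 1 0 0
    have hx0G := (rx K m 1 0 0).2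
    have hu'G : u₂⁻¹ * (rx K m 1 0 0 : GL chevG2.Idx K) * u₂ ∈ twistedG2 K (3 ^ m) :=
      mul_mem (mul_mem (inv_mem hu₂G) hx0G) hu₂G
    have hu'U : u₂⁻¹ * (rx K m 1 0 0 : GL chevG2.Idx K) * u₂ ∈ chevG2.posUnipotent K :=
      mul_mem (mul_mem (inv_mem hu₂U) hx0U) hu₂U
    have h2 := mem_rU.mp (h ⟨_, hu'G⟩ (mem_rU.mpr hu'U))
    have h3 : n * (rx K m 1 0 0 : GL chevG2.Idx K) * n⁻¹ ∈ chevG2.posUnipotent K := by
      have e2 : n * (rx K m 1 0 0 : GL chevG2.Idx K) * n⁻¹ =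
          u₁⁻¹ * ((g : GL chevG2.Idx K) * (u₂⁻¹ * (rx K m 1 0 0 : GL chevG2.Idx K) * u₂) *
            (g : GL chevG2.Idx K)⁻¹) * u₁ := by
        rw [e]; group
      rw [e2]
      exact mul_mem (mul_mem (inv_mem hu₁U) h2) hu₁U
    have h4 := g2_U_inf_V h3 (hcon _ hx0U)
    have h5 : (rx K m 1 0 0 : GL chevG2.Idx K) = 1 := by
      have e3 : (rx K m 1 0 0 : GL chevG2.Idx K) =
          n⁻¹ * (n * (rx K m 1 0 0 : GL chevG2.Idx K) * n⁻¹) * n := by group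
      rw [e3, h4]; group
    exact rx_ne_one (Subtype.ext h5)

end ree19

end Cfsg.Agent.Helper36
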