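import Cfsg.Agent.Helper36.Ree20
import Cfsg.Agent.Helper18.FAut1

/-!
# The field automorphisms of the Ree groups `²G₂(q)` (helper36)

`reeFrob K m k` is the automorphism induced by `t ↦ t ^ 3 ^ k`; the Bruhat decomposition at the level of the
group; automorphisms normalising `U¹` and `V¹` (`ReeNorm`).
-/

set_option autoImplicit false
set_option linter.unusedSectionVars false
set_option linter.unusedVariables false

namespace Cfsg.Agent.Helper36

open Cfsg Cfsg.Lie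

section ree21

variable {K : Type*} [Field K] [CharP K 3] [Fintype K] {m : ℕ}

theorem reeWordU_mapF (f : K →+* K) (e : ℕ) (t u v : K) :
    (reeWordU e t u v).map (fun p => (p.1, f p.2)) = reeWordU e (f t) (f u) (f v) := by
  simp [reeWordU, map_add, map_pow]

theorem reeWordV_mapF (f : K →+* K) (e : ℕ) (t u v : K) :
    (reeWordV e t u v).map (fun p => (p.1, f p.2)) = reeWordV e (f t) (f u) (f v) := by
  unfold reeWordV
  rw [← reeWordU_mapF f e t u v]
  unfold ChevalleyDatum.negWord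
  rw [List.map_map, List.map_map]
  apply List.map_congr_left
  intro p _
  simp

theorem glMap_twistedG2 (f : K →+* K) (e : ℕ) {g : GL chevG2.Idx K} (hg : g ∈ twistedG2 K e) :
    Cfsg.Agent.Helper18.glMap chevG2 f g ∈ twistedG2 K e := by
  have : twistedG2 K e ≤ (twistedG2 K e).comap (Cfsg.Agent.Helper18.glMap chevG2 f) := by
    unfold twistedG2 ChevalleyDatum.genSubgroup
    rw [Subgroup.closure_le]
    rintro x ⟨w, hw, hx⟩
    apply Subgroup.subset_closure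
    refine ⟨w.map fun p => (p.1, f p.2), ?_, Cfsg.Agent.Helper18.glMap_word f hx⟩
    obtain ⟨t, u, v, h | h⟩ := hw
    · exact ⟨f t, f u, f v, Or.inl (by rw [h, reeWordU_mapF])⟩
    · exact ⟨f t, f u, f v, Or.inr (by rw [h, reeWordV_mapF])⟩
  exact this hg

/-- The endomorphism of the Ree group induced by `t ↦ t ^ 3 ^ k`. -/
noncomputable def reeFrobHom (K : Type*) [Field K] [CharP K 3] [Fintype K] (m k : ℕ) :
    ↥(twistedG2 K (3 ^ m)) →* ↥(twistedG2 K (3 ^ m)) :=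
  ((Cfsg.Agent.Helper18.glMap chevG2 (frT K k)).comp (twistedG2 K (3 ^ m)).subtype).codRestrict
    (twistedG2 K (3 ^ m)) (fun g => glMap_twistedG2 (frT K k) (3 ^ m) g.2)

theorem reeFrobHom_val (k : ℕ) (g : ↥(twistedG2 K (3 ^ m))) :
    ((reeFrobHom K m k g : ↥(twistedG2 K (3 ^ m))) : GL chevG2.Idx K) =
      Cfsg.Agent.Helper18.glMap chevG2 (frT K k) (g : GL chevG2.Idx K) := rfl

theorem reeFrobHom_injective (k : ℕ) : Function.Injective (reeFrobHom K m k) := by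
  intro a b h
  have h1 : ((reeFrobHom K m k a : ↥(twistedG2 K (3 ^ m))) : GL chevG2.Idx K) =
      ((reeFrobHom K m k b : ↥(twistedG2 K (3 ^ m))) : GL chevG2.Idx K) := congrArg Subtype.val h
  rw [reeFrobHom_val, reeFrobHom_val] at h1
  exact Subtype.ext (Cfsg.Agent.Helper18.glMap_injective _ h1)

/-- The automorphism of the Ree group induced by `t ↦ t ^ 3 ^ k`. -/
noncomputable def reeFrob (K : Type*) [Field K] [CharP K 3] [Fintype K] (m k : ℕ) :
    MulAut ↥(twistedG2 K (3 ^ m)) :=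
  MulEquiv.ofBijective (reeFrobHom K m k)
    ⟨reeFrobHom_injective k, Finite.surjective_of_injective (reeFrobHom_injective k)⟩

theorem reeFrob_val (k : ℕ) (g : ↥(twistedG2 K (3 ^ m))) :
    ((reeFrob K m k g : ↥(twistedG2 K (3 ^ m))) : GL chevG2.Idx K) =
      Cfsg.Agent.Helper18.glMap chevG2 (frT K k) (g : GL chevG2.Idx K) := rfl

theorem glMap_wordGL_U (f : K →+* K) (hX : XAdd chevG2 K) (e : ℕ) (t u v : K) :
    Cfsg.Agent.Helper18.glMap chevG2 f (wordGL hX (reeWordU e t u v)) =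
      wordGL hX (reeWordU e (f t) (f u) (f v)) := by
  apply Units.ext
  rw [Cfsg.Agent.Helper18.glMap_word f (wordGL_val hX _), reeWordU_mapF, wordGL_val]

theorem glMap_wordGL_V (f : K →+* K) (hX : XAdd chevG2 K) (e : ℕ) (t u v : K) :
    Cfsg.Agent.Helper18.glMap chevG2 f (wordGL hX (reeWordV e t u v)) =
      wordGL hX (reeWordV e (f t) (f u) (f v)) := by
  apply Units.ext
  rw [Cfsg.Agent.Helper18.glMap_word f (wordGL_val hX _), reeWordV_mapF, wordGL_val]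

theorem reeFrob_rx (k : ℕ) (t u v : K) :
    reeFrob K m k (rx K m t u v) = rx K m (frT K k t) (frT K k u) (frT K k v) := by
  apply Subtype.ext
  rw [reeFrob_val]
  exact glMap_wordGL_U _ _ _ t u v

theorem reeFrob_rn (k : ℕ) : reeFrob K m k (rn K m) = rn K m := by
  apply Subtype.ext
  rw [reeFrob_val]
  show Cfsg.Agent.Helper18.glMap chevG2 (frT K k) (reeN0 (xAdd_of_mem (F := K) g2_mem)) =
    reeN0 (xAdd_of_mem (F := K) g2_mem)
  rw [reeN0_eq _ m, map_mul, map_mul, glMap_wordGL_U, glMap_wordGL_V, map_zero, map_one]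

theorem reeFrob_eq_one (k : ℕ) (h : ∀ t : K, frT K k t = t) : reeFrob K m k = 1 := by
  apply MulEquiv.ext
  intro g
  apply Subtype.ext
  rw [reeFrob_val]
  apply Units.ext
  rw [Cfsg.Agent.Helper18.glMap_val]
  ext i j
  rw [Matrix.map_apply, h]
  rfl

theorem reeFrob_pow (k : ℕ) : (reeFrob K m 1) ^ k = reeFrob K m k := by
  induction k with
  | zero =>
    rw [pow_zero]
    symm
    apply reeFrob_eq_one
    intro t
    rw [frT_apply, pow_zero, pow_one]
  | succ k ih =>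
    rw [pow_succ, ih]
    apply MulEquiv.ext
    intro g
    apply Subtype.ext
    rw [MulAut.mul_apply, reeFrob_val, reeFrob_val, reeFrob_val,
      Cfsg.Agent.Helper18.glMap_comp]
    congr 2
    apply RingHom.ext
    intro t
    rw [RingHom.comp_apply, frT_apply, frT_apply, frT_apply, ← pow_mul]
    congr 1
    ring

theorem reeFrob_mem_rU (k : ℕ) {g : ↥(twistedG2 K (3 ^ m))} (hg : g ∈ rU K m) :
    reeFrob K m k g ∈ rU K m :=
  mem_rU.mpr (Cfsg.Agent.Helper18.glMap_posUnipotent _ (mem_rU.mp hg))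

theorem reeFrob_mem_rV (k : ℕ) {g : ↥(twistedG2 K (3 ^ m))} (hg : g ∈ rV K m) :
    reeFrob K m k g ∈ rV K m := by
  apply mem_rV.mpr
  have e : (rn K m)⁻¹ * reeFrob K m k g * rn K m = reeFrob K m k ((rn K m)⁻¹ * g * rn K m) := by
    rw [map_mul, map_mul, map_inv, reeFrob_rn]
  rw [e]
  exact reeFrob_mem_rU k (mem_rV.mp hg)

/-- The Bruhat decomposition of the Ree group. -/
theorem ree_bruhat_G (hK : Fintype.card K = 3 ^ (2 * m + 1)) (g : ↥(twistedG2 K (3 ^ m))) :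
    ∃ u₁ ∈ rU K m, ∃ h ∈ rH K m, ∃ u₂ ∈ rU K m,
      g = u₁ * h * u₂ ∨ g = u₁ * rn K m * h * u₂ := by
  obtain ⟨σ, hσ⟩ := exists_reeSig hK
  obtain ⟨u₁, hu₁, n, hn, u₂, hu₂, e⟩ := ree_bruhat hK hσ g.2
  obtain ⟨hu₁U, hu₁G⟩ := Subgroup.mem_inf.mp hu₁
  obtain ⟨hnN, hnG⟩ := Subgroup.mem_inf.mp hn
  obtain ⟨hu₂U, hu₂G⟩ := Subgroup.mem_inf.mp hu₂
  by_cases hnH : n ∈ chevG2.diagonalSubgroup K
  · exact ⟨⟨u₁, hu₁G⟩, mem_rU.mpr hu₁U, ⟨n, hnG⟩, mem_rH.mpr hnH, ⟨u₂, hu₂G⟩, mem_rU.mpr hu₂U,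
      Or.inl (Subtype.ext e)⟩
  · have hX := xAdd_of_mem (F := K) g2_mem
    have h1 : (reeN0 hX)⁻¹ * n ∈ chevG2.diagonalSubgroup K :=
      ree_N_mul hK hσ (inv_mem (reeN0_mem_N hX)) (inv_mem (reeN0_mem_G1 hX m))
        (fun hc => reeN0_not_mem_H hX (by
          have := inv_mem hc
          rwa [inv_inv] at this)) hnN hnG hnH
    have h1G : (reeN0 hX)⁻¹ * n ∈ twistedG2 K (3 ^ m) :=
      mul_mem (inv_mem (reeN0_mem_G1 hX m)) hnG
    refine ⟨⟨u₁, hu₁G⟩, mem_rU.mpr hu₁U, ⟨_, h1G⟩, mem_rH.mpr h1, ⟨u₂, hu₂G⟩, mem_rU.mpr hu₂U,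
      Or.inr (Subtype.ext ?_)⟩
    show (g : GL chevG2.Idx K) = u₁ * reeN0 (xAdd_of_mem (F := K) g2_mem) *
      ((reeN0 hX)⁻¹ * n) * u₂
    rw [e]
    group

/-- Automorphisms mapping `U¹` and `V¹` into themselves. -/
def ReeNorm (K : Type*) [Field K] [CharP K 3] [Fintype K] (m : ℕ)
    (α : MulAut ↥(twistedG2 K (3 ^ m))) : Prop :=
  (∀ g ∈ rU K m, α g ∈ rU K m) ∧ (∀ g ∈ rV K m, α g ∈ rV K m)

theorem ReeNorm.mul {α β : MulAut ↥(twistedG2 K (3 ^ m))} (hα : ReeNorm K m α)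
    (hβ : ReeNorm K m β) : ReeNorm K m (α * β) :=
  ⟨fun g hg => hα.1 _ (hβ.1 g hg), fun g hg => hα.2 _ (hβ.2 g hg)⟩

theorem ReeNorm.inv {α : MulAut ↥(twistedG2 K (3 ^ m))} (hα : ReeNorm K m α) :
    ReeNorm K m α⁻¹ := by
  constructor
  · intro g hg
    apply aut_mem_of_map_mem (rU K m) α hα.1
    rw [MulAut.apply_inv_self]
    exact hg
  · intro g hg
    apply aut_mem_of_map_mem (rV K m) α hα.2
    rw [MulAut.apply_inv_self]
    exact hg

theorem reeNorm_conj_rh (hK : Fintype.card K = 3 ^ (2 * m + 1)) (z : Kˣ) :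
    ReeNorm K m (MulAut.conj (rh hK z)) :=
  ⟨fun g hg => by
      rw [MulAut.conj_apply]
      exact rH_conj_rU (mem_rH.mpr (rh_mem_H hK z)) hg,
    fun g hg => by
      rw [MulAut.conj_apply]
      exact rH_conj_rV (mem_rH.mpr (rh_mem_H hK z)) hg⟩

theorem reeNorm_frob (k : ℕ) : ReeNorm K m (reeFrob K m k) :=
  ⟨fun g hg => reeFrob_mem_rU k hg, fun g hg => reeFrob_mem_rV k hg⟩

/-- Such automorphisms preserve `H¹`. -/
theorem ReeNorm.map_H (hK : Fintype.card K = 3 ^ (2 * m + 1))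
    {α : MulAut ↥(twistedG2 K (3 ^ m))} (hα : ReeNorm K m α) {h : ↥(twistedG2 K (3 ^ m))}
    (hh : h ∈ rH K m) : α h ∈ rH K m := by
  rw [ree_H_char hK]
  have hi := hα.inv
  constructor
  · intro u hu
    have e : α h * u * (α h)⁻¹ = α (h * α⁻¹ u * h⁻¹) := by
      rw [map_mul, map_mul, map_inv, MulAut.apply_inv_self]
    rw [e]
    exact hα.1 _ (rH_conj_rU hh (hi.1 u hu))
  · intro u hu
    have e : α h * u * (α h)⁻¹ = α (h * α⁻¹ u * h⁻¹) := by
      rw [map_mul, map_mul, map_inv, MulAut.apply_inv_self]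
    rw [e]
    exact hα.2 _ (rH_conj_rV hh (hi.2 u hu))

end ree21

end Cfsg.Agent.Helper36
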