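import Cfsg.Agent.Helper36.Ree21

/-!
# Normalising an automorphism of `²G₂(q)` (helper36)

Every automorphism is, up to an inner one, in `ReeNorm`; on `U¹ / [U¹, U¹]` such an automorphism is
`t ↦ c₀ t ^ 3 ^ k`; twisting by `h(z)` and a field automorphism it becomes the identity there.
-/

set_option autoImplicit false
set_option linter.unusedSectionVars false
set_option linter.unusedVariables false

namespace Cfsg.Agent.Helper36

open Cfsg Cfsg.Lie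

section ree22

variable {K : Type*} [Field K] [CharP K 3] [Fintype K] {m : ℕ}

theorem ree_aut_normalise (hK : Fintype.card K = 3 ^ (2 * m + 1))
    (α : MulAut ↥(twistedG2 K (3 ^ m))) :
    ∃ g : ↥(twistedG2 K (3 ^ m)), ReeNorm K m (MulAut.conj g * α) := by
  haveI : Fact (Nat.Prime 3) := ⟨by norm_num⟩
  obtain ⟨hP, hidx, hcard⟩ := rU_sylow hK
  have hQ : Nat.card ↥((rU K m).map α.toMonoidHom) = Nat.card ↥(rU K m) :=
    Subgroup.card_map_of_injective α.injective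
  obtain ⟨g₁, hg₁⟩ := exists_conj_of_card_eq 3 (rU K m) ((rU K m).map α.toMonoidHom) hP hidx hQ
  have h1 : ∀ u ∈ rU K m, (MulAut.conj g₁ * α) u ∈ rU K m := by
    intro u hu
    rw [MulAut.mul_apply, MulAut.conj_apply]
    exact (hg₁ (α u)).mp (Subgroup.mem_map_of_mem α.toMonoidHom hu)
  obtain ⟨α₁, hα₁⟩ : ∃ α₁, α₁ = MulAut.conj g₁ * α := ⟨_, rfl⟩
  rw [← hα₁] at h1
  have h1' := aut_mem_of_map_mem (rU K m) α₁ h1
  obtain ⟨u₁, hu₁, h, hh, u₂, hu₂, e | e⟩ := ree_bruhat_G hK (α₁ (rn K m))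
  · exfalso
    have hx : rx K m 1 0 0 ∈ rU K m := mem_rU.mpr (rx_mem_U 1 0 0)
    have hB : α₁ (rn K m) ∈ rB K m := by
      rw [e]; exact mul_mem (mul_mem (rU_le_rB hu₁) (rH_le_rB hh)) (rU_le_rB hu₂)
    have h2 : α₁ (rn K m * rx K m 1 0 0 * (rn K m)⁻¹) ∈ rU K m := by
      rw [map_mul, map_mul, map_inv]
      exact rB_conj_rU hB (h1 _ hx)
    have h3 := h1' _ h2
    have h4 := rU_inf_rV hK h3 (rn_conj_mem_rV hx)
    apply rx_ne_one (K := K) (m := m)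
    have e5 : rx K m 1 0 0 = (rn K m)⁻¹ * (rn K m * rx K m 1 0 0 * (rn K m)⁻¹) * rn K m := by group
    rw [e5, h4]; group
  · refine ⟨u₁⁻¹ * g₁, ?_⟩
    have e2 : MulAut.conj (u₁⁻¹ * g₁) * α = MulAut.conj u₁⁻¹ * α₁ := by
      rw [hα₁, map_mul, mul_assoc]
    rw [e2]
    constructor
    · intro u hu
      rw [MulAut.mul_apply, MulAut.conj_apply]
      exact rB_conj_rU (rU_le_rB (inv_mem hu₁)) (h1 u hu)
    · intro v hv
      rw [MulAut.mul_apply, MulAut.conj_apply]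
      have hw := mem_rV.mp hv
      have hw' := h1 _ hw
      have e3 : u₁⁻¹ * α₁ v * u₁⁻¹⁻¹ = rn K m * ((h * u₂) * α₁ ((rn K m)⁻¹ * v * rn K m) *
          (h * u₂)⁻¹) * (rn K m)⁻¹ := by
        have e4 : α₁ v = α₁ (rn K m) * α₁ ((rn K m)⁻¹ * v * rn K m) * (α₁ (rn K m))⁻¹ := by
          rw [← map_inv, ← map_mul, ← map_mul]; congr 1; group
        rw [e4, e]; group
      rw [e3]
      exact rn_conj_mem_rV (rB_conj_rU (mul_mem (rH_le_rB hh) (rU_le_rB hu₂)) hw')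

theorem rx_pow3_eq_one (hK : Fintype.card K = 3 ^ (2 * m + 1)) {t u v : K}
    (h : rx K m t u v ^ 3 = 1) : t = 0 := by
  rw [rx_pow3 hK, ← rx_zero] at h
  have h1 := (rx_inj h).2.2
  have h2 : t ^ 2 * frL K m t = 0 := by
    have := neg_eq_zero.mp h1
    exact this
  rcases mul_eq_zero.mp h2 with h3 | h3
  · exact pow_eq_zero_iff (two_ne_zero) |>.mp h3
  · exact (map_eq_zero _).mp h3

theorem rx_zero_pow3 (hK : Fintype.card K = 3 ^ (2 * m + 1)) (u v : K) :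
    rx K m 0 u v ^ 3 = 1 := by
  rw [rx_pow3 hK, ← rx_zero]
  congr 1
  simp

theorem ree_aut_U (hK : Fintype.card K = 3 ^ (2 * m + 1)) {α : MulAut ↥(twistedG2 K (3 ^ m))}
    (hα : ∀ g ∈ rU K m, α g ∈ rU K m) (t u v : K) :
    ∃ t' u' v' : K, α (rx K m t u v) = rx K m t' u' v' :=
  (mem_U_iff hK _).mp (mem_rU.mp (hα _ (mem_rU.mpr (rx_mem_U t u v))))

theorem ree_aut_U0 (hK : Fintype.card K = 3 ^ (2 * m + 1)) {α : MulAut ↥(twistedG2 K (3 ^ m))}
    (hα : ∀ g ∈ rU K m, α g ∈ rU K m) (u v : K) :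
    ∃ u' v' : K, α (rx K m 0 u v) = rx K m 0 u' v' := by
  obtain ⟨t', u', v', e⟩ := ree_aut_U hK hα 0 u v
  have h1 : (α (rx K m 0 u v)) ^ 3 = 1 := by
    rw [← map_pow, rx_zero_pow3 hK, map_one]
  rw [e] at h1
  have h2 := rx_pow3_eq_one hK h1
  rw [h2] at e
  exact ⟨u', v', e⟩

/-- The action on `U¹ / [U¹, U¹]` is `t ↦ c₀ t ^ 3 ^ k`. -/
theorem ree_aut_linear (hK : Fintype.card K = 3 ^ (2 * m + 1))
    {α : MulAut ↥(twistedG2 K (3 ^ m))} (hα : ReeNorm K m α) :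
    ∃ (c₀ : K) (k : ℕ), c₀ ≠ 0 ∧
      ∀ t u v : K, ∃ u' v' : K, α (rx K m t u v) = rx K m (c₀ * t ^ 3 ^ k) u' v' := by
  haveI : Fact (Nat.Prime 3) := ⟨by norm_num⟩
  have hU := ree_aut_U hK hα.1
  have hU0 := ree_aut_U0 hK hα.1
  choose f hf0 using fun t => hU t 0 0
  have hf : ∀ t u v : K, ∃ u' v' : K, α (rx K m t u v) = rx K m (f t) u' v' := by
    intro t u v
    obtain ⟨u₁, v₁, e₁⟩ := hf0 t
    obtain ⟨u₂, v₂, e₂⟩ := hU0 u v
    refine ⟨u₁ + u₂, v₁ + v₂, ?_⟩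
    rw [rx_split hK t u v, map_mul, e₁, e₂, rx_mul0 hK]
  have hadd : ∀ t t' : K, f (t + t') = f t + f t' := by
    intro t t'
    obtain ⟨u₁, v₁, e₁⟩ := hf t 0 0
    obtain ⟨u₂, v₂, e₂⟩ := hf t' 0 0
    have h1 := rx_mul hK t 0 0 t' 0 0
    obtain ⟨u₃, v₃, e₃⟩ := hf (t + t') (0 + 0 - t * frL K m t')
      (0 + 0 - t' * 0 + t * t' * frL K m t' - t ^ 2 * frL K m t')
    have h2 := congrArg α h1
    rw [map_mul, e₁, e₂, e₃, rx_mul hK] at h2
    exact (rx_inj h2).1.symm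
  have hf00 : f 0 = 0 := by
    have := hadd 0 0
    rw [add_zero] at this
    exact left_eq_add.mp this
  have hinj : ∀ t : K, f t = 0 → t = 0 := by
    intro t ht
    obtain ⟨u₁, v₁, e₁⟩ := hf t 0 0
    rw [ht] at e₁
    have h1 : α (rx K m t 0 0 ^ 3) = 1 := by
      rw [map_pow, e₁, rx_zero_pow3 hK]
    have h2 : rx K m t 0 0 ^ 3 = 1 := by
      apply α.injective
      rw [h1, map_one]
    exact rx_pow3_eq_one hK h2
  have hequi : ∀ c : K, c ≠ 0 → ∃ c' : K, ∀ t : K, f (c * t) = c' * f t := by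
    intro c hc
    have hz0 : c ^ 2 * frL K m c ≠ 0 :=
      mul_ne_zero (pow_ne_zero 2 hc) ((map_ne_zero _).mpr hc)
    obtain ⟨z', hz'⟩ := (mem_H_iff hK _).mp (mem_rH.mp (hα.map_H hK
      (mem_rH.mpr (rh_mem_H hK (Units.mk0 _ hz0)))))
    refine ⟨(frL K m z')⁻¹ * (z' : K) ^ 2, fun t => ?_⟩
    have h1 := rh_conj hK (Units.mk0 _ hz0) t 0 0
    rw [Units.val_mk0, ree_chi_surj hK hc] at h1
    obtain ⟨u₁, v₁, e₁⟩ := hf t 0 0
    obtain ⟨u₃, v₃, e₃⟩ := hf (c * t) (frL K m (c ^ 2 * frL K m c) * (c ^ 2 * frL K m c)⁻¹ * 0)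
      (c ^ 2 * frL K m c * 0)
    have h2 := congrArg α h1
    rw [map_mul, map_mul, map_inv, hz', e₁, e₃, rh_conj hK] at h2
    exact (rx_inj h2).1.symm
  have hc₀ : f 1 ≠ 0 := fun h => one_ne_zero (hinj 1 h)
  have hmul : ∀ c t : K, f (c * t) * f 1 = f c * f t := by
    intro c t
    by_cases hc : c = 0
    · rw [hc, zero_mul, hf00, zero_mul, zero_mul]
    · obtain ⟨c', hc'⟩ := hequi c hc
      have h1 := hc' 1
      rw [mul_one] at h1
      rw [hc' t, h1]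
      ring
  let ψ : K →+* K :=
    { toFun := fun t => f t / f 1
      map_one' := div_self hc₀
      map_mul' := fun c t => by
        show f (c * t) / f 1 = f c / f 1 * (f t / f 1)
        field_simp
        rw [hmul c t]
      map_zero' := by
        show f 0 / f 1 = 0
        rw [hf00, zero_div]
      map_add' := fun c t => by
        show f (c + t) / f 1 = f c / f 1 + f t / f 1
        rw [hadd, add_div] }
  obtain ⟨k, hk⟩ := ringHom_eq_frob_pow 3 ψ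
  refine ⟨f 1, k, hc₀, fun t u v => ?_⟩
  have h1 : f t = f 1 * t ^ 3 ^ k := by
    have h2 : f t / f 1 = t ^ 3 ^ k := hk t
    rw [← h2]
    field_simp
  rw [← h1]
  exact hf t u v

/-- After twisting by `h(z)` and a field automorphism, the automorphism is the identity on
`U¹ / [U¹, U¹]`. -/
theorem ree_aut_twist (hK : Fintype.card K = 3 ^ (2 * m + 1))
    {α : MulAut ↥(twistedG2 K (3 ^ m))} (hα : ReeNorm K m α) :
    ∃ (z : Kˣ) (k : ℕ), ReeNorm K m ((MulAut.conj (rh hK z) * reeFrob K m k)⁻¹ * α) ∧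
      ∀ t u v : K, ∃ u' v' : K,
        ((MulAut.conj (rh hK z) * reeFrob K m k)⁻¹ * α) (rx K m t u v) = rx K m t u' v' := by
  obtain ⟨c₀, k, hc₀, hlin⟩ := ree_aut_linear hK hα
  have hz0 : c₀ ^ 2 * frL K m c₀ ≠ 0 :=
    mul_ne_zero (pow_ne_zero 2 hc₀) ((map_ne_zero _).mpr hc₀)
  refine ⟨Units.mk0 _ hz0, k, ?_⟩
  have hγ : ReeNorm K m (MulAut.conj (rh hK (Units.mk0 _ hz0)) * reeFrob K m k) :=
    (reeNorm_conj_rh hK _).mul (reeNorm_frob k)
  obtain ⟨γ, hγe⟩ : ∃ γ, γ = MulAut.conj (rh hK (Units.mk0 _ hz0)) * reeFrob K m k := ⟨_, rfl⟩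
  rw [← hγe] at hγ ⊢
  refine ⟨hγ.inv.mul hα, fun t u v => ?_⟩
  obtain ⟨u', v', e⟩ := hlin t u v
  obtain ⟨t₂, u₂, v₂, e₂⟩ := ree_aut_U hK hγ.inv.1 (c₀ * t ^ 3 ^ k) u' v'
  have h1 : γ (rx K m t₂ u₂ v₂) = rx K m (c₀ * t ^ 3 ^ k) u' v' := by
    rw [← e₂, MulAut.apply_inv_self]
  rw [hγe, MulAut.mul_apply, reeFrob_rx, MulAut.conj_apply, rh_conj hK, Units.val_mk0,
    ree_chi_surj hK hc₀, frT_apply] at h1
  have h2 := (rx_inj h1).1
  have h3 : t₂ ^ 3 ^ k = t ^ 3 ^ k := mul_left_cancel₀ hc₀ h2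
  have h4 : t₂ = t := by
    apply (frT K k).injective
    rw [frT_apply, frT_apply, h3]
  rw [MulAut.mul_apply, e, e₂, h4]
  exact ⟨u₂, v₂, rfl⟩

end ree22

end Cfsg.Agent.Helper36
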