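import Cfsg.Agent.Helper36.Ree22

/-!
# Rigidity of automorphisms of `²G₂(q)` (helper36)

An automorphism normalising `U¹` and `V¹` and acting trivially on `U¹ / [U¹, U¹]` is the identity.
-/

set_option autoImplicit false
set_option linter.unusedSectionVars false
set_option linter.unusedVariables false

namespace Cfsg.Agent.Helper36

open Cfsg Cfsg.Lie

section ree23

variable {K : Type*} [Field K] [CharP K 3] [Fintype K] {m : ℕ}

theorem ree_three_eq_zero : (3 : K) = 0 := by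
  have := CharP.cast_eq_zero K 3
  exact_mod_cast this

/-- `β` fixes `H¹` pointwise. -/
theorem ree_rig_H (hK : Fintype.card K = 3 ^ (2 * m + 1))
    {β : MulAut ↥(twistedG2 K (3 ^ m))} (hβ : ReeNorm K m β)
    (ht : ∀ t u v : K, ∃ u' v' : K, β (rx K m t u v) = rx K m t u' v') (z : Kˣ) :
    β (rh hK z) = rh hK z := by
  obtain ⟨z', hz'⟩ := (mem_H_iff hK _).mp (mem_rH.mp (hβ.map_H hK
    (mem_rH.mpr (rh_mem_H hK z))))
  have h1 := rh_conj hK z 1 0 0
  obtain ⟨u₁, v₁, e₁⟩ := ht 1 0 0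
  obtain ⟨u₃, v₃, e₃⟩ := ht ((frL K m z)⁻¹ * (z : K) ^ 2 * 1) (frL K m z * (z : K)⁻¹ * 0)
    (z * 0)
  have h2 := congrArg β h1
  rw [map_mul, map_mul, map_inv, hz', e₁, e₃, rh_conj hK] at h2
  have h3 := (rx_inj h2).1
  rw [mul_one, mul_one] at h3
  have h4 : (z' : K) = z := by
    rw [← ree_chi_inv hK z'.ne_zero, ← ree_chi_inv hK z.ne_zero, h3]
  rw [hz', Units.ext h4]

/-- `β` fixes the centre of `U¹` pointwise. -/
theorem ree_rig_Z (hK : Fintype.card K = 3 ^ (2 * m + 1))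
    {β : MulAut ↥(twistedG2 K (3 ^ m))}
    (ht : ∀ t u v : K, ∃ u' v' : K, β (rx K m t u v) = rx K m t u' v') (v : K) :
    β (rx K m 0 0 v) = rx K m 0 0 v := by
  by_cases hv : v = 0
  · rw [hv, rx_zero, map_one]
  · have hv' : -v ≠ 0 := neg_ne_zero.mpr hv
    have h1 := ree_chi_inv hK hv'
    obtain ⟨t, htdef⟩ : ∃ t : K, t = (frL K m (-v))⁻¹ * (-v) ^ 2 := ⟨_, rfl⟩
    rw [← htdef] at h1
    have h2 : rx K m 0 0 v = rx K m t 0 0 ^ 3 := by
      rw [rx_pow3 hK, h1, neg_neg]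
    obtain ⟨u', v', e⟩ := ht t 0 0
    rw [h2, map_pow, e, rx_pow3 hK, rx_pow3 hK]

theorem rh_neg_conj (hK : Fintype.card K = 3 ^ (2 * m + 1)) (t u v : K) :
    rh hK (-1) * rx K m t u v * (rh hK (-1))⁻¹ = rx K m (-t) u (-v) := by
  rw [rh_conj hK]
  congr 1 <;> simp

/-- The elements inverted by `h(-1)`. -/
theorem ree_rig_inv (hK : Fintype.card K = 3 ^ (2 * m + 1))
    {β : MulAut ↥(twistedG2 K (3 ^ m))} (hβ : ReeNorm K m β)
    (ht : ∀ t u v : K, ∃ u' v' : K, β (rx K m t u v) = rx K m t u' v') (t : K) :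
    ∃ c : K, β (rx K m t (t * frL K m t) 0) = rx K m t (t * frL K m t) c := by
  have h3 : (3 : K) = 0 := ree_three_eq_zero
  have h1 : rh hK (-1) * rx K m t (t * frL K m t) 0 * (rh hK (-1))⁻¹ *
      rx K m t (t * frL K m t) 0 = 1 := by
    rw [rh_neg_conj hK, rx_mul hK, ← rx_zero]
    congr 1
    · ring
    · linear_combination (t * frL K m t) * h3
    · linear_combination (-(t ^ 2 * frL K m t)) * h3
  obtain ⟨u', v', e⟩ := ht t (t * frL K m t) 0
  have h2 := congrArg β h1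
  rw [map_mul, map_mul, map_mul, map_inv, ree_rig_H hK hβ ht, e, map_one, rh_neg_conj hK,
    rx_mul hK, ← rx_zero] at h2
  have h4 := (rx_inj h2).2.1
  have h5 : u' = t * frL K m t := by linear_combination (-1 : K) * h4 + u' * h3
  rw [e, h5]
  exact ⟨v', rfl⟩

/-- The commutator relation. -/
theorem ree_rig_comm (hK : Fintype.card K = 3 ^ (2 * m + 1))
    {β : MulAut ↥(twistedG2 K (3 ^ m))} (hβ : ReeNorm K m β)
    (ht : ∀ t u v : K, ∃ u' v' : K, β (rx K m t u v) = rx K m t u' v') (t : K) :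
    β (rx K m 0 (frL K m t - t) 0) = rx K m 0 (frL K m t - t) 0 := by
  obtain ⟨c, ec⟩ := ree_rig_inv hK hβ ht t
  obtain ⟨c', ec'⟩ := ree_rig_inv hK hβ ht 1
  obtain ⟨v₀, hv₀⟩ : ∃ v₀ : K, v₀ = -2 * t * frL K m t + 2 * t - t ^ 2 + frL K m t := ⟨_, rfl⟩
  obtain ⟨u₁, v₁, e₁⟩ := ht 0 (frL K m t - t) v₀
  have key : rx K m t (t * frL K m t) 0 * rx K m 1 (1 * frL K m 1) 0 =
      rx K m 1 (1 * frL K m 1) 0 * rx K m t (t * frL K m t) 0 * rx K m 0 (frL K m t - t) v₀ := by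
    rw [rx_mul hK, rx_mul hK, rx_mul hK]
    congr 1
    · ring
    · simp only [map_one, map_zero]; ring
    · simp only [map_one, map_zero]; rw [hv₀]; ring
  have h2 := congrArg β key
  rw [map_mul, map_mul, map_mul, ec, ec', e₁, rx_mul hK, rx_mul hK, rx_mul hK] at h2
  obtain ⟨-, hu, hv⟩ := rx_inj h2
  simp only [map_one, map_zero] at hu hv
  have hu₁ : u₁ = frL K m t - t := by linear_combination -hu
  have hv₁ : v₁ = v₀ := by rw [hv₀]; linear_combination -hv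
  rw [hu₁, hv₁] at e₁
  have e2 : rx K m 0 (frL K m t - t) 0 = rx K m 0 (frL K m t - t) v₀ * rx K m 0 0 (-v₀) := by
    rw [rx_mul0 hK]
    congr 1 <;> ring
  rw [e2, map_mul, e₁, ree_rig_Z hK ht]

/-- `β` fixes `[U¹, U¹]` pointwise. -/
theorem ree_rig_D (hK : Fintype.card K = 3 ^ (2 * m + 1)) (hm : 1 ≤ m)
    {β : MulAut ↥(twistedG2 K (3 ^ m))} (hβ : ReeNorm K m β)
    (ht : ∀ t u v : K, ∃ u' v' : K, β (rx K m t u v) = rx K m t u' v') (u v : K) :
    β (rx K m 0 u v) = rx K m 0 u v := by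
  have h3 : (3 : K) = 0 := ree_three_eq_zero
  have hadd : ∀ a b : K, β (rx K m 0 a 0) = rx K m 0 a 0 → β (rx K m 0 b 0) = rx K m 0 b 0 →
      β (rx K m 0 (a + b) 0) = rx K m 0 (a + b) 0 := by
    intro a b ha hb
    have e : rx K m 0 (a + b) 0 = rx K m 0 a 0 * rx K m 0 b 0 := by
      rw [rx_mul0 hK, add_zero]
    rw [e, map_mul, ha, hb]
  have hsq : ∀ y a : K, β (rx K m 0 a 0) = rx K m 0 a 0 →
      β (rx K m 0 (y ^ 2 * a) 0) = rx K m 0 (y ^ 2 * a) 0 := by
    intro y a ha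
    by_cases hy : y = 0
    · rw [hy]
      have : (0 : K) ^ 2 * a = 0 := by ring
      rw [this, rx_zero, map_one]
    · have hL : frL K m y ≠ 0 := (map_ne_zero _).mpr hy
      have hz0 : frL K m y * y ≠ 0 := mul_ne_zero hL hy
      have e : rx K m 0 (y ^ 2 * a) 0 =
          rh hK (Units.mk0 _ hz0) * rx K m 0 a 0 * (rh hK (Units.mk0 _ hz0))⁻¹ := by
        rw [rh_conj hK, Units.val_mk0, map_mul, frL_frL hK]
        congr 1
        · ring
        · field_simp
        · ring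
      rw [e, map_mul, map_mul, map_inv, ree_rig_H hK hβ ht, ha]
  have hsmul : ∀ c a : K, β (rx K m 0 a 0) = rx K m 0 a 0 →
      β (rx K m 0 (c * a) 0) = rx K m 0 (c * a) 0 := by
    intro c a ha
    have e : c * a = (c + 1) ^ 2 * a + ((c - 1) ^ 2 * a + (c - 1) ^ 2 * a) := by
      linear_combination (-(c ^ 2 - c + 1) * a) * h3
    rw [e]
    exact hadd _ _ (hsq _ _ ha) (hadd _ _ (hsq _ _ ha) (hsq _ _ ha))
  obtain ⟨t₀, ht₀⟩ := ree_exists_L hK hm
  have hw : frL K m t₀ - t₀ ≠ 0 := sub_ne_zero.mpr ht₀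
  have hall : ∀ a : K, β (rx K m 0 a 0) = rx K m 0 a 0 := by
    intro a
    have e : a = (a / (frL K m t₀ - t₀)) * (frL K m t₀ - t₀) := by field_simp
    rw [e]
    exact hsmul _ _ (ree_rig_comm hK hβ ht t₀)
  have e : rx K m 0 u v = rx K m 0 u 0 * rx K m 0 0 v := by
    rw [rx_mul0 hK, add_zero, zero_add]
  rw [e, map_mul, hall, ree_rig_Z hK ht]

/-- `β` fixes `U¹` pointwise. -/
theorem ree_rig_U (hK : Fintype.card K = 3 ^ (2 * m + 1)) (hm : 1 ≤ m)
    {β : MulAut ↥(twistedG2 K (3 ^ m))} (hβ : ReeNorm K m β)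
    (ht : ∀ t u v : K, ∃ u' v' : K, β (rx K m t u v) = rx K m t u' v') (t u v : K) :
    β (rx K m t u v) = rx K m t u v := by
  have h3 : (3 : K) = 0 := ree_three_eq_zero
  have hD := ree_rig_D hK hm hβ ht
  choose c hc using ree_rig_inv hK hβ ht
  have hadd : ∀ a b : K, c (a + b) = c a + c b := by
    intro a b
    have e : rx K m a (a * frL K m a) 0 * rx K m b (b * frL K m b) 0 =
        rx K m (a + b) ((a + b) * frL K m (a + b)) 0 *
          rx K m 0 (a * frL K m a + b * frL K m b - a * frL K m b - (a + b) * frL K m (a + b))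
            (0 + 0 - b * (a * frL K m a) + a * b * frL K m b - a ^ 2 * frL K m b) := by
      rw [rx_mul hK, rx_mul0 hK]
      congr 1 <;> ring
    have h2 := congrArg β e
    rw [map_mul, map_mul, hc, hc, hc, hD, rx_mul hK, rx_mul0 hK] at h2
    have h4 := (rx_inj h2).2.2
    linear_combination -h4
  have hc0 : c 0 = 0 := by
    have := hadd 0 0
    rw [add_zero] at this
    exact left_eq_add.mp this
  have hhom : ∀ a b : K, a ≠ 0 → c (a * b) = a ^ 2 * frL K m a * c b := by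
    intro a b ha
    have hz0 : a ^ 2 * frL K m a ≠ 0 :=
      mul_ne_zero (pow_ne_zero 2 ha) ((map_ne_zero _).mpr ha)
    have hL : frL K m a ≠ 0 := (map_ne_zero _).mpr ha
    have e : rh hK (Units.mk0 _ hz0) * rx K m b (b * frL K m b) 0 *
        (rh hK (Units.mk0 _ hz0))⁻¹ = rx K m (a * b) (a * b * frL K m (a * b)) 0 := by
      rw [rh_conj hK, Units.val_mk0, ree_chi_surj hK ha, map_mul, map_mul, map_pow, frL_frL hK]
      congr 1
      · field_simp
      · ring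
    have h2 := congrArg β e
    rw [map_mul, map_mul, map_inv, ree_rig_H hK hβ ht, hc, hc, rh_conj hK, Units.val_mk0,
      ree_chi_surj hK ha] at h2
    exact ((rx_inj h2).2.2).symm
  obtain ⟨a, ha⟩ := ree_exists_L hK hm
  have ha0 : a ≠ 0 := by
    intro h
    apply ha
    rw [h, map_zero]
  have ha1 : a - 1 ≠ 0 := by
    intro h
    apply ha
    rw [sub_eq_zero.mp h, map_one]
  have ha2 : a + 1 ≠ 0 := by
    intro h
    apply ha
    have : a = -1 := eq_neg_of_add_eq_zero_left h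
    rw [this, map_neg, map_one]
  have hd : c 1 = 0 := by
    have h4 := hadd a 1
    have h5 := hhom a 1 ha0
    have h6 := hhom (a + 1) 1 ha2
    rw [mul_one] at h5 h6
    rw [h5, h6, map_add, map_one] at h4
    have h7 : c 1 * ((a - 1) * (a - frL K m a)) = 0 := by
      linear_combination h4 - (c 1 * (a * frL K m a + a)) * h3
    rcases mul_eq_zero.mp h7 with h8 | h8
    · exact h8
    · rcases mul_eq_zero.mp h8 with h9 | h9
      · exact absurd h9 ha1
      · exact absurd (sub_eq_zero.mp h9).symm ha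
  have hcz : ∀ a : K, c a = 0 := by
    intro b
    by_cases hb : b = 0
    · rw [hb, hc0]
    · have := hhom b 1 hb
      rw [mul_one, hd, mul_zero] at this
      exact this
  have e : rx K m t u v = rx K m t (t * frL K m t) 0 * rx K m 0 (u - t * frL K m t) v := by
    rw [rx_mul0 hK]
    congr 1 <;> ring
  rw [e, map_mul, hc, hcz, hD]

/-- Rigidity. -/
theorem ree_rigid (hK : Fintype.card K = 3 ^ (2 * m + 1)) (hm : 1 ≤ m)
    {β : MulAut ↥(twistedG2 K (3 ^ m))} (hβ : ReeNorm K m β)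
    (ht : ∀ t u v : K, ∃ u' v' : K, β (rx K m t u v) = rx K m t u' v') : β = 1 := by
  have hU : ∀ g ∈ rU K m, β g = g := by
    intro g hg
    obtain ⟨t, u, v, rfl⟩ := (mem_U_iff hK g).mp (mem_rU.mp hg)
    exact ree_rig_U hK hm hβ ht t u v
  have hH : ∀ g ∈ rH K m, β g = g := by
    intro g hg
    obtain ⟨z, rfl⟩ := (mem_H_iff hK g).mp (mem_rH.mp hg)
    exact ree_rig_H hK hβ ht z
  have hnB : (rn K m)⁻¹ * β (rn K m) ∈ rB K m := by
    apply ree_norm_U hK
    intro u hu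
    have h1 := mem_rV.mp (hβ.2 _ (rn_conj_mem_rV hu))
    have e : (rn K m)⁻¹ * β (rn K m) * u * ((rn K m)⁻¹ * β (rn K m))⁻¹ =
        (rn K m)⁻¹ * β (rn K m * u * (rn K m)⁻¹) * rn K m := by
      rw [map_mul, map_mul, map_inv, hU u hu]
      group
    rw [e]
    exact h1
  have hV : ∀ g ∈ rV K m, β g = g := by
    intro g hg
    obtain ⟨u₁, hu₁, h, hh, u₂, hu₂, e | e⟩ := ree_bruhat_G hK g
    · rw [e, map_mul, map_mul, hU _ hu₁, hU _ hu₂, hH _ hh]
    · have h1 : g⁻¹ * β g ∈ rV K m := mul_mem (inv_mem hg) (hβ.2 g hg)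
      have h2 : g⁻¹ * β g ∈ rB K m := by
        have e2 : g⁻¹ * β g = (h * u₂)⁻¹ * ((rn K m)⁻¹ * β (rn K m)) * (h * u₂) := by
          rw [e, map_mul, map_mul, map_mul, hU _ hu₁, hU _ hu₂, hH _ hh]
          group
        rw [e2]
        have hb : h * u₂ ∈ rB K m := mul_mem (rH_le_rB hh) (rU_le_rB hu₂)
        exact mul_mem (mul_mem (inv_mem hb) hnB) hb
      have h3 := rB_inf_rV hK h2 h1
      exact (inv_mul_eq_one.mp h3).symm
  have hn : β (rn K m) = rn K m := by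
    have hx : rx K m 1 0 0 ∈ rU K m := mem_rU.mpr (rx_mem_U 1 0 0)
    have hv := rn_conj_mem_rV hx
    obtain ⟨u₁, hu₁, h, hh, u₂, hu₂, e | e⟩ := ree_bruhat_G hK (rn K m * rx K m 1 0 0 * (rn K m)⁻¹)
    · exfalso
      have hB : rn K m * rx K m 1 0 0 * (rn K m)⁻¹ ∈ rB K m := by
        rw [e]; exact mul_mem (mul_mem (rU_le_rB hu₁) (rH_le_rB hh)) (rU_le_rB hu₂)
      have h4 := rB_inf_rV hK hB hv
      apply rx_ne_one (K := K) (m := m)
      have e5 : rx K m 1 0 0 = (rn K m)⁻¹ * (rn K m * rx K m 1 0 0 * (rn K m)⁻¹) * rn K m := by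
        group
      rw [e5, h4]; group
    · have e6 : rn K m = u₁⁻¹ * (rn K m * rx K m 1 0 0 * (rn K m)⁻¹) * u₂⁻¹ * h⁻¹ := by
        rw [e]; group
      have h7 : β (u₁⁻¹ * (rn K m * rx K m 1 0 0 * (rn K m)⁻¹) * u₂⁻¹ * h⁻¹) =
          u₁⁻¹ * (rn K m * rx K m 1 0 0 * (rn K m)⁻¹) * u₂⁻¹ * h⁻¹ := by
        rw [map_mul, map_mul, map_mul, map_inv, map_inv, map_inv, hU _ hu₁, hU _ hu₂, hH _ hh,
          hV _ hv]
      rw [← e6] at h7
      exact h7
  apply MulEquiv.ext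
  intro g
  obtain ⟨u₁, hu₁, h, hh, u₂, hu₂, e | e⟩ := ree_bruhat_G hK g
  · rw [e, map_mul, map_mul, hU _ hu₁, hU _ hu₂, hH _ hh]
    rfl
  · rw [e, map_mul, map_mul, map_mul, hU _ hu₁, hU _ hu₂, hH _ hh, hn]
    rfl

end ree23

end Cfsg.Agent.Helper36
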