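import Cfsg.Agent.Helper36.Ree23

/-!
# The outer automorphism group of `²G₂(q)` (helper36)

`|Out(²G₂(3^(2m+1)))| = 2m + 1`: every automorphism is inner times a field automorphism.
-/

set_option autoImplicit false
set_option linter.unusedSectionVars false
set_option linter.unusedVariables false

namespace Cfsg.Agent.Helper36

open Cfsg Cfsg.Lie

section ree24

variable {K : Type*} [Field K] [CharP K 3] [Fintype K] {m : ℕ}

theorem ree_out_card (hK : Fintype.card K = 3 ^ (2 * m + 1)) (hm : 1 ≤ m) :
    Nat.card (Cfsg.Out ↥(twistedG2 K (3 ^ m))) = 2 * m + 1 := by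
  haveI : Fact (Nat.Prime 3) := ⟨by norm_num⟩
  apply card_out_of_cyclic (reeFrob K m 1) (2 * m + 1) (by omega)
  · intro α
    obtain ⟨g, hg⟩ := ree_aut_normalise hK α
    obtain ⟨z, k, hβ, ht⟩ := ree_aut_twist hK hg
    have h1 := ree_rigid hK hm hβ ht
    refine ⟨g⁻¹ * rh hK z, k, ?_⟩
    rw [reeFrob_pow, map_mul, map_inv]
    have h2 : MulAut.conj (rh hK z) * reeFrob K m k = MulAut.conj g * α := inv_mul_eq_one.mp h1
    rw [mul_assoc, h2]
    group
  · intro k
    rw [reeFrob_pow]
    constructor
    · rintro ⟨g, hg⟩
      have hgH : g ∈ rH K m := by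
        rw [ree_H_char hK]
        constructor
        · intro u hu
          have h := reeFrob_mem_rU k hu
          rw [← hg, MulAut.conj_apply] at h
          exact h
        · intro u hu
          have h := reeFrob_mem_rV k hu
          rw [← hg, MulAut.conj_apply] at h
          exact h
      obtain ⟨z, rfl⟩ := (mem_H_iff hK g).mp (mem_rH.mp hgH)
      have key : ∀ t : K, frT K k t = (frL K m z)⁻¹ * (z : K) ^ 2 * t := by
        intro t
        have h1 : MulAut.conj (rh hK z) (rx K m t 0 0) = reeFrob K m k (rx K m t 0 0) := by
          rw [hg]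
        rw [MulAut.conj_apply, rh_conj hK, reeFrob_rx] at h1
        exact ((rx_inj h1).1).symm
      have hχ : (frL K m z)⁻¹ * (z : K) ^ 2 = 1 := by
        have := key 1
        rw [map_one, mul_one] at this
        exact this.symm
      apply frob_pow_fix_dvd 3 hK
      intro t
      rw [← frT_apply, key t, hχ, one_mul]
    · rintro ⟨j, rfl⟩
      have h1 : reeFrob K m ((2 * m + 1) * j) = 1 := by
        apply reeFrob_eq_one
        intro t
        rw [frT_apply, pow_mul]
        induction j with
        | zero => simp
        | succ j ih => rw [pow_succ, pow_mul, ih, ree_pow_card hK]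
      rw [h1]
      exact one_mem _

end ree24

end Cfsg.Agent.Helper36
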