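import Mathlib
import Cfsg.Prelude.Def_GeometricClasses
import Cfsg.Prelude.Def_Classical
import Cfsg.Agent.Helper65.S74Defs
import Cfsg.Agent.Helper96.OHDefs
import Cfsg.Agent.Helper31.OHOPERP
import Cfsg.Agent.Helper33.OType

set_option autoImplicit false
set_option linter.unusedSectionVars false
set_option linter.unusedVariables false

/-! Sub-CALL S74T2 (helper65), piece DEC (double by helper36): block decomposition of an
involution, by strong induction. -/

namespace Cfsg.Agent.Helper36.S74T2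

open Module Cfsg Cfsg.Geo Cfsg.Agent.Helper65.S74 Cfsg.Agent.Helper96.OH
open scoped MatrixGroups

variable {ι : Type} [Fintype ι] [DecidableEq ι] {F : Type*} [Field F] (Q : (ι → F) → F)

/-- adding a block `P` orthogonal to `X`. -/
theorem t2_dec_add [Fintype F] (hQ : IsNondegenerateQuadraticForm Q)
    (T : Module.End F (ι → F)) (K P X : Submodule F (ι → F)) (hPK : P ≤ K) (hXK : X ≤ K)
    (hPT : P.map T ≤ P) (hXT : X.map T ≤ X) (hP : ONd Q P) (hX : ONd Q X)
    (horth : OOrth Q P X) (hPe : Even (finrank F ↥P)) (hXe : Even (finrank F ↥X)) :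
    (P ⊔ X) ≤ K ∧ (P ⊔ X).map T ≤ P ⊔ X ∧ ONd Q (P ⊔ X) ∧
      finrank F ↥(P ⊔ X) = finrank F ↥P + finrank F ↥X ∧
      (OPl Q (P ⊔ X) ↔ (OPl Q P ↔ OPl Q X)) := by
  refine ⟨sup_le hPK hXK, ?_, Cfsg.Agent.Helper33.OType.nondeg_sup Q hQ P X hP hX horth,
    Cfsg.Agent.Helper33.OType.finrank_sup_of_orth Q P X hP horth,
    Cfsg.Agent.Helper33.o_type_mul Q hQ P X hP hX horth hPe hXe⟩
  rw [Submodule.map_sup]
  exact sup_le_sup hPT hXT

/-- DEC. -/
theorem t2_dec [Fintype F] (hQ : IsNondegenerateQuadraticForm Q)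
    (T : Module.End F (ι → F)) (hT : OPres Q T) (hTT : T ^ 2 = 1)
    (hblk : ∀ K : Submodule F (ι → F), K.map T ≤ K → ONd Q K → K ≠ ⊥ →
      ∃ P : Submodule F (ι → F), P ≤ K ∧ P.map T ≤ P ∧ ONd Q P ∧
        (finrank F ↥P = 2 ∨ (finrank F ↥P = 4 ∧ OPl Q P)))
    (n : ℕ) (K : Submodule F (ι → F)) (hKT : K.map T ≤ K) (hK : ONd Q K)
    (hn : finrank F ↥K = 2 * n) :
    ∃ A h e : ℕ, 2 * A + h + e = n ∧ ∀ a' h' e' : ℕ, a' ≤ A → h' ≤ h → e' ≤ e →
      ∃ X : Submodule F (ι → F), X ≤ K ∧ X.map T ≤ X ∧ ONd Q X ∧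
        finrank F ↥X = 4 * a' + 2 * h' + 2 * e' ∧ (OPl Q X ↔ Even e') := by
  classical
  induction n using Nat.strong_induction_on generalizing K with
  | _ n ih =>
    by_cases hK0 : K = ⊥
    · have hn0 : n = 0 := by
        rw [hK0, finrank_bot] at hn
        omega
      refine ⟨0, 0, 0, by omega, ?_⟩
      intro a' h' e' ha hh he
      have ha0 : a' = 0 := by omega
      have hh0 : h' = 0 := by omega
      have he0 : e' = 0 := by omega
      subst ha0 hh0 he0
      refine ⟨⊥, bot_le, ?_, ?_, ?_, ?_⟩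
      · rw [Submodule.map_bot]
      · intro w hw hw0
        exact absurd ((Submodule.mem_bot F).mp hw) hw0
      · rw [finrank_bot]
      · exact ⟨fun _ => ⟨0, rfl⟩, fun _ => Cfsg.Agent.Helper33.o_plus_bot Q hQ⟩
    · obtain ⟨P, hPK, hPT, hP, hPdim⟩ := hblk K hKT hK hK0
      obtain ⟨K', hK'K, hK'T, hK', hinf, hsup, horth, hdim⟩ :=
        Cfsg.Agent.Helper31.OH5992.o_perp Q hQ T hT 2 two_pos hTT K P hK hP hPK hKT hPT
      rcases hPdim with h2 | ⟨h4, hpl⟩
      · have hn1 : 1 ≤ n := by omega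
        have hK'n : finrank F ↥K' = 2 * (n - 1) := by omega
        obtain ⟨A, h, e, hsum, hX⟩ := ih (n - 1) (by omega) K' hK'T hK' hK'n
        have hPe : Even (finrank F ↥P) := by rw [h2]; exact even_two
        by_cases hpl : OPl Q P
        · refine ⟨A, h + 1, e, by omega, ?_⟩
          intro a' h' e' ha hh he
          by_cases hh0 : h' ≤ h
          · obtain ⟨X, hXK, hXT, hXnd, hXdim, hXpl⟩ := hX a' h' e' ha hh0 he
            exact ⟨X, hXK.trans hK'K, hXT, hXnd, hXdim, hXpl⟩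
          · obtain ⟨X, hXK, hXT, hXnd, hXdim, hXpl⟩ := hX a' (h' - 1) e' ha (by omega) he
            have horthPX : OOrth Q P X := fun u hu v hv => horth u hu v (hXK hv)
            obtain ⟨g1, g2, g3, g4, g5⟩ := t2_dec_add Q hQ T K P X hPK (hXK.trans hK'K) hPT hXT hP
              hXnd horthPX hPe (by rw [hXdim]; exact ⟨2 * a' + (h' - 1) + e', by omega⟩)
            refine ⟨P ⊔ X, g1, g2, g3, by rw [g4, h2, hXdim]; omega, ?_⟩
            rw [g5, hXpl]
            exact ⟨fun hh => hh.mp hpl, fun he => ⟨fun _ => he, fun _ => hpl⟩⟩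
        · refine ⟨A, h, e + 1, by omega, ?_⟩
          intro a' h' e' ha hh he
          by_cases he0 : e' ≤ e
          · obtain ⟨X, hXK, hXT, hXnd, hXdim, hXpl⟩ := hX a' h' e' ha hh he0
            exact ⟨X, hXK.trans hK'K, hXT, hXnd, hXdim, hXpl⟩
          · obtain ⟨X, hXK, hXT, hXnd, hXdim, hXpl⟩ := hX a' h' (e' - 1) ha hh (by omega)
            have horthPX : OOrth Q P X := fun u hu v hv => horth u hu v (hXK hv)
            obtain ⟨g1, g2, g3, g4, g5⟩ := t2_dec_add Q hQ T K P X hPK (hXK.trans hK'K) hPT hXT hP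
              hXnd horthPX hPe (by rw [hXdim]; exact ⟨2 * a' + h' + (e' - 1), by omega⟩)
            refine ⟨P ⊔ X, g1, g2, g3, by rw [g4, h2, hXdim]; omega, ?_⟩
            rw [g5, hXpl]
            have he1 : e' = (e' - 1) + 1 := by omega
            constructor
            · intro hh
              have hno : ¬ Even (e' - 1) := fun hev => hpl (hh.mpr hev)
              rw [he1, Nat.even_add_one]
              exact hno
            · intro hev
              rw [he1, Nat.even_add_one] at hev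
              exact ⟨fun hp => absurd hp hpl, fun hev' => absurd hev' hev⟩
      · have hn2 : 2 ≤ n := by omega
        have hK'n : finrank F ↥K' = 2 * (n - 2) := by omega
        obtain ⟨A, h, e, hsum, hX⟩ := ih (n - 2) (by omega) K' hK'T hK' hK'n
        have hPe : Even (finrank F ↥P) := by rw [h4]; exact ⟨2, rfl⟩
        refine ⟨A + 1, h, e, by omega, ?_⟩
        intro a' h' e' ha hh he
        by_cases ha0 : a' ≤ A
        · obtain ⟨X, hXK, hXT, hXnd, hXdim, hXpl⟩ := hX a' h' e' ha0 hh he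
          exact ⟨X, hXK.trans hK'K, hXT, hXnd, hXdim, hXpl⟩
        · obtain ⟨X, hXK, hXT, hXnd, hXdim, hXpl⟩ := hX (a' - 1) h' e' (by omega) hh he
          have horthPX : OOrth Q P X := fun u hu v hv => horth u hu v (hXK hv)
          obtain ⟨g1, g2, g3, g4, g5⟩ := t2_dec_add Q hQ T K P X hPK (hXK.trans hK'K) hPT hXT hP
            hXnd horthPX hPe (by rw [hXdim]; exact ⟨2 * (a' - 1) + h' + e', by omega⟩)
          refine ⟨P ⊔ X, g1, g2, g3, by rw [g4, h4, hXdim]; omega, ?_⟩
          rw [g5, hXpl]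
          exact ⟨fun hh => hh.mp hpl, fun he => ⟨fun _ => he, fun _ => hpl⟩⟩

end Cfsg.Agent.Helper36.S74T2
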