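import Cfsg.Agent.Helper67.S77Defs

/-!
# CALL S0429, piece F17: three pairwise nonadjacent vertices with one common neighbour lie in
exactly one coclique with 21 vertices
-/

set_option autoImplicit false
set_option linter.unusedSectionVars false
set_option linter.unusedVariables false

namespace Cfsg.Agent.Helper36.S77F17

open Finset Cfsg.Agent.Helper67.S77

variable {V : Type*} [Fintype V] [DecidableEq V] {G : SimpleGraph V} [DecidableRel G.Adj]

theorem p_F17 (hG : G.IsSRGWith 77 16 0 4) (h10 : F10 G) (h11 : F11 G) (h16 : F16 G)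
    (h17a : F17a G) (h17b : F17b G) : F17 G := by
  intro x y z hxy hxz hyz ht
  obtain ⟨hxK, hxadj⟩ := h17a x y z hxy hxz hyz ht
  have hK : IsLine G (lineOf G y z) := h10 y z hyz
  have hC0 := h17b (lineOf G y z) hK x hxK hxadj
  have hyK : y ∈ lineOf G y z := mem_lineOf.mpr (Or.inl rfl)
  have hzK : z ∈ lineOf G y z := mem_lineOf.mpr (Or.inr (Or.inl rfl))
  refine ⟨(lineOf G y z).biUnion (fun v => lineOf G x v), ⟨hC0, ?_, ?_, ?_⟩, ?_⟩
  · exact Finset.mem_biUnion.mpr ⟨y, hyK, mem_lineOf.mpr (Or.inl rfl)⟩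
  · exact Finset.mem_biUnion.mpr ⟨y, hyK, mem_lineOf.mpr (Or.inr (Or.inl rfl))⟩
  · exact Finset.mem_biUnion.mpr ⟨z, hzK, mem_lineOf.mpr (Or.inr (Or.inl rfl))⟩
  · rintro C ⟨hC, hxC, hyC, hzC⟩
    have hKC : lineOf G y z ⊆ C := by
      intro v hv
      rcases mem_lineOf.mp hv with rfl | rfl | hv
      · exact hyC
      · exact hzC
      · exact (h16 C hC y hyC z hzC hyz.1).1 hv
    have hsub : (lineOf G y z).biUnion (fun v => lineOf G x v) ⊆ C := by
      intro w hw
      obtain ⟨v, hv, hw⟩ := Finset.mem_biUnion.mp hw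
      have hvC := hKC hv
      have hxv : x ≠ v := by
        rintro rfl
        exact hxK hv
      rcases mem_lineOf.mp hw with rfl | rfl | hw
      · exact hxC
      · exact hvC
      · exact (h16 C hC x hxC v hvC hxv).1 hw
    exact (Finset.eq_of_subset_of_card_le hsub (by rw [hC.1, hC0.1])).symm

end Cfsg.Agent.Helper36.S77F17
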