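import Cfsg.Agent.Helper67.S77Defs

/-!
# CALL S0429, piece F6: the numbers of `z ∈ R` with `t(z) = 2` and with `t(z) = 1`
-/

set_option autoImplicit false
set_option linter.unusedSectionVars false

namespace Cfsg.Agent.Helper36.S77F6

open Finset Cfsg.Agent.Helper67.S77

variable {V : Type*} [Fintype V] [DecidableEq V] {G : SimpleGraph V} [DecidableRel G.Adj]

theorem p_F6 (h1 : F1 G) (h2 : F2 G) (h3 : F3 G) (h4 : F4 G) : F6 G := by
  intro x y hxy
  have hs1 := h2 x y hxy
  have hs2 := h3 x y hxy
  have hle := h4 x y hxy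
  have e1 : ∑ z ∈ Rs G x y, (t3 G x y z) ^ 2 =
      ∑ z ∈ Rs G x y, (t3 G x y z + 2 * (if t3 G x y z = 2 then 1 else 0)) := by
    apply Finset.sum_congr rfl
    intro z hz
    have h := hle z hz
    generalize t3 G x y z = t at h
    interval_cases t <;> simp
  have e2 : ∑ z ∈ Rs G x y, t3 G x y z =
      ∑ z ∈ Rs G x y, ((if t3 G x y z = 1 then 1 else 0) +
        2 * (if t3 G x y z = 2 then 1 else 0)) := by
    apply Finset.sum_congr rfl
    intro z hz
    have h := hle z hz
    generalize t3 G x y z = t at h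
    interval_cases t <;> simp
  rw [Finset.sum_add_distrib, ← Finset.mul_sum, Finset.sum_boole, hs1] at e1
  rw [Finset.sum_add_distrib, ← Finset.mul_sum, Finset.sum_boole, Finset.sum_boole] at e2
  rw [hs2] at e1
  rw [hs1] at e2
  simp only [Nat.cast_id] at e1 e2
  constructor
  · omega
  · omega

end Cfsg.Agent.Helper36.S77F6
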