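import Mathlib

/-!
# CALL S0997 (helper79), piece NA1 (helper36): arithmetic of case alpha
-/

set_option autoImplicit false

namespace Cfsg.Agent.Helper36

/-- NA1 -/
theorem s997_num_alpha {ι : Type*} (X1 X2 : Finset ι) (d : ι → ℕ) (p e t : ℕ)
    (hp : p.Prime) (he3 : 3 ≤ e) (het : e * t = p - 1) (ht : 2 ≤ t)
    (hd1 : ∀ χ ∈ X1, ((d χ : ℤ) ≡ 1 [ZMOD p]) ∧ 2 ≤ d χ)
    (hd2 : ∀ χ ∈ X2, ((d χ : ℤ) ≡ -1 [ZMOD p]) ∧ 2 ≤ d χ)
    (hcount : 1 + X1.card + X2.card = e)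
    (hrel : (e : ℤ) = 1 + ∑ χ ∈ X1, (d χ : ℤ) - ∑ χ ∈ X2, (d χ : ℤ))
    (hB1 : (p : ℤ) + ∑ χ ∈ X1, ((d χ : ℤ) + ((p : ℤ) - 1))
        ≤ (e : ℤ) ^ 2 + (e : ℤ) * ((p : ℤ) - (e : ℤ)))
    (hB2 : ∑ χ ∈ X2, ((d χ : ℤ) - ((p : ℤ) - 1)) ≤ (e : ℤ) ^ 2 - (e : ℤ) ^ 2)
    (hB3 : 1 + ∑ χ ∈ X1, (d χ : ℤ) ≤ (e : ℤ) ^ 2)
    (hB4 : ∑ χ ∈ X2, (d χ : ℤ) ≤ (e : ℤ) ^ 2) :
    p = 2 * e + 1 ∧ ¬ 2 ∣ e ∧ 2 * X1.card + 1 = e ∧ 2 * X2.card + 1 = e ∧
      (∀ χ ∈ X1, d χ = p + 1) ∧ (∀ χ ∈ X2, d χ = p - 1) := by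
  have hp2 : 2 ≤ p := hp.two_le
  have h1 : ∀ χ ∈ X1, ∃ k, 1 ≤ k ∧ d χ = k * p + 1 := by
    intro χ hχ
    obtain ⟨hmod, hge⟩ := hd1 χ hχ
    have hdvd : (p : ℤ) ∣ ((d χ - 1 : ℕ) : ℤ) := by
      rw [Nat.cast_sub (by omega), Nat.cast_one]
      exact Int.modEq_iff_dvd.mp hmod.symm
    obtain ⟨k, hk⟩ := Int.natCast_dvd_natCast.mp hdvd
    refine ⟨k, ?_, ?_⟩
    · rcases Nat.eq_zero_or_pos k with h | h
      · rw [h, mul_zero] at hk; omega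
      · exact h
    · rw [mul_comm]; omega
  have h2 : ∀ χ ∈ X2, ∃ l, 1 ≤ l ∧ d χ + 1 = l * p := by
    intro χ hχ
    obtain ⟨hmod, hge⟩ := hd2 χ hχ
    have hdvd : (p : ℤ) ∣ ((d χ + 1 : ℕ) : ℤ) := by
      have h3 : ((d χ + 1 : ℕ) : ℤ) = -(-1 - (d χ : ℤ)) := by push_cast; ring
      rw [h3]
      exact (dvd_neg).mpr (Int.modEq_iff_dvd.mp hmod)
    obtain ⟨l, hl⟩ := Int.natCast_dvd_natCast.mp hdvd
    refine ⟨l, ?_, ?_⟩
    · rcases Nat.eq_zero_or_pos l with h | h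
      · rw [h, mul_zero] at hl; omega
      · exact h
    · rw [mul_comm]; exact hl
  -- the degrees in `X2`
  have hX2 : ∀ χ ∈ X2, d χ = p - 1 := by
    intro χ hχ
    have hnn : ∀ ψ ∈ X2, (0 : ℤ) ≤ (d ψ : ℤ) - ((p : ℤ) - 1) := by
      intro ψ hψ
      obtain ⟨l', hl1', hl'⟩ := h2 ψ hψ
      have h5 : p ≤ l' * p := Nat.le_mul_of_pos_left p hl1'
      have h6 : (p : ℤ) ≤ (d ψ : ℤ) + 1 := by exact_mod_cast (by omega : p ≤ d ψ + 1)
      linarith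
    have hsingle := Finset.single_le_sum hnn hχ
    have hbound : (d χ : ℤ) - ((p : ℤ) - 1) ≤ 0 := by
      have := le_trans hsingle hB2
      linarith
    have h0 := hnn χ hχ
    have h7 : (d χ : ℤ) + 1 = (p : ℤ) := by linarith
    have h8 : d χ + 1 = p := by exact_mod_cast h7
    omega
  have hsum2 : ∑ χ ∈ X2, (d χ : ℤ) = (X2.card : ℤ) * ((p : ℤ) - 1) := by
    have h7 : ∀ χ ∈ X2, (d χ : ℤ) = (p : ℤ) - 1 := fun χ hχ => by
      rw [hX2 χ hχ, Nat.cast_sub (by omega), Nat.cast_one]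
    rw [Finset.sum_congr rfl h7, Finset.sum_const, nsmul_eq_mul]
  have h1' : ∀ χ ∈ X1, 1 ≤ (d χ - 1) / p ∧ d χ = (d χ - 1) / p * p + 1 := by
    intro χ hχ
    obtain ⟨k, hk1, hk⟩ := h1 χ hχ
    have h8 : (d χ - 1) / p = k := by
      rw [hk, Nat.add_sub_cancel, Nat.mul_div_cancel _ (by omega)]
    rw [h8]
    exact ⟨hk1, hk⟩
  obtain ⟨S1, hS1⟩ : ∃ S1 : ℤ, S1 = ∑ χ ∈ X1, (((d χ - 1) / p : ℕ) : ℤ) := ⟨_, rfl⟩
  have hsum1 : ∑ χ ∈ X1, (d χ : ℤ) = S1 * (p : ℤ) + (X1.card : ℤ) := by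
    have h9 : ∀ χ ∈ X1, (d χ : ℤ) = (((d χ - 1) / p : ℕ) : ℤ) * (p : ℤ) + 1 := fun χ hχ => by
      have := (h1' χ hχ).2
      exact_mod_cast this
    rw [Finset.sum_congr rfl h9, Finset.sum_add_distrib, ← Finset.sum_mul, ← hS1,
      Finset.sum_const, nsmul_eq_mul, mul_one]
  have hcZ : 1 + (X1.card : ℤ) + (X2.card : ℤ) = (e : ℤ) := by exact_mod_cast hcount
  have hpZ2 : (2 : ℤ) ≤ (p : ℤ) := by exact_mod_cast hp2
  have heZ3 : (3 : ℤ) ≤ (e : ℤ) := by exact_mod_cast he3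
  have hptZ : (p : ℤ) - 1 = (e : ℤ) * (t : ℤ) := by
    have : ((p - 1 : ℕ) : ℤ) = (p : ℤ) - 1 := by rw [Nat.cast_sub (by omega), Nat.cast_one]
    rw [← this, ← het]; push_cast; ring
  rw [hsum1] at hrel hB3
  rw [hsum2] at hrel hB4
  have hS1eq : S1 = (X2.card : ℤ) := by
    have h10 : (S1 - (X2.card : ℤ)) * (p : ℤ) = 0 := by
      have e1 : (S1 - (X2.card : ℤ)) * (p : ℤ) =
          S1 * (p : ℤ) - (X2.card : ℤ) * ((p : ℤ) - 1) - (X2.card : ℤ) := by ring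
      rw [e1]
      linarith
    rcases mul_eq_zero.mp h10 with h | h
    · linarith
    · exfalso; linarith
  have hc1 : (X1.card : ℤ) ≤ S1 := by
    have h11 := Finset.sum_le_sum (s := X1) (f := fun _ => (1 : ℤ))
      (g := fun χ => (((d χ - 1) / p : ℕ) : ℤ)) (fun χ hχ => by
        have := (h1' χ hχ).1
        exact_mod_cast this)
    rw [Finset.sum_const, nsmul_eq_mul, mul_one] at h11
    rw [hS1]
    exact h11
  -- `|X2| * t ≤ e`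
  have hctZ : (X2.card : ℤ) * (t : ℤ) ≤ (e : ℤ) := by
    by_contra hcon
    push Not at hcon
    have h12 : ((e : ℤ) + 1) * (e : ℤ) ≤ (X2.card : ℤ) * (t : ℤ) * (e : ℤ) :=
      mul_le_mul_of_nonneg_right (by linarith) (by linarith)
    rw [hptZ] at hB4
    nlinarith
  have hct : X2.card * t ≤ e := by exact_mod_cast hctZ
  have hle12 : X1.card ≤ X2.card := by
    have : (X1.card : ℤ) ≤ (X2.card : ℤ) := by linarith
    exact_mod_cast this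
  have ht2 : t = 2 := by
    by_contra hne
    have ht3 : 3 ≤ t := by omega
    have h13 : X2.card * 3 ≤ X2.card * t := Nat.mul_le_mul_left _ ht3
    have hc2 : X2.card = 1 := by omega
    have he : e = 3 := by omega
    rw [hc2, one_mul] at hct
    have ht' : t = 3 := by omega
    rw [he, ht'] at het
    have hp10 : p = 10 := by omega
    rw [hp10] at hp
    exact absurd hp (by norm_num)
  rw [ht2] at het
  have hpe : p = 2 * e + 1 := by omega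
  have hpZ : (p : ℤ) = 2 * (e : ℤ) + 1 := by exact_mod_cast hpe
  have hc2le : 2 * (X2.card : ℤ) + 1 ≤ (e : ℤ) := by
    by_contra hcon
    push Not at hcon
    rw [hS1eq, hpZ] at hB3
    have h14 : (e : ℤ) * (e : ℤ) ≤ 2 * (X2.card : ℤ) * (e : ℤ) :=
      mul_le_mul_of_nonneg_right (by linarith) (by linarith)
    nlinarith
  have hc2N : 2 * X2.card + 1 ≤ e := by exact_mod_cast hc2le
  have hK : ∀ χ ∈ X1, (d χ - 1) / p = 1 := by
    intro χ hχ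
    by_contra hne
    have hlt : 1 < (d χ - 1) / p := by have := (h1' χ hχ).1; omega
    have h12 := Finset.sum_lt_sum (s := X1) (f := fun _ => (1 : ℤ))
      (g := fun χ => (((d χ - 1) / p : ℕ) : ℤ)) (fun ψ hψ => by
        have := (h1' ψ hψ).1
        exact_mod_cast this) ⟨χ, hχ, by exact_mod_cast hlt⟩
    rw [Finset.sum_const, nsmul_eq_mul, mul_one, ← hS1] at h12
    omega
  refine ⟨hpe, by omega, by omega, by omega, ?_, hX2⟩
  intro χ hχ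
  have := (h1' χ hχ).2
  rw [hK χ hχ, one_mul] at this
  exact this

end Cfsg.Agent.Helper36
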