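import Mathlib

/-!
# CALL S0997 (helper79), piece NA2 (helper36): arithmetic of case alpha, the order
-/

set_option autoImplicit false

namespace Cfsg.Agent.Helper36

/-- NA2 -/
theorem s997_num_alpha_order (p q e b g₀ n : ℕ) (hp : p.Prime) (hq : q.Prime)
    (hpe : p = 2 * e + 1) (he3 : 3 ≤ e) (heo : ¬ 2 ∣ e)
    (hq1 : q ∣ p + 1) (hq2 : q ∣ p - 1) (heg : e ∣ g₀) (hg : g₀ < p - 1)
    (hord : q ^ b * g₀ = e * (1 + n * p)) (hdvd : p + 1 ∣ p * (e * (1 + n * p))) :
    q = 2 ∧ g₀ = e ∧ 1 + n * p = 2 ^ b ∧ ∃ m : ℕ, p = 2 ^ m - 1 := by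
  have hp2 : 2 ≤ p := hp.two_le
  have hq2' : q = 2 := by
    have h := Nat.dvd_sub hq1 hq2
    have e2 : p + 1 - (p - 1) = 2 := by omega
    rw [e2] at h
    exact (Nat.prime_dvd_prime_iff_eq hq Nat.prime_two).mp h
  have hg0 : 0 < g₀ := by
    rcases Nat.eq_zero_or_pos g₀ with h | h
    · exfalso
      rw [h, mul_zero] at hord
      have : 0 < e * (1 + n * p) := Nat.mul_pos (by omega) (by omega)
      omega
    · exact h
  have hge : g₀ = e := by
    obtain ⟨j, hj⟩ := heg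
    have hj1 : j = 1 := by
      rcases Nat.lt_or_ge j 1 with h | h
      · have : j = 0 := by omega
        rw [this, mul_zero] at hj
        omega
      · rcases Nat.lt_or_ge j 2 with h' | h'
        · omega
        · exfalso
          have : e * 2 ≤ e * j := Nat.mul_le_mul_left e h'
          omega
    rw [hj1, mul_one] at hj
    exact hj
  have hpow : 1 + n * p = 2 ^ b := by
    rw [hq2', hge, mul_comm] at hord
    exact (Nat.eq_of_mul_eq_mul_left (by omega : 0 < e) hord).symm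
  refine ⟨hq2', hge, hpow, ?_⟩
  rw [hpow] at hdvd
  have h1 : e + 1 ∣ p * (e * 2 ^ b) := Dvd.dvd.trans ⟨2, by omega⟩ hdvd
  have hcop1 : Nat.Coprime (e + 1) p := by
    rw [hpe]
    exact Nat.isCoprime_iff_coprime.mp ⟨2, -1, by push_cast; ring⟩
  have hcop2 : Nat.Coprime (e + 1) e :=
    Nat.isCoprime_iff_coprime.mp ⟨1, -1, by push_cast; ring⟩
  have h2 : e + 1 ∣ 2 ^ b := hcop2.dvd_of_dvd_mul_left (hcop1.dvd_of_dvd_mul_left h1)
  obtain ⟨k, -, hk⟩ := (Nat.dvd_prime_pow Nat.prime_two).mp h2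
  refine ⟨k + 1, ?_⟩
  rw [pow_succ, ← hk]
  omega

end Cfsg.Agent.Helper36
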