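import Mathlib

/-!
# CALL S0997 (helper79), piece NB1 (helper36): arithmetic of case beta, `e = 2`
-/

set_option autoImplicit false

namespace Cfsg.Agent.Helper36

/-- NB1 -/
theorem s997_num_beta_two {ι : Type*} (X1 X2 : Finset ι) (d : ι → ℕ) (p f b : ℕ)
    (hp : p.Prime) (hfp : f + 2 = p) (hd2 : ∀ χ ∈ X2, d χ ∣ 2 ^ b * f)
    (hcount : 1 + X1.card + X2.card = 2)
    (hrel : -(f : ℤ) = 1 + ∑ χ ∈ X1, (d χ : ℤ) - ∑ χ ∈ X2, (d χ : ℤ)) :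
    X1 = ∅ ∧ ∃ χ₂ : ι, X2 = {χ₂} ∧ d χ₂ = p - 1 ∧ ∃ m : ℕ, p - 1 = 2 ^ m := by
  have hX1 : X1.card = 0 := by
    by_contra hne
    have h1 : X1.card = 1 := by omega
    have h2 : X2.card = 0 := by omega
    rw [Finset.card_eq_zero] at h2
    obtain ⟨χ, hχ⟩ := Finset.card_eq_one.mp h1
    rw [h2, hχ, Finset.sum_singleton, Finset.sum_empty] at hrel
    have : (0 : ℤ) ≤ (d χ : ℤ) := Int.natCast_nonneg _
    have : (0 : ℤ) ≤ (f : ℤ) := Int.natCast_nonneg _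
    omega
  have hX2 : X2.card = 1 := by omega
  rw [Finset.card_eq_zero] at hX1
  obtain ⟨χ₂, hχ₂⟩ := Finset.card_eq_one.mp hX2
  refine ⟨hX1, χ₂, hχ₂, ?_⟩
  rw [hX1, hχ₂, Finset.sum_singleton, Finset.sum_empty] at hrel
  have hd : d χ₂ = f + 1 := by omega
  have hdv : d χ₂ ∣ 2 ^ b * f := hd2 χ₂ (by rw [hχ₂]; exact Finset.mem_singleton_self _)
  rw [hd] at hdv
  have hcop : Nat.Coprime (f + 1) f := by
    rw [Nat.coprime_comm]
    exact (Nat.coprime_self_add_right).mpr (Nat.coprime_one_right f)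
  have hdv2 : f + 1 ∣ 2 ^ b := hcop.dvd_of_dvd_mul_right hdv
  obtain ⟨m, -, hm⟩ := (Nat.dvd_prime_pow Nat.prime_two).mp hdv2
  refine ⟨by omega, m, by omega⟩

end Cfsg.Agent.Helper36
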