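import Mathlib

/-!
# CALL S0997 (helper79), piece NB2 (helper36): arithmetic of case beta, `e = 2 ^ c ≥ 4`
-/

set_option autoImplicit false

namespace Cfsg.Agent.Helper36

/-- An even number not divisible by `4` that divides `2 ^ b * f` is twice a divisor of `f`. -/
theorem s997_two_odd {d b f : ℕ} (h2 : 2 ∣ d) (h4 : ¬ 4 ∣ d) (hdv : d ∣ 2 ^ b * f) :
    ∃ u, d = 2 * u ∧ u ∣ f := by
  obtain ⟨u, hu⟩ := h2
  refine ⟨u, hu, ?_⟩
  have huodd : ¬ 2 ∣ u := by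
    rintro ⟨v, hv⟩
    exact h4 ⟨v, by rw [hu, hv]; ring⟩
  have hudv : u ∣ 2 ^ b * f := Dvd.dvd.trans ⟨2, by rw [hu]; ring⟩ hdv
  have hcop : Nat.Coprime u (2 ^ b) :=
    Nat.Coprime.pow_right b ((Nat.Prime.coprime_iff_not_dvd Nat.prime_two).mpr huodd).symm
  exact hcop.dvd_of_dvd_mul_left hudv

/-- NB2 -/
theorem s997_num_beta_big {ι : Type*} (X1 X2 : Finset ι) (d : ι → ℕ) (p e f t b c : ℕ)
    (hp : p.Prime) (hef : e + f = p) (het : e * t = p - 1) (ht : 2 ≤ t)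
    (hec : e = 2 ^ c) (hc : 2 ≤ c)
    (hd1 : ∀ χ ∈ X1, ((d χ : ℤ) ≡ 1 [ZMOD p]) ∧ 2 ≤ d χ ∧ d χ ∣ 2 ^ b * f ∧ 2 ∣ d χ)
    (hd2 : ∀ χ ∈ X2, ((d χ : ℤ) ≡ -1 [ZMOD p]) ∧ 2 ≤ d χ ∧ d χ ∣ 2 ^ b * f ∧ 2 ∣ d χ)
    (hcount : 1 + X1.card + X2.card = e)
    (hrel : -(f : ℤ) = 1 + ∑ χ ∈ X1, (d χ : ℤ) - ∑ χ ∈ X2, (d χ : ℤ))
    (hB2 : ∑ χ ∈ X2, ((d χ : ℤ) - ((p : ℤ) - 1)) ≤ (f : ℤ) ^ 2 - (e : ℤ) ^ 2)
    (hB4 : ∑ χ ∈ X2, (d χ : ℤ) ≤ (f : ℤ) ^ 2) :
    p = 2 * e + 1 ∧ 2 * X1.card + 2 = e ∧ 2 * X2.card = e ∧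
      (∀ χ ∈ X1, d χ = p + 1) ∧ (∀ χ ∈ X2, d χ = p - 1) := by
  have hp2 : 2 ≤ p := hp.two_le
  obtain ⟨e', he'⟩ : ∃ e', e = 4 * e' := ⟨2 ^ (c - 2), by
    rw [hec]
    have hcc : c = (c - 2) + 2 := by omega
    conv_lhs => rw [hcc, pow_add]
    ring⟩
  have he'1 : 1 ≤ e' := by
    rcases Nat.eq_zero_or_pos e' with h | h
    · exfalso
      rw [h] at he'
      rw [he'] at hec
      have : 0 < 2 ^ c := by positivity
      omega
    · exact h
  obtain ⟨w, hw⟩ : ∃ w, w = e' * t := ⟨_, rfl⟩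
  have hw1 : 4 * w = p - 1 := by rw [← het, he', hw]; ring
  have hw2 : 2 * e' ≤ w := by rw [hw]; nlinarith
  -- clean congruence facts
  have h1 : ∀ χ ∈ X1, ∃ k, 1 ≤ k ∧ d χ = k * p + 1 := by
    intro χ hχ
    obtain ⟨hmod, hge, -, -⟩ := hd1 χ hχ
    have hdvd : (p : ℤ) ∣ ((d χ - 1 : ℕ) : ℤ) := by
      rw [Nat.cast_sub (by omega), Nat.cast_one]
      exact Int.modEq_iff_dvd.mp hmod.symm
    obtain ⟨k, hk⟩ := Int.natCast_dvd_natCast.mp hdvd
    refine ⟨k, ?_, ?_⟩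
    · rcases Nat.eq_zero_or_pos k with h | h
      · rw [h, mul_zero] at hk; omega
      · exact h
    · rw [mul_comm]; omega
  have h2 : ∀ χ ∈ X2, ∃ l, 1 ≤ l ∧ d χ + 1 = l * p := by
    intro χ hχ
    obtain ⟨hmod, hge, -, -⟩ := hd2 χ hχ
    have hdvd : (p : ℤ) ∣ ((d χ + 1 : ℕ) : ℤ) := by
      have h3 : ((d χ + 1 : ℕ) : ℤ) = -(-1 - (d χ : ℤ)) := by push_cast; ring
      rw [h3]
      exact (dvd_neg).mpr (Int.modEq_iff_dvd.mp hmod)
    obtain ⟨l, hl⟩ := Int.natCast_dvd_natCast.mp hdvd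
    refine ⟨l, ?_, ?_⟩
    · rcases Nat.eq_zero_or_pos l with h | h
      · rw [h, mul_zero] at hl; omega
      · exact h
    · rw [mul_comm]; exact hl
  -- STEP 1: `p = 2 e + 1`
  have hex : ∃ χ, (χ ∈ X1 ∨ χ ∈ X2) ∧ ¬ 4 ∣ d χ := by
    by_contra hcon
    push Not at hcon
    have hs1 : (4 : ℤ) ∣ ∑ χ ∈ X1, (d χ : ℤ) := Finset.dvd_sum (fun χ hχ => by
      have := hcon χ (Or.inl hχ)
      exact_mod_cast this)
    have hs2 : (4 : ℤ) ∣ ∑ χ ∈ X2, (d χ : ℤ) := Finset.dvd_sum (fun χ hχ => by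
      have := hcon χ (Or.inr hχ)
      exact_mod_cast this)
    have h4 : (4 : ℤ) ∣ (f : ℤ) + 1 := by
      have h : (f : ℤ) + 1 = ∑ χ ∈ X2, (d χ : ℤ) - ∑ χ ∈ X1, (d χ : ℤ) := by linarith
      rw [h]
      exact dvd_sub hs2 hs1
    have h4' : 4 ∣ f + 1 := by exact_mod_cast h4
    omega
  have hpe : p = 2 * e + 1 := by
    obtain ⟨χ, hχ, h4⟩ := hex
    rcases hχ with hχ | hχ
    · obtain ⟨-, -, hdv, h2'⟩ := hd1 χ hχ
      obtain ⟨k, hk1, hk⟩ := h1 χ hχ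
      obtain ⟨u, hu, huf⟩ := s997_two_odd h2' h4 hdv
      have hf1 : 1 ≤ f := by omega
      have hule : u ≤ f := Nat.le_of_dvd (by omega) huf
      have hk' : k = 1 := by
        by_contra hne
        have h2k : 2 ≤ k := by omega
        have : 2 * p ≤ k * p := Nat.mul_le_mul_right p h2k
        omega
      rw [hk', one_mul] at hk
      obtain ⟨m, hm⟩ := huf
      have hm1 : m = 1 := by
        rcases Nat.lt_or_ge m 1 with h | h
        · have : m = 0 := by omega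
          rw [this, mul_zero] at hm
          omega
        · rcases Nat.lt_or_ge m 2 with h' | h'
          · omega
          · exfalso
            have : u * 2 ≤ u * m := Nat.mul_le_mul_left u h'
            omega
      rw [hm1, mul_one] at hm
      omega
    · exfalso
      obtain ⟨-, -, hdv, h2'⟩ := hd2 χ hχ
      obtain ⟨l, hl1, hl⟩ := h2 χ hχ
      obtain ⟨u, hu, huf⟩ := s997_two_odd h2' h4 hdv
      have hf1 : 1 ≤ f := by omega
      have hule : u ≤ f := Nat.le_of_dvd (by omega) huf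
      have hl' : l = 1 := by
        by_contra hne
        have h2l : 2 ≤ l := by omega
        have : 2 * p ≤ l * p := Nat.mul_le_mul_right p h2l
        omega
      rw [hl', one_mul] at hl
      exact h4 ⟨w, by omega⟩
  -- STEP 2
  have hfe : f = e + 1 := by omega
  have hX2 : ∀ χ ∈ X2, d χ = p - 1 := by
    intro χ hχ
    obtain ⟨l, hl1, hl⟩ := h2 χ hχ
    obtain ⟨-, -, -, h2'⟩ := hd2 χ hχ
    have hnn : ∀ ψ ∈ X2, (0 : ℤ) ≤ (d ψ : ℤ) - ((p : ℤ) - 1) := by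
      intro ψ hψ
      obtain ⟨l', hl1', hl'⟩ := h2 ψ hψ
      have h5 : p ≤ l' * p := Nat.le_mul_of_pos_left p hl1'
      have h6 : (p : ℤ) ≤ (d ψ : ℤ) + 1 := by exact_mod_cast (by omega : p ≤ d ψ + 1)
      linarith
    have hsingle := Finset.single_le_sum hnn hχ
    have hbound : (d χ : ℤ) - ((p : ℤ) - 1) ≤ (f : ℤ) ^ 2 - (e : ℤ) ^ 2 := le_trans hsingle hB2
    have hfe2 : (f : ℤ) ^ 2 - (e : ℤ) ^ 2 = (p : ℤ) := by rw [hfe, hpe]; push_cast; ring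
    rw [hfe2] at hbound
    have hb' : d χ + 1 ≤ 2 * p := by
      have : (d χ : ℤ) + 1 ≤ 2 * (p : ℤ) := by linarith
      exact_mod_cast this
    have hl2 : l ≤ 2 := by
      by_contra hne
      have : 3 * p ≤ l * p := Nat.mul_le_mul_right p (by omega)
      omega
    rcases (by omega : l = 1 ∨ l = 2) with h | h
    · rw [h, one_mul] at hl; omega
    · rw [h] at hl
      exfalso
      obtain ⟨v, hv⟩ := h2'
      omega
  have hsum2 : ∑ χ ∈ X2, (d χ : ℤ) = (X2.card : ℤ) * ((p : ℤ) - 1) := by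
    have h7 : ∀ χ ∈ X2, (d χ : ℤ) = (p : ℤ) - 1 := fun χ hχ => by
      rw [hX2 χ hχ, Nat.cast_sub (by omega), Nat.cast_one]
    rw [Finset.sum_congr rfl h7, Finset.sum_const, nsmul_eq_mul]
  have h1' : ∀ χ ∈ X1, 1 ≤ (d χ - 1) / p ∧ d χ = (d χ - 1) / p * p + 1 := by
    intro χ hχ
    obtain ⟨k, hk1, hk⟩ := h1 χ hχ
    have h8 : (d χ - 1) / p = k := by
      rw [hk, Nat.add_sub_cancel, Nat.mul_div_cancel _ (by omega)]
    rw [h8]
    exact ⟨hk1, hk⟩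
  obtain ⟨S1, hS1⟩ : ∃ S1 : ℤ, S1 = ∑ χ ∈ X1, (((d χ - 1) / p : ℕ) : ℤ) := ⟨_, rfl⟩
  have hsum1 : ∑ χ ∈ X1, (d χ : ℤ) = S1 * (p : ℤ) + (X1.card : ℤ) := by
    have h9 : ∀ χ ∈ X1, (d χ : ℤ) = (((d χ - 1) / p : ℕ) : ℤ) * (p : ℤ) + 1 := fun χ hχ => by
      have := (h1' χ hχ).2
      exact_mod_cast this
    rw [Finset.sum_congr rfl h9, Finset.sum_add_distrib, ← Finset.sum_mul, ← hS1,
      Finset.sum_const, nsmul_eq_mul, mul_one]
  have hpZ : (p : ℤ) = 2 * (e : ℤ) + 1 := by exact_mod_cast hpe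
  have hfZ : (f : ℤ) = (e : ℤ) + 1 := by exact_mod_cast hfe
  have hcZ : 1 + (X1.card : ℤ) + (X2.card : ℤ) = (e : ℤ) := by exact_mod_cast hcount
  have heZ : (e : ℤ) = 4 * (e' : ℤ) := by exact_mod_cast he'
  have hS1eq : S1 = (X2.card : ℤ) - 1 := by
    rw [hsum1, hsum2] at hrel
    have h10 : (S1 - ((X2.card : ℤ) - 1)) * (p : ℤ) = 0 := by
      have e1 : (S1 - ((X2.card : ℤ) - 1)) * (p : ℤ) =
          S1 * (p : ℤ) - (X2.card : ℤ) * ((p : ℤ) - 1) - (X2.card : ℤ) + (p : ℤ) := by ring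
      rw [e1]
      linarith
    rcases mul_eq_zero.mp h10 with h | h
    · linarith
    · exfalso
      have : (2 : ℤ) ≤ (p : ℤ) := by exact_mod_cast hp2
      linarith
  have hc1 : (X1.card : ℤ) ≤ S1 := by
    have h11 := Finset.sum_le_sum (s := X1) (f := fun _ => (1 : ℤ))
      (g := fun χ => (((d χ - 1) / p : ℕ) : ℤ)) (fun χ hχ => by
        have := (h1' χ hχ).1
        exact_mod_cast this)
    rw [Finset.sum_const, nsmul_eq_mul, mul_one] at h11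
    rw [hS1]
    exact h11
  have hc2 : (X2.card : ℤ) ≤ 2 * (e' : ℤ) + 1 := by
    by_contra hcon
    push Not at hcon
    have hge : (0 : ℤ) ≤ (X2.card : ℤ) - (2 * (e' : ℤ) + 2) := by linarith
    have he'Z : (1 : ℤ) ≤ (e' : ℤ) := by exact_mod_cast he'1
    rw [hsum2, hfZ, hpZ, heZ] at hB4
    nlinarith [mul_nonneg hge (by linarith : (0 : ℤ) ≤ (e' : ℤ))]
  have hcases : X2.card = 2 * e' ∨ X2.card = 2 * e' + 1 := by omega
  refine ⟨hpe, ?_⟩
  rcases hcases with hA | hB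
  · -- all `k = 1`
    have hK : ∀ χ ∈ X1, (d χ - 1) / p = 1 := by
      intro χ hχ
      by_contra hne
      have hlt : 1 < (d χ - 1) / p := by have := (h1' χ hχ).1; omega
      have h12 := Finset.sum_lt_sum (s := X1) (f := fun _ => (1 : ℤ))
        (g := fun χ => (((d χ - 1) / p : ℕ) : ℤ)) (fun ψ hψ => by
          have := (h1' ψ hψ).1
          exact_mod_cast this) ⟨χ, hχ, by exact_mod_cast hlt⟩
      rw [Finset.sum_const, nsmul_eq_mul, mul_one, ← hS1] at h12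
      omega
    refine ⟨by omega, by omega, ?_, hX2⟩
    intro χ hχ
    have := (h1' χ hχ).2
    rw [hK χ hχ, one_mul] at this
    exact this
  · exfalso
    -- some `k ≥ 2`
    have hexk : ∃ χ ∈ X1, 2 ≤ (d χ - 1) / p := by
      by_contra hcon
      push Not at hcon
      have h13 : ∀ χ ∈ X1, (((d χ - 1) / p : ℕ) : ℤ) = 1 := by
        intro χ hχ
        have := (h1' χ hχ).1
        have := hcon χ hχ
        have h14 : (d χ - 1) / p = 1 := by omega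
        rw [h14]; rfl
      rw [Finset.sum_congr rfl h13, Finset.sum_const, nsmul_eq_mul, mul_one] at hS1
      omega
    obtain ⟨χ, hχ, hk2⟩ := hexk
    have hnn : ∀ ψ ∈ X1, (0 : ℤ) ≤ (((d ψ - 1) / p : ℕ) : ℤ) - 1 := by
      intro ψ hψ
      have := (h1' ψ hψ).1
      have h15 : (1 : ℤ) ≤ (((d ψ - 1) / p : ℕ) : ℤ) := by exact_mod_cast this
      linarith
    have hsingle := Finset.single_le_sum hnn hχ
    rw [Finset.sum_sub_distrib, ← hS1, Finset.sum_const, nsmul_eq_mul, mul_one] at hsingle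
    have hk3 : (d χ - 1) / p ≤ 3 := by omega
    obtain ⟨-, -, hdv, h2'⟩ := hd1 χ hχ
    have hd := (h1' χ hχ).2
    rcases (by omega : (d χ - 1) / p = 2 ∨ (d χ - 1) / p = 3) with h | h
    · rw [h] at hd
      obtain ⟨v, hv⟩ := h2'
      omega
    · rw [h] at hd
      have hd4 : d χ = 4 * (6 * e' + 1) := by omega
      have hdv' : 6 * e' + 1 ∣ 2 ^ b * f := Dvd.dvd.trans ⟨4, by rw [hd4]; ring⟩ hdv
      have hodd : ¬ 2 ∣ 6 * e' + 1 := by omega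
      have hcop : Nat.Coprime (6 * e' + 1) (2 ^ b) :=
        Nat.Coprime.pow_right b ((Nat.Prime.coprime_iff_not_dvd Nat.prime_two).mpr hodd).symm
      have hdvf : 6 * e' + 1 ∣ f := hcop.dvd_of_dvd_mul_left hdv'
      have := Nat.le_of_dvd (by omega) hdvf
      omega

end Cfsg.Agent.Helper36
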