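import Mathlib
import Cfsg.Agent.Helper71.SQMain
import Cfsg.Agent.Helper71.SGDefs

/-!
# CALL S5666 (helper71), piece K3G (helper36): `skewN`

A matrix `C` whose `S`-adjoint products `C C†`, `(C+1)(C+1)†` and `(C + R C R)(C + R C R)†`
(for every reflection `R`) are scalar is itself scalar (`n ≥ 3`, `2 ≠ 0`).
-/

set_option autoImplicit false
set_option linter.unusedVariables false

namespace Cfsg.Agent.Helper36.SGK3G

open Matrix Cfsg.Agent.Helper71.T4 Cfsg.Agent.Helper71.SO Cfsg.Agent.Helper71.SQ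
open Cfsg.Agent.Helper71.SG
open Cfsg.Agent.Helper11.SORT Cfsg.Agent.Helper11.SOTR
open scoped Kronecker

variable {F : Type*} [Field F] {m n : ℕ}

theorem bl_mulVec_left' (S K : Matrix (Fin n) (Fin n) F) (x y : Fin n → F) :
    bl S (K *ᵥ x) y = bl (Kᵀ * S) x y := by
  unfold bl
  rw [← Matrix.mulVec_mulVec, Matrix.dotProduct_mulVec x Kᵀ, Matrix.vecMul_transpose]

theorem bl_mulVec_right' (S K : Matrix (Fin n) (Fin n) F) (x y : Fin n → F) :
    bl S x (K *ᵥ y) = bl (S * K) x y := by
  unfold bl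
  rw [Matrix.mulVec_mulVec]

/-- core: `K` skew with scalar square, `K R K R + R K R K` scalar for the reflection `R` in a
non-singular `v` forces `K v = 0`. -/
theorem skew_core (h2 : (2 : F) ≠ 0) (hn : 3 ≤ n) (S : Matrix (Fin n) (Fin n) F) (hS : Sᵀ = S)
    (hdet : S.det ≠ 0) (K : Matrix (Fin n) (Fin n) F) (κ : F)
    (hKS : Kᵀ * S = -(S * K)) (hKK : K * K = κ • (1 : Matrix (Fin n) (Fin n) F))
    (v : Fin n → F) (hv : bl S v v ≠ 0) (c : F)
    (hc : K * Rf S v * K * Rf S v + Rf S v * K * Rf S v * K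
      = c • (1 : Matrix (Fin n) (Fin n) F)) :
    K *ᵥ v = 0 := by
  have ha0 : (2 / bl S v v : F) ≠ 0 := div_ne_zero h2 hv
  set a : F := 2 / bl S v v with ha
  have hsk : ∀ x y, bl S (K *ᵥ x) y = -bl S x (K *ᵥ y) := by
    intro x y
    rw [bl_mulVec_left', bl_mulVec_right', hKS]
    unfold bl
    rw [Matrix.neg_mulVec, dotProduct_neg]
  have hKKx : ∀ x, K *ᵥ (K *ᵥ x) = κ • x := by
    intro x
    rw [Matrix.mulVec_mulVec, hKK, Matrix.smul_mulVec, Matrix.one_mulVec]
  have hKw : K *ᵥ (K *ᵥ v) = κ • v := hKKx v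
  have hRx : ∀ x, Rf S v *ᵥ x = x - (a * bl S x v) • v := by
    intro x
    unfold Rf
    exact refl_mulVec S _ v x
  set w := K *ᵥ v with hw
  have hwv : bl S w v = 0 := by
    have h1 : bl S w v = -bl S v w := hsk v v
    rw [bl_comm S hS v w] at h1
    have h3 : (2 : F) * bl S w v = 0 := by linear_combination h1
    exact (mul_eq_zero.mp h3).resolve_left h2
  have hxw : ∀ x, bl S (K *ᵥ x) v = -bl S x w := fun x => hsk x v
  have e1 : ∀ x, (K * Rf S v * K * Rf S v) *ᵥ x
      = κ • x - (a * bl S x v * κ) • v + (a * bl S x w) • w := by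
    intro x
    rw [← Matrix.mulVec_mulVec, ← Matrix.mulVec_mulVec, ← Matrix.mulVec_mulVec]
    simp only [hRx, Matrix.mulVec_sub, Matrix.mulVec_smul, ← hw, bl_sub_left, bl_smul_left,
      hxw, hwv, hKKx, hKw]
    module
  have e2 : ∀ x, (Rf S v * K * Rf S v * K) *ᵥ x
      = κ • x + (a * bl S x w) • w - (a * κ * bl S x v) • v := by
    intro x
    rw [← Matrix.mulVec_mulVec, ← Matrix.mulVec_mulVec, ← Matrix.mulVec_mulVec]
    simp only [hRx, Matrix.mulVec_sub, Matrix.mulVec_add, Matrix.mulVec_smul, ← hw, bl_sub_left,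
      bl_add_left, bl_smul_left, hxw, hwv, hKKx]
    module
  have hall : ∀ x, (2 * κ - c) • x + (2 * a * bl S x w) • w - (2 * a * κ * bl S x v) • v = 0 := by
    intro x
    have h3 := congrArg (fun A => A *ᵥ x) hc
    simp only [Matrix.add_mulVec, Matrix.smul_mulVec, Matrix.one_mulVec] at h3
    rw [e1, e2] at h3
    have h4 : (2 * κ - c) • x + (2 * a * bl S x w) • w - (2 * a * κ * bl S x v) • v
        = (κ • x - (a * bl S x v * κ) • v + (a * bl S x w) • w
          + (κ • x + (a * bl S x w) • w - (a * κ * bl S x v) • v)) - c • x := by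
      module
    rw [h4, h3, sub_self]
  obtain ⟨x0, hx0, hx0v, hx0w⟩ : ∃ x0 : Fin n → F, x0 ≠ 0 ∧ bl S x0 v = 0 ∧ bl S x0 w = 0 := by
    let f : (Fin n → F) →ₗ[F] (F × F) :=
      { toFun := fun x => (bl S x v, bl S x w)
        map_add' := fun x y => by simp [bl_add_left]
        map_smul' := fun c x => by simp [bl_smul_left] }
    have hker : LinearMap.ker f ≠ ⊥ := by
      apply LinearMap.ker_ne_bot_of_finrank_lt
      rw [Module.finrank_prod, Module.finrank_self, Module.finrank_fin_fun]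
      omega
    obtain ⟨x0, hx0m, hx00⟩ := (Submodule.ne_bot_iff _).mp hker
    have h5 : (bl S x0 v, bl S x0 w) = (0, 0) := hx0m
    exact ⟨x0, hx00, (Prod.mk.inj h5).1, (Prod.mk.inj h5).2⟩
  have hc2 : 2 * κ - c = 0 := by
    have h6 := hall x0
    rw [hx0v, hx0w] at h6
    simp only [mul_zero, zero_smul, add_zero, sub_zero] at h6
    exact (smul_eq_zero.mp h6).resolve_right hx0
  have hall' : ∀ x, (bl S x w) • w = (κ * bl S x v) • v := by
    intro x
    have h6 := hall x
    rw [hc2, zero_smul, zero_add] at h6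
    have h7 : (2 * a) • ((bl S x w) • w - (κ * bl S x v) • v) = 0 := by
      rw [← h6]; module
    have h8 := (smul_eq_zero.mp h7).resolve_left (mul_ne_zero h2 ha0)
    exact sub_eq_zero.mp h8
  have hv0 : v ≠ 0 := by
    rintro rfl
    exact hv (bl_zero_left S 0)
  have hκ : κ = 0 := by
    have h6 := hall' v
    rw [bl_comm S hS v w, hwv, zero_smul] at h6
    have h7 := (smul_eq_zero.mp h6.symm).resolve_right hv0
    exact (mul_eq_zero.mp h7).resolve_right hv
  by_contra hw0
  obtain ⟨y, hy⟩ := exists_bl_ne S hdet w hw0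
  have h6 := hall' y
  rw [hκ, zero_mul, zero_smul] at h6
  rw [bl_comm S hS w y] at hy
  exact hw0 ((smul_eq_zero.mp h6).resolve_left hy)

/-! ## Piece K3G -/
theorem skewN (hn : 3 ≤ n) (h2 : (2 : F) ≠ 0) (S : Matrix (Fin n) (Fin n) F) (hS : Sᵀ = S)
    (hdet : S.det ≠ 0) (C : Matrix (Fin n) (Fin n) F) (l l' : F)
    (h0 : C * S⁻¹ * Cᵀ * S = l • (1 : Matrix (Fin n) (Fin n) F))
    (h1 : (C + 1) * S⁻¹ * (C + 1)ᵀ * S = l' • (1 : Matrix (Fin n) (Fin n) F))
    (hr : ∀ v : Fin n → F, bl S v v ≠ 0 → ∃ l₂ : F,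
      (C + Rf S v * C * Rf S v) * S⁻¹ * (C + Rf S v * C * Rf S v)ᵀ * S
        = l₂ • (1 : Matrix (Fin n) (Fin n) F)) :
    ∃ γ : F, C = γ • (1 : Matrix (Fin n) (Fin n) F) := by
  have hu : IsUnit S.det := isUnit_iff_ne_zero.mpr hdet
  have hSiS : S⁻¹ * S = 1 := Matrix.nonsing_inv_mul S hu
  have hSSi : S * S⁻¹ = 1 := Matrix.mul_nonsing_inv S hu
  generalize S⁻¹ = Si at h0 h1 hr hSiS hSSi
  set t : F := l' - l - 1 with ht
  set γ : F := t / 2 with hγ
  have htγ : t = 2 * γ := by rw [hγ]; field_simp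
  -- C + C† = t
  have hsum : C + Si * Cᵀ * S = t • (1 : Matrix (Fin n) (Fin n) F) := by
    have e : (C + 1) * Si * (C + 1)ᵀ * S
        = C * Si * Cᵀ * S + C * (Si * S) + Si * Cᵀ * S + Si * S := by
      rw [Matrix.transpose_add, Matrix.transpose_one]
      noncomm_ring
    rw [e, h0, hSiS, Matrix.mul_one] at h1
    have h3 : C + Si * Cᵀ * S = l' • (1 : Matrix (Fin n) (Fin n) F) - l • 1 - 1 := by
      rw [← h1]; abel
    rw [h3, ht]
    module
  have hCt : Cᵀ * S = t • S - S * C := by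
    have h3 := congrArg (fun X => S * X) hsum
    simp only [Matrix.mul_add, Matrix.mul_smul, Matrix.mul_one] at h3
    rw [← Matrix.mul_assoc, ← Matrix.mul_assoc, hSSi, Matrix.one_mul] at h3
    rw [← h3]; abel
  have hCC : C * C = t • C - l • (1 : Matrix (Fin n) (Fin n) F) := by
    have e : C * Si * Cᵀ * S = t • C - C * C := by
      rw [Matrix.mul_assoc (C * Si), hCt, Matrix.mul_sub, Matrix.mul_smul, Matrix.mul_assoc C Si S,
        hSiS, Matrix.mul_one, ← Matrix.mul_assoc (C * Si) S C, Matrix.mul_assoc C Si S, hSiS,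
        Matrix.mul_one]
    rw [e] at h0
    rw [← h0]; abel
  set K := C - γ • (1 : Matrix (Fin n) (Fin n) F) with hK
  have hKS : Kᵀ * S = -(S * K) := by
    rw [hK, Matrix.transpose_sub, Matrix.transpose_smul, Matrix.transpose_one, Matrix.sub_mul,
      hCt, Matrix.mul_sub, htγ]
    simp only [Matrix.smul_mul, Matrix.mul_smul, Matrix.one_mul, Matrix.mul_one]
    module
  have hKK : K * K = (γ ^ 2 - l) • (1 : Matrix (Fin n) (Fin n) F) := by
    have h3 : K * K = C * C - (2 * γ) • C + (γ ^ 2) • (1 : Matrix (Fin n) (Fin n) F) := by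
      rw [hK]
      simp only [Matrix.sub_mul, Matrix.mul_sub, Matrix.smul_mul, Matrix.mul_smul, Matrix.one_mul,
        Matrix.mul_one]
      module
    rw [h3, hCC, htγ]
    module
  have hKv : ∀ v : Fin n → F, bl S v v ≠ 0 → K *ᵥ v = 0 := by
    intro v hv
    obtain ⟨l₂, hl₂⟩ := hr v hv
    have hRx : ∀ x, Rf S v *ᵥ x = x - (2 / bl S v v * bl S x v) • v := by
      intro x; unfold Rf; exact refl_mulVec S _ v x
    have hiso : (Rf S v)ᵀ * S * Rf S v = S := by unfold Rf; exact refl_isom S hS v hv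
    have hRR : Rf S v * Rf S v = 1 := by
      apply mv_ext
      intro x
      rw [← Matrix.mulVec_mulVec, hRx x, hRx, Matrix.one_mulVec, bl_sub_left, bl_smul_left]
      have h3 : (2 / bl S v v * (bl S x v - 2 / bl S v v * bl S x v * bl S v v))
          = -(2 / bl S v v * bl S x v) := by
        field_simp; ring
      rw [h3]; module
    obtain ⟨R, hRdef⟩ : ∃ R, R = Rf S v := ⟨_, rfl⟩
    rw [← hRdef] at hl₂ hiso hRR
    have hRS : Rᵀ * S = S * R := by
      have h3 := congrArg (fun X => X * R) hiso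
      simp only [Matrix.mul_assoc, hRR, Matrix.mul_one] at h3
      exact h3
    have hLS : (K + R * K * R)ᵀ * S = -(S * (K + R * K * R)) := by
      have h3 : Rᵀ * (Kᵀ * Rᵀ) * S = -(S * (R * K * R)) := by
        rw [Matrix.mul_assoc, Matrix.mul_assoc, hRS, ← Matrix.mul_assoc Kᵀ, hKS, Matrix.neg_mul,
          Matrix.mul_neg, ← Matrix.mul_assoc, ← Matrix.mul_assoc, hRS]
        simp only [Matrix.mul_assoc]
      rw [Matrix.transpose_add, Matrix.transpose_mul, Matrix.transpose_mul, Matrix.add_mul, hKS,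
        Matrix.mul_add, h3]
      abel
    have hCL : C + R * C * R = (K + R * K * R) + t • (1 : Matrix (Fin n) (Fin n) F) := by
      have hC : C = K + γ • (1 : Matrix (Fin n) (Fin n) F) := by rw [hK]; abel
      conv_lhs => rw [hC]
      simp only [Matrix.mul_add, Matrix.add_mul, Matrix.mul_smul, Matrix.smul_mul, Matrix.mul_one,
        Matrix.one_mul, hRR]
      rw [htγ]; module
    rw [hCL] at hl₂
    generalize hLdef : K + R * K * R = L at hl₂ hLS
    have hLL : L * L = (t ^ 2 - l₂) • (1 : Matrix (Fin n) (Fin n) F) := by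
      have e : (L + t • (1 : Matrix (Fin n) (Fin n) F)) * Si * (L + t • 1)ᵀ * S
          = (t ^ 2) • (1 : Matrix (Fin n) (Fin n) F) - L * L := by
        have e1 : (L + t • (1 : Matrix (Fin n) (Fin n) F))ᵀ * S = -(S * L) + t • S := by
          rw [Matrix.transpose_add, Matrix.transpose_smul, Matrix.transpose_one, Matrix.add_mul,
            hLS, Matrix.smul_mul, Matrix.one_mul]
        have e2 : Si * (-(S * L) + t • S) = -L + t • (1 : Matrix (Fin n) (Fin n) F) := by
          rw [Matrix.mul_add, Matrix.mul_neg, ← Matrix.mul_assoc, hSiS, Matrix.one_mul,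
            Matrix.mul_smul, hSiS]
        rw [Matrix.mul_assoc _ _ S, e1, Matrix.mul_assoc, e2]
        simp only [Matrix.mul_add, Matrix.add_mul, Matrix.mul_smul, Matrix.smul_mul, Matrix.mul_one,
          Matrix.one_mul, Matrix.mul_neg, Matrix.neg_mul]
        module
      rw [e] at hl₂
      have h3 : L * L = (t ^ 2) • (1 : Matrix (Fin n) (Fin n) F) - l₂ • 1 := by
        rw [← hl₂]; abel
      rw [h3]; module
    have hc : K * R * K * R + R * K * R * K
        = (t ^ 2 - l₂ - 2 * (γ ^ 2 - l)) • (1 : Matrix (Fin n) (Fin n) F) := by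
      have e3 : L * L = K * K + (K * R * K * R + R * K * R * K) + R * (K * K) * R
          + R * K * (R * R - 1) * K * R := by
        rw [← hLdef]; noncomm_ring
      rw [hRR, sub_self, Matrix.mul_zero, Matrix.zero_mul, Matrix.zero_mul, add_zero, hKK,
        Matrix.mul_smul, Matrix.smul_mul, Matrix.mul_one, hRR, hLL] at e3
      have h3 : K * R * K * R + R * K * R * K
          = (t ^ 2 - l₂) • (1 : Matrix (Fin n) (Fin n) F) - (γ ^ 2 - l) • 1 - (γ ^ 2 - l) • 1 := by
        rw [e3]; abel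
      rw [h3]; module
    rw [hRdef] at hc
    exact skew_core h2 hn S hS hdet K (γ ^ 2 - l) hKS hKK v hv _ hc
  have hKx : ∀ x : Fin n → F, K *ᵥ x = 0 := by
    intro x
    by_cases hx : bl S x x = 0
    swap
    · exact hKv x hx
    by_cases hx0 : x = 0
    · rw [hx0, Matrix.mulVec_zero]
    obtain ⟨y, hy⟩ := exists_bl_ne S hdet x hx0
    have hp : bl S (x + y) (x + y) = 2 * bl S x y + bl S y y := by
      simp only [bl_add_left, bl_add_right, hx]
      rw [bl_comm S hS y x]; ring
    have hm : bl S (x - y) (x - y) = -2 * bl S x y + bl S y y := by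
      simp only [bl_sub_left, bl_sub_right, hx]
      rw [bl_comm S hS y x]; ring
    by_cases hyy : bl S y y = 0
    · have h3 : K *ᵥ (x + y) = 0 :=
        hKv _ (by rw [hp, hyy, add_zero]; exact mul_ne_zero h2 hy)
      have h4 : K *ᵥ (x - y) = 0 :=
        hKv _ (by rw [hm, hyy, add_zero]; exact mul_ne_zero (neg_ne_zero.mpr h2) hy)
      rw [Matrix.mulVec_add] at h3
      rw [Matrix.mulVec_sub] at h4
      have h5 : (2 : F) • (K *ᵥ x) = 0 := by
        have h6 : (2 : F) • (K *ᵥ x) = (K *ᵥ x + K *ᵥ y) + (K *ᵥ x - K *ᵥ y) := by module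
        rw [h6, h3, h4, add_zero]
      exact (smul_eq_zero.mp h5).resolve_left h2
    · have hy0 : K *ᵥ y = 0 := hKv y hyy
      by_cases hpp : bl S (x + y) (x + y) = 0
      · have h4 : K *ᵥ (x - y) = 0 := hKv _ (by
          rw [hm]
          intro h
          rw [hp] at hpp
          have h7 : (2 * 2 : F) * bl S x y = 0 := by linear_combination hpp - h
          exact hy ((mul_eq_zero.mp h7).resolve_left (mul_ne_zero h2 h2)))
        rw [Matrix.mulVec_sub, hy0, sub_zero] at h4
        exact h4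
      · have h3 : K *ᵥ (x + y) = 0 := hKv _ hpp
        rw [Matrix.mulVec_add, hy0, add_zero] at h3
        exact h3
  refine ⟨γ, ?_⟩
  have hK0 : K = 0 := by
    apply mv_ext
    intro x
    rw [hKx x, Matrix.zero_mulVec]
  rw [hK] at hK0
  exact sub_eq_zero.mp hK0

end Cfsg.Agent.Helper36.SGK3G
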