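import Cfsg.Agent.Helper36.UCCert
import Cfsg.Prelude.Def_ChevB2

/-!
# CALL S2100 / S2398, certificate piece CB2: `Cert chevB2`

The long roots `0, 3, 4, 7` of type `B₂` have no coroot with value `± 1`; they are of the
special kind `SpecP` (`r = 2a + b`).
-/

set_option autoImplicit false
set_option maxRecDepth 1000000

namespace Cfsg.Agent.Helper36.STUCB2

open Cfsg Cfsg.Lie Cfsg.Agent.Helper36 Cfsg.Agent.Helper64.UC

theorem rowsSh : rowsOK (shapeRow chevB2) 0 8 = true := by decide +kernel

theorem rowsOr : rowsOK (orthRow chevB2) 0 8 = true := by decide +kernel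

theorem full1 : fullRow chevB2 1 = true := by decide +kernel
theorem full2 : fullRow chevB2 2 = true := by decide +kernel
theorem full5 : fullRow chevB2 5 = true := by decide +kernel
theorem full6 : fullRow chevB2 6 = true := by decide +kernel

theorem spec0 : SpecP chevB2 0 :=
  ⟨1, by decide, 4, by decide, 2, by decide, 1, 1, by decide +kernel⟩

theorem spec3 : SpecP chevB2 3 :=
  ⟨1, by decide, 7, by decide, 5, by decide, -1, 1, by decide +kernel⟩

theorem spec4 : SpecP chevB2 4 :=
  ⟨2, by decide, 7, by decide, 6, by decide, 1, -1, by decide +kernel⟩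

theorem spec7 : SpecP chevB2 7 :=
  ⟨5, by decide, 4, by decide, 6, by decide, -1, -1, by decide +kernel⟩

/-- PIECE CB2: the table certificate of type B2. -/
theorem cert_B2 : Cert chevB2 where
  shape := fun r hr _ hs hsr hsn =>
    shapeRow_spec (rowsOK_spec rowsSh r (Nat.zero_le r) (by
      have h : chevB2.nroots = 8 := rfl
      omega)) hs hsr hsn
  orth := fun r hr _ hs hsr hsn =>
    orthRow_spec (rowsOK_spec rowsOr r (Nat.zero_le r) (by
      have h : chevB2.nroots = 8 := rfl
      omega)) hs hsr hsn
  full := by
    intro r hr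
    have h : chevB2.nroots = 8 := rfl
    rw [h] at hr
    interval_cases r
    · exact Or.inr spec0
    · exact Or.inl (fullRow_spec full1)
    · exact Or.inl (fullRow_spec full2)
    · exact Or.inr spec3
    · exact Or.inr spec4
    · exact Or.inl (fullRow_spec full5)
    · exact Or.inl (fullRow_spec full6)
    · exact Or.inr spec7

end Cfsg.Agent.Helper36.STUCB2
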