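import Cfsg.Agent.Helper36.STUCD4Sh0
import Cfsg.Agent.Helper36.STUCD4Or0

/-!
# CALL S2100 / S2398, certificate piece CD4: `Cert chevD4`
-/

set_option autoImplicit false
set_option maxRecDepth 1000000

namespace Cfsg.Agent.Helper36.STUCD4

open Cfsg Cfsg.Lie Cfsg.Agent.Helper36 Cfsg.Agent.Helper64.UC

theorem fullRows : rowsOK (fullRow chevD4) 0 24 = true := by decide +kernel

theorem rowsSh : ∀ r < chevD4.nroots, shapeRow chevD4 r = true := by
  intro r hr
  change r < 24 at hr
  exact stuShD4_f0 r (by omega) (by omega)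

theorem rowsOr : ∀ r < chevD4.nroots, orthRow chevD4 r = true := by
  intro r hr
  change r < 24 at hr
  exact stuOrD4_f0 r (by omega) (by omega)

/-- PIECE CD4: the table certificate of type D4. -/
theorem cert_D4 : Cert chevD4 :=
  cert_of_rows rowsSh rowsOr (fun r hr => rowsOK_spec fullRows r (Nat.zero_le r) (by
    have h : chevD4.nroots = 24 := rfl
    omega))

end Cfsg.Agent.Helper36.STUCD4
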