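import Cfsg.Agent.Helper36.UCCert
import Cfsg.Prelude.Def_ChevD4

/-!
# Table certificate of type D4 for CALL S2100 / S2398: shapeRow rows 0..23
-/

set_option autoImplicit false
set_option maxRecDepth 1000000

namespace Cfsg.Agent.Helper36

open Cfsg Cfsg.Lie Cfsg.Agent.Helper64.UC

theorem stuShD4_0 : rowsOK (shapeRow chevD4) 0 24 = true := by decide +kernel

theorem stuShD4_f0 : ∀ r, 0 ≤ r → r < 24 → shapeRow chevD4 r = true := by
  intro r h1 h2
  exact rowsOK_spec stuShD4_0 r (by omega) (by omega)

end Cfsg.Agent.Helper36
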