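import Cfsg.Agent.Helper36.UCFast
import Cfsg.Prelude.Def_ChevE6

/-!
# CALL S2100 / S2398, certificate piece CE6: `Cert chevE6`

Row checks on helper17's packed chain and Cartan tables and a packed table of the coroot
coordinates.
-/

set_option autoImplicit false
set_option maxRecDepth 1000000

namespace Cfsg.Agent.Helper36.STUCE6

open Cfsg Cfsg.Lie Cfsg.Agent.Helper36 Cfsg.Agent.Helper17 Cfsg.Agent.Helper64.UC

/-- The coroot coordinates of type E6, packed: field `rank * γ + i` (5 bits) holds `c_i(γ) + 8`. -/
def corPack : ℕ := 48890254090485884826177882315864543053661677218684599097592396340815458847511577473110938614595533970107003885267392566915438820119964972475630176545552626833844971790814241386710301322848810198467591415363396503457528105947533053103276155621786195001511015564466847926921707129749746834730555727888974085897681278489084485990148592379859621892668627618484084886676334625311390151022970374770042953284135233500355360928242485758631124158089918770753633495784892857960950048618458235932135744570404815946148962919887866350932771550726279484973132553457482241794813941201563912710251789232039151040474747752128810554545340646833050008794568699695765703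

theorem corOK : corPackOK chevE6 corPack = true := by decide +kernel

theorem cartOK : cartanPackOK chevE6 cartanPackE6 = true := by
  have h := cartanOK_E6
  simp only [Bool.and_eq_true] at h
  exact h.1.1

theorem sh_0 : rowsOK (slRow chevE6 chainPackE6) 0 36 = true := by decide +kernel
theorem sh_36 : rowsOK (slRow chevE6 chainPackE6) 36 36 = true := by decide +kernel

theorem rows_sh : ∀ r < chevE6.nroots, slRow chevE6 chainPackE6 r = true := by
  intro r hr
  change r < 72 at hr
  by_cases h0 : r < 36
  · exact rowsOK_spec sh_0 r (by omega) (by omega)
  exact rowsOK_spec sh_36 r (by omega) (by omega)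

theorem or_0 : rowsOK (orthRowP chevE6 cartanPackE6 corPack) 0 36 = true := by decide +kernel
theorem or_36 : rowsOK (orthRowP chevE6 cartanPackE6 corPack) 36 36 = true := by decide +kernel

theorem rows_or : ∀ r < chevE6.nroots, orthRowP chevE6 cartanPackE6 corPack r = true := by
  intro r hr
  change r < 72 at hr
  by_cases h0 : r < 36
  · exact rowsOK_spec or_0 r (by omega) (by omega)
  exact rowsOK_spec or_36 r (by omega) (by omega)

theorem fullRows : rowsOK (fullRowP chevE6 cartanPackE6 corPack) 0 72 = true := by
  decide +kernel

/-- PIECE CE6: the table certificate of type E6. -/
theorem cert_E6 : Cert chevE6 :=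
  cert_of_fast chainPackOK_E6 cartOK corOK rows_sh rows_or (fun r hr =>
    rowsOK_spec fullRows r (Nat.zero_le r) (by
      have h : chevE6.nroots = 72 := rfl
      omega))

end Cfsg.Agent.Helper36.STUCE6
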