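import Cfsg.Agent.Helper36.UCFast
import Cfsg.Prelude.Def_ChevE7

/-!
# CALL S2100 / S2398, certificate piece CE7: `Cert chevE7`

Row checks on helper17's packed chain and Cartan tables and a packed table of the coroot
coordinates.
-/

set_option autoImplicit false
set_option maxRecDepth 1000000

namespace Cfsg.Agent.Helper36.STUCE7

open Cfsg Cfsg.Lie Cfsg.Agent.Helper36 Cfsg.Agent.Helper17 Cfsg.Agent.Helper64.UC

/-- The coroot coordinates of type E7, packed: field `rank * γ + i` (5 bits) holds `c_i(γ) + 8`. -/
def corPack : ℕ := 10155830109124651687634686804085069191161268830626228189101493572541235466151532260602416332093598628651356185148394170239569264893692668793317618109878872343796397926357747004333722057013812842404674891689524042009352998101080634855006085318684691067683735733933676379676523766262024818708790559356938923820914471291864302344810342892539354201420985419890040515487662268469322469337900142951861842616262695514419250803580504703218334110865452098500310300470219598707144320411977045514711093258592823295436982006828617448679209272420852802109438769010202579876776085260028585832770567224058126044422724634573481631211096180809608271229141962757968082895507664555314044594132758801394256455736279954305319079698813868054623371500548755772878445776957835264405659997404942455911035616480253640058002618339594499650358830454878370984672613678024370501208766147030837749069541884623807581452515062665377866623755419601587760703940246020759276675695618421871783276240643459014233004211463926840924588869952171883187377044676007397469520010480749908073494803291441787109067534637891484915031588503717211853060882711401526792860655988315823718674850883037311440226836068494407700436626566884623280931615142758822279763282854043376056585292034949231000316732731873200488389460975819537761126432009638695439670409791889442515700916819142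

theorem corOK : corPackOK chevE7 corPack = true := by decide +kernel

theorem cartOK : cartanPackOK chevE7 cartanPackE7 = true := by
  have h := cartanOK_E7
  simp only [Bool.and_eq_true] at h
  exact h.1.1

theorem sh_0 : rowsOK (slRow chevE7 chainPackE7) 0 42 = true := by decide +kernel
theorem sh_42 : rowsOK (slRow chevE7 chainPackE7) 42 42 = true := by decide +kernel
theorem sh_84 : rowsOK (slRow chevE7 chainPackE7) 84 42 = true := by decide +kernel

theorem rows_sh : ∀ r < chevE7.nroots, slRow chevE7 chainPackE7 r = true := by
  intro r hr
  change r < 126 at hr
  by_cases h0 : r < 42
  · exact rowsOK_spec sh_0 r (by omega) (by omega)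
  by_cases h42 : r < 84
  · exact rowsOK_spec sh_42 r (by omega) (by omega)
  exact rowsOK_spec sh_84 r (by omega) (by omega)

theorem or_0 : rowsOK (orthRowP chevE7 cartanPackE7 corPack) 0 42 = true := by decide +kernel
theorem or_42 : rowsOK (orthRowP chevE7 cartanPackE7 corPack) 42 42 = true := by decide +kernel
theorem or_84 : rowsOK (orthRowP chevE7 cartanPackE7 corPack) 84 42 = true := by decide +kernel

theorem rows_or : ∀ r < chevE7.nroots, orthRowP chevE7 cartanPackE7 corPack r = true := by
  intro r hr
  change r < 126 at hr
  by_cases h0 : r < 42
  · exact rowsOK_spec or_0 r (by omega) (by omega)
  by_cases h42 : r < 84
  · exact rowsOK_spec or_42 r (by omega) (by omega)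
  exact rowsOK_spec or_84 r (by omega) (by omega)

theorem fullRows : rowsOK (fullRowP chevE7 cartanPackE7 corPack) 0 126 = true := by
  decide +kernel

/-- PIECE CE7: the table certificate of type E7. -/
theorem cert_E7 : Cert chevE7 :=
  cert_of_fast chainPackOK_E7 cartOK corOK rows_sh rows_or (fun r hr =>
    rowsOK_spec fullRows r (Nat.zero_le r) (by
      have h : chevE7.nroots = 126 := rfl
      omega))

end Cfsg.Agent.Helper36.STUCE7
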