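import Cfsg.Agent.Helper36.UCCert
import Cfsg.Prelude.Def_ChevF4

/-!
# Table certificate of type F4 for CALL S2100 / S2398: orthRow rows 0..47
-/

set_option autoImplicit false
set_option maxRecDepth 1000000

namespace Cfsg.Agent.Helper36

open Cfsg Cfsg.Lie Cfsg.Agent.Helper64.UC

theorem stuOrF4_0 : rowsOK (orthRow chevF4) 0 12 = true := by decide +kernel
theorem stuOrF4_12 : rowsOK (orthRow chevF4) 12 12 = true := by decide +kernel
theorem stuOrF4_24 : rowsOK (orthRow chevF4) 24 12 = true := by decide +kernel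
theorem stuOrF4_36 : rowsOK (orthRow chevF4) 36 12 = true := by decide +kernel

theorem stuOrF4_f0 : ∀ r, 0 ≤ r → r < 48 → orthRow chevF4 r = true := by
  intro r h1 h2
  by_cases h0 : r < 12
  · exact rowsOK_spec stuOrF4_0 r (by omega) (by omega)
  by_cases h12 : r < 24
  · exact rowsOK_spec stuOrF4_12 r (by omega) (by omega)
  by_cases h24 : r < 36
  · exact rowsOK_spec stuOrF4_24 r (by omega) (by omega)
  exact rowsOK_spec stuOrF4_36 r (by omega) (by omega)

end Cfsg.Agent.Helper36
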