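import Cfsg.Agent.Helper36.STUCF4Sh0
import Cfsg.Agent.Helper36.STUCF4Or0

/-!
# CALL S2100 / S2398, certificate piece CF4: `Cert chevF4`
-/

set_option autoImplicit false
set_option maxRecDepth 1000000

namespace Cfsg.Agent.Helper36.STUCF4

open Cfsg Cfsg.Lie Cfsg.Agent.Helper36 Cfsg.Agent.Helper64.UC

theorem fullRows : rowsOK (fullRow chevF4) 0 48 = true := by decide +kernel

theorem rowsSh : ∀ r < chevF4.nroots, shapeRow chevF4 r = true := by
  intro r hr
  change r < 48 at hr
  exact stuShF4_f0 r (by omega) (by omega)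

theorem rowsOr : ∀ r < chevF4.nroots, orthRow chevF4 r = true := by
  intro r hr
  change r < 48 at hr
  exact stuOrF4_f0 r (by omega) (by omega)

/-- PIECE CF4: the table certificate of type F4. -/
theorem cert_F4 : Cert chevF4 :=
  cert_of_rows rowsSh rowsOr (fun r hr => rowsOK_spec fullRows r (Nat.zero_le r) (by
    have h : chevF4.nroots = 48 := rfl
    omega))

end Cfsg.Agent.Helper36.STUCF4
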