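import Cfsg.Agent.Helper36.UCGSys

/-!
# CALL S2100, piece GSYS: the group presented by (R1), (R2) is a `GSys`
-/

set_option autoImplicit false

namespace Cfsg.Agent.Helper36.STUGSYS

open Cfsg Cfsg.Lie Cfsg.Agent.Helper36 Cfsg.Agent.Helper64.UC

/-- PIECE GSYS: the group presented by (R1), (R2) is a `GSys`. -/
theorem cover_gsys {K : Type*} [Field K] (D : ChevalleyDatum)
    (hD : D ∈ [chevG2, chevB2, chevD4, chevF4, chevE6, chevE7, chevE8])
    (hK : ∃ s : Finset K, 4 < s.card) : GSys D (D.scGen K) :=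
  gSys_cover D hD (exists_sq_ne_one_of_card hK)

end Cfsg.Agent.Helper36.STUGSYS
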