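import Cfsg.Agent.Helper64.UCDefs

/-!
# CALL S2100, piece RT: a residual factor in one root subgroup is trivial (`t` version)
-/

set_option autoImplicit false

namespace Cfsg.Agent.Helper36.STURT

open Cfsg Cfsg.Lie Cfsg.Agent.Helper36 Cfsg.Agent.Helper64.UC

variable {K : Type*} [Field K] {Γ : Type*} [Group Γ] {E : Type*} [Group E]

theorem map_sW {D : ChevalleyDatum} {x : ℕ → K → Γ} {ψ : E →* Γ} {y : ℕ → K → E}
    (hmap : ∀ r < D.nroots, ∀ t : K, ψ (y r t) = x r t) (w : List (ℕ × K))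
    (hw : ∀ p ∈ w, p.1 < D.nroots) : ψ (sW y w) = sW x w := by
  induction w with
  | nil => rw [sW_nil, sW_nil, map_one]
  | cons p w ih =>
    rw [sW_cons, sW_cons, map_mul, ih (fun q hq => hw q (List.mem_cons_of_mem _ hq)),
      hmap p.1 (hw p List.mem_cons_self)]

theorem commWord_lt {D : ChevalleyDatum} (F : DFacts D) {r s : ℕ} (hr : r < D.nroots)
    (hs : s < D.nroots) (t u : K) : ∀ p ∈ D.commWord K r s t u, p.1 < D.nroots := by
  intro p hp
  obtain ⟨c, hc, hpc⟩ := mem_commWord hp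
  rw [hpc]
  exact (F.padd r hr r hr s hs c hc).1

/-- PIECE RT: a residual factor in one root subgroup is trivial (`t` version). -/
theorem add_t_of_res {D : ChevalleyDatum} {x : ℕ → K → Γ} {ψ : E →* Γ} {y : ℕ → K → E}
    (G : GSys D x) (F : DFacts D) (L : LSys D x ψ y) {r s : ℕ} (hv : VP D r s)
    (hres : ∀ t t' u : K, ∃ k < D.nroots, ∃ P : K, y r t * (sW y (D.commWord K r s t u))⁻¹ *
        (y r t' * (sW y (D.commWord K r s t' u))⁻¹) =
      y r (t + t') * (sW y (D.commWord K r s (t + t') u))⁻¹ * y k P) :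
    ∀ t t' u : K, y r t * (sW y (D.commWord K r s t u))⁻¹ *
        (y r t' * (sW y (D.commWord K r s t' u))⁻¹) =
      y r (t + t') * (sW y (D.commWord K r s (t + t') u))⁻¹ := by
  intro t t' u
  obtain ⟨hr, hs, h1, h2⟩ := hv
  obtain ⟨k, hk, P, hP⟩ := hres t t' u
  have key : ∀ v : K, ψ (y r v * (sW y (D.commWord K r s v u))⁻¹) =
      (x s u)⁻¹ * x r v * x s u := by
    intro v
    rw [map_mul, map_inv, L.map r hr, map_sW L.map _ (commWord_lt F hr hs v u)]
    have h := G.comm r hr s hs h1 h2 v u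
    have h' : sW x (D.commWord K r s v u) = (x s u)⁻¹ * (x r v)⁻¹ * (x s u * x r v) := by
      rw [h]; group
    rw [h']
    group
  have h3 := congrArg ψ hP
  rw [map_mul ψ (y r t * (sW y (D.commWord K r s t u))⁻¹)
      (y r t' * (sW y (D.commWord K r s t' u))⁻¹),
    map_mul ψ (y r (t + t') * (sW y (D.commWord K r s (t + t') u))⁻¹) (y k P),
    key, key, key, L.map k hk] at h3
  have h4 : (x s u)⁻¹ * x r t * x s u * ((x s u)⁻¹ * x r t' * x s u) =
      (x s u)⁻¹ * x r (t + t') * x s u := by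
    rw [← G.add r t t']
    group
  rw [h4] at h3
  have h5 : x k P = 1 := (mul_eq_left.mp h3.symm)
  have h6 : P = 0 := G.inj k hk P h5
  have h7 : y k (0 : K) = 1 := by
    have h := L.add k 0 0
    rw [add_zero] at h
    exact mul_eq_left.mp h
  rw [hP, h6, h7, mul_one]

end Cfsg.Agent.Helper36.STURT
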