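import Cfsg.Agent.Helper64.UCDefs

/-!
# CALL S2100, piece RU: a residual factor in one root subgroup is trivial (`u` version)
-/

set_option autoImplicit false

namespace Cfsg.Agent.Helper36.STURU

open Cfsg Cfsg.Lie Cfsg.Agent.Helper36 Cfsg.Agent.Helper64.UC

variable {K : Type*} [Field K] {Γ : Type*} [Group Γ] {E : Type*} [Group E]

theorem map_sW {D : ChevalleyDatum} {x : ℕ → K → Γ} {ψ : E →* Γ} {y : ℕ → K → E}
    (hmap : ∀ r < D.nroots, ∀ t : K, ψ (y r t) = x r t) (w : List (ℕ × K))
    (hw : ∀ p ∈ w, p.1 < D.nroots) : ψ (sW y w) = sW x w := by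
  induction w with
  | nil => rw [sW_nil, sW_nil, map_one]
  | cons p w ih =>
    rw [sW_cons, sW_cons, map_mul, ih (fun q hq => hw q (List.mem_cons_of_mem _ hq)),
      hmap p.1 (hw p List.mem_cons_self)]

theorem commWord_lt {D : ChevalleyDatum} (F : DFacts D) {r s : ℕ} (hr : r < D.nroots)
    (hs : s < D.nroots) (t u : K) : ∀ p ∈ D.commWord K r s t u, p.1 < D.nroots := by
  intro p hp
  obtain ⟨c, hc, hpc⟩ := mem_commWord hp
  rw [hpc]
  exact (F.padd r hr r hr s hs c hc).1

/-- PIECE RU: a residual factor in one root subgroup is trivial (`u` version). -/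
theorem add_u_of_res {D : ChevalleyDatum} {x : ℕ → K → Γ} {ψ : E →* Γ} {y : ℕ → K → E}
    (G : GSys D x) (F : DFacts D) (L : LSys D x ψ y) {r s : ℕ} (hv : VP D r s)
    (hres : ∀ t u u' : K, ∃ k < D.nroots, ∃ P : K, y s u * sW y (D.commWord K r s t u) *
        (y s u' * sW y (D.commWord K r s t u')) =
      y s (u + u') * sW y (D.commWord K r s t (u + u')) * y k P) :
    ∀ t u u' : K, y s u * sW y (D.commWord K r s t u) *
        (y s u' * sW y (D.commWord K r s t u')) =
      y s (u + u') * sW y (D.commWord K r s t (u + u')) := by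
  intro t u u'
  obtain ⟨hr, hs, h1, h2⟩ := hv
  obtain ⟨k, hk, P, hP⟩ := hres t u u'
  -- the image of `y s u * sW y (commWord r s t u)`
  have key : ∀ v : K, ψ (y s v * sW y (D.commWord K r s t v)) = (x r t)⁻¹ * x s v * x r t := by
    intro v
    rw [map_mul, L.map s hs, map_sW L.map _ (commWord_lt F hr hs t v)]
    have h := G.comm r hr s hs h1 h2 t v
    have h' : sW x (D.commWord K r s t v) = (x s v)⁻¹ * (x r t)⁻¹ * (x s v * x r t) := by
      rw [h]; group
    rw [h']
    group
  have h3 := congrArg ψ hP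
  rw [map_mul ψ (y s u * sW y (D.commWord K r s t u)) (y s u' * sW y (D.commWord K r s t u')),
    map_mul ψ (y s (u + u') * sW y (D.commWord K r s t (u + u'))) (y k P),
    key, key, key, L.map k hk] at h3
  have h4 : (x r t)⁻¹ * x s u * x r t * ((x r t)⁻¹ * x s u' * x r t) =
      (x r t)⁻¹ * x s (u + u') * x r t := by
    rw [← G.add s u u']
    group
  rw [h4] at h3
  have h5 : x k P = 1 := (mul_eq_left.mp h3.symm)
  have h6 : P = 0 := G.inj k hk P h5
  have h7 : y k (0 : K) = 1 := by
    have h := L.add k 0 0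
    rw [add_zero] at h
    exact mul_eq_left.mp h
  rw [hP, h6, h7, mul_one]

end Cfsg.Agent.Helper36.STURU
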