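import Cfsg.Agent.Helper64.UCDefs

/-!
# CALL S2100, piece T1: a torus element centralising `x_r` and not `x_s`
-/

set_option autoImplicit false

namespace Cfsg.Agent.Helper36.STUT1

open Cfsg Cfsg.Lie Cfsg.Agent.Helper36 Cfsg.Agent.Helper64.UC

variable {K : Type*} [Field K] {Γ : Type*} [Group Γ]

/-- PIECE T1: a torus element centralising `x_r` and not `x_s`, multiplicative on the
commutator formulas. -/
theorem exists_tor {D : ChevalleyDatum} {x : ℕ → K → Γ} (G : GSys D x) (F : DFacts D)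
    {r s γ : ℕ} (hr : r < D.nroots) (hs : s < D.nroots)
    (hγ : γ < D.nroots) (h0 : D.pairing γ r = 0) {a : K} (ha : a ≠ 0)
    (ha1 : a ^ D.pairing γ s ≠ 1) :
    ∃ (h : Γ) (χ : ℕ → K), Diag D.nroots x h χ ∧ χ r = 1 ∧ χ s ≠ 1 ∧
      ∀ p < D.nroots, ∀ q < D.nroots, ∀ c ∈ D.commTerms p q,
        χ c.1 = χ p ^ c.2.2.1 * χ q ^ c.2.2.2 := by
  obtain ⟨h, hd⟩ := G.tor γ hγ a ha
  refine ⟨h, fun s => a ^ D.pairing γ s, hd, ?_, ha1, ?_⟩
  · show a ^ D.pairing γ r = 1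
    rw [h0, zpow_zero]
  · intro p hp q hq c hc
    show a ^ D.pairing γ c.1 = (a ^ D.pairing γ p) ^ c.2.2.1 * (a ^ D.pairing γ q) ^ c.2.2.2
    rw [(F.padd γ hγ p hp q hq c hc).2, zpow_add₀ ha, zpow_mul', zpow_mul', zpow_natCast,
      zpow_natCast]

end Cfsg.Agent.Helper36.STUT1
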