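import Cfsg.Agent.Helper36.FieldQ2

set_option autoImplicit false

namespace Cfsg.Agent.Helper36

open Matrix

section

variable {F : Type*} [Field F] {q : ℕ}

/-- The matrix `[[0, 1], [-1, 0]]`. -/
def J2 (F : Type*) [Field F] : Matrix (Fin 2) (Fin 2) F := !![0, 1; -1, 0]

theorem J2_mul_neg : J2 F * (- J2 F) = 1 := by
  ext i j
  fin_cases i <;> fin_cases j <;> simp [J2, Matrix.mul_apply, Fin.sum_univ_two]

theorem hermForm_two (u v : Fin 2 → F) :
    Cfsg.hermForm 2 F q u v = u 0 * v 0 ^ q + u 1 * v 1 ^ q := by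
  unfold Cfsg.hermForm
  rw [Fin.sum_univ_two]

/-- Membership in `SU_2` in terms of the twisted Frobenius. -/
theorem mem_SU2_iff (σ : F →+* F) (hσq : ∀ x, σ x = x ^ q) (hσ : ∀ x, σ (σ x) = x)
    (C : Matrix.SpecialLinearGroup (Fin 2) F) :
    C ∈ Cfsg.SU 2 F q ↔
      J2 F * (C : Matrix (Fin 2) (Fin 2) F).map σ = (C : Matrix (Fin 2) (Fin 2) F) * J2 F := by
  obtain ⟨M, hM⟩ := C
  show (∀ u v : Fin 2 → F, Cfsg.hermForm 2 F q (M *ᵥ u) (M *ᵥ v) = Cfsg.hermForm 2 F q u v) ↔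
    J2 F * M.map σ = M * J2 F
  rw [Matrix.det_fin_two] at hM
  have hentries : J2 F * M.map σ = M * J2 F ↔ (σ (M 1 0) = - M 0 1 ∧ σ (M 1 1) = M 0 0) := by
    constructor
    · intro h
      have h00 := congrFun (congrFun h 0) 0
      have h01 := congrFun (congrFun h 0) 1
      simp [J2, Matrix.mul_apply, Fin.sum_univ_two] at h00 h01
      exact ⟨h00, h01⟩
    · rintro ⟨h1, h2⟩
      have h3 : σ (M 0 0) = M 1 1 := by rw [← h2, hσ]
      have h4 : σ (M 0 1) = - M 1 0 := by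
        have := congrArg σ h1
        rw [hσ, map_neg] at this
        rw [this, neg_neg]
      ext i j
      fin_cases i <;> fin_cases j <;>
        simp [J2, Matrix.mul_apply, Fin.sum_univ_two, h1, h2, h3, h4]
  rw [hentries]
  constructor
  · intro h
    have E1 := h (Pi.single 0 1) (Pi.single 0 1)
    have E2 := h (Pi.single 0 1) (Pi.single 1 1)
    have E3 := h (Pi.single 1 1) (Pi.single 0 1)
    have E4 := h (Pi.single 1 1) (Pi.single 1 1)
    have hq0 : q ≠ 0 := by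
      rintro rfl
      have := hσ 0
      simp [hσq] at this
    simp only [hermForm_two, Matrix.mulVec_single_one, Matrix.col_apply, ← hσq] at E1 E2 E3 E4
    simp at E1 E2 E3 E4
    constructor
    · linear_combination (-σ (M 1 0)) * hM + M 0 0 * E3 - M 0 1 * E1
    · linear_combination (-σ (M 1 1)) * hM + M 0 0 * E4 - M 0 1 * E2
  · rintro ⟨h1, h2⟩ u v
    have h3 : σ (M 0 0) = M 1 1 := by rw [← h2, hσ]
    have h4 : σ (M 0 1) = - M 1 0 := by
      have := congrArg σ h1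
      rw [hσ, map_neg] at this
      rw [this, neg_neg]
    rw [hermForm_two, hermForm_two]
    simp only [Matrix.mulVec, dotProduct, Fin.sum_univ_two, ← hσq, map_add, map_mul, h1, h2, h3, h4]
    linear_combination (u 0 * σ (v 0) + u 1 * σ (v 1)) * hM

end

section

variable {F : Type*} [Field F] [Fintype F] {q : ℕ}

/-- The conjugating matrix. -/
theorem exists_SU2_conj (hF : Fintype.card F = q ^ 2) :
    ∃ (σ : F →+* F) (P Pinv : Matrix (Fin 2) (Fin 2) F) (l : F),
      (∀ x, σ x = x ^ q) ∧ (∀ x, σ (σ x) = x) ∧ P * Pinv = 1 ∧ Pinv * P = 1 ∧ l ≠ 0 ∧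
      J2 F * P.map σ = l • P := by
  obtain ⟨σ, hσq, hσ, d, hd⟩ := exists_conj_general hF
  obtain ⟨l, hl⟩ := exists_norm_neg_one hF
  rw [← hσq] at hl
  have hl0 : l ≠ 0 := by
    rintro rfl
    rw [zero_mul] at hl
    exact (neg_ne_zero.2 one_ne_zero) hl.symm
  have hsl0 : σ l ≠ 0 := by
    intro h
    rw [h, mul_zero] at hl
    exact (neg_ne_zero.2 one_ne_zero) hl.symm
  obtain ⟨P, hP⟩ : ∃ P : Matrix (Fin 2) (Fin 2) F, P = !![1, d; σ l, σ l * σ d] := ⟨_, rfl⟩
  have hdet : P.det ≠ 0 := by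
    rw [hP, Matrix.det_fin_two]
    simp only [Matrix.of_apply, Matrix.cons_val', Matrix.cons_val_zero, Matrix.cons_val_one,
      Matrix.empty_val', Matrix.cons_val_fin_one]
    have : (1 : F) * (σ l * σ d) - d * σ l = σ l * (σ d - d) := by ring
    rw [this]
    exact mul_ne_zero hsl0 (sub_ne_zero.2 hd)
  refine ⟨σ, P, P⁻¹, l, hσq, hσ, Matrix.mul_nonsing_inv _ (isUnit_iff_ne_zero.2 hdet),
    Matrix.nonsing_inv_mul _ (isUnit_iff_ne_zero.2 hdet), hl0, ?_⟩
  rw [hP]
  ext i j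
  fin_cases i <;> fin_cases j
  · simp [J2, Matrix.mul_apply, Fin.sum_univ_two, hσ]
  · simp [J2, Matrix.mul_apply, Fin.sum_univ_two, hσ]
  · simp [J2, Matrix.mul_apply, Fin.sum_univ_two, hσ]
    exact hl.symm
  · simp [J2, Matrix.mul_apply, Fin.sum_univ_two, hσ]
    rw [← mul_assoc, hl]
    ring

end

end Cfsg.Agent.Helper36
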