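import Cfsg.Agent.Helper36.UCGSys
import Cfsg.Agent.Helper64.UC2Defs

/-!
# CALL S2107: the group presented by the relations (R1), (R2) is an `RSys`, over every field

Additivity and the commutator formulas are the defining relations; the root maps are injective
because the group maps to the Chevalley group.
-/

set_option autoImplicit false

namespace Cfsg.Agent.Helper36.SX7RSYS

open Cfsg Cfsg.Lie Cfsg.Agent.Helper36 Cfsg.Agent.Helper17 Cfsg.Agent.Helper64.UC
  Cfsg.Agent.Helper64.UC2

/-- The group presented by the relations (R1), (R2) is an `RSys` (no condition on the field). -/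
theorem cover_rsys (D : ChevalleyDatum) {K : Type*} [Field K]
    (hD : D ∈ [chevG2, chevB2, chevD4, chevF4, chevE6, chevE7, chevE8]) :
    RSys D (D.scGen K) := by
  obtain ⟨f₀, g, C⟩ := sCtx_of_mem (F := K) hD
  have S := sRel_cover D (scTheta (K := K) D hD) (fun r t _ => scTheta_val D hD r t)
  refine ⟨S.add, S.comm, ?_⟩
  intro r hr t ht
  have hX := C.R.xadd
  have h1 : xGL hX r t = xGL hX r 0 := by
    rw [← S.map_x hX, ← S.map_x hX, ht, S.zero]
  exact C.xGL_inj hr h1

end Cfsg.Agent.Helper36.SX7RSYS
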