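import Cfsg.Agent.Helper64.UC2Defs
import Cfsg.Agent.Helper91.STUA1

/-!
# CALL S2107 (double, helper36): the relations (R1), (R2) lift to central extensions, without torus

`exists_rel2`: for a group `Γ` with root elements satisfying (R1), (R2) with injective root maps
(`RSys`) and a datum with the table certificate `Cert2`, every central extension `ψ : E →* Γ` has
lifts `y r t` of the root elements that satisfy (R1), (R2).  No condition on the field.

`κ(d, e) = e⁻¹ d⁻¹ e d` depends only on the images of `d`, `e`.  Lifts of commuting root elements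
commute (`commL_of_dec`); `κ` of lifts is additive in each variable; the lift of `x_k(τ)` is
`κ(lift x_a(-C τ), lift x_b(1))` for the reference decomposition `k = a + b`; every other
decomposition gives the same elements, by the identity `κ(κ(U,V),W) = κ(U,κ(V,W))` (`a3_pure`).
-/

set_option autoImplicit false

namespace Cfsg.Agent.Helper36.SX7Rel

open Cfsg Cfsg.Lie Cfsg.Agent.Helper36 Cfsg.Agent.Helper64.UC Cfsg.Agent.Helper64.UC2

section pure

variable {E : Type*} [Group E]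

/-- `κ(d, e) = e⁻¹ d⁻¹ e d`, so that `e d = d e κ(d, e)`. -/
def kap (d e : E) : E := e⁻¹ * d⁻¹ * e * d

theorem kap_eq (d e : E) : e * d = d * e * kap d e := by
  unfold kap; group

theorem kap_swap (d e : E) : kap e d = (kap d e)⁻¹ := by
  unfold kap; group

theorem kap_conj (g d e : E) : g * kap d e * g⁻¹ = kap (g * d * g⁻¹) (g * e * g⁻¹) := by
  unfold kap; group

theorem kap_mul_left (d₁ d₂ e : E) (h : d₂ * kap d₁ e = kap d₁ e * d₂) :
    kap (d₁ * d₂) e = kap d₂ e * kap d₁ e := by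
  have e1 : kap (d₁ * d₂) e = kap d₂ e * (d₂⁻¹ * (kap d₁ e * d₂)) := by
    unfold kap; group
  rw [e1, ← h]
  group

theorem kap_mul_right (d e₁ e₂ : E) (h : e₂ * kap d e₁ = kap d e₁ * e₂) :
    kap d (e₁ * e₂) = kap d e₁ * kap d e₂ := by
  have e1 : kap d (e₁ * e₂) = e₂⁻¹ * (kap d e₁ * e₂) * kap d e₂ := by
    unfold kap; group
  rw [e1, ← h]
  group

/-- The two ways of reordering `W V U`. -/
theorem a3_pure {U V W P Q T T' : E} (e1 : V * U = U * V * P) (e2 : W * V = V * W * Q)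
    (e3 : W * P = P * W * T) (e4 : Q * U = U * Q * T') (hWU : W * U = U * W)
    (hPQ : P * Q = Q * P) (hTQ : T' * Q = Q * T') : T = T' := by
  have i1 : W * V * U = U * V * W * Q * P := by
    calc W * V * U = W * (V * U) := by group
      _ = W * (U * V * P) := by rw [e1]
      _ = (W * U) * V * P := by group
      _ = (U * W) * V * P := by rw [hWU]
      _ = U * (W * V) * P := by group
      _ = U * (V * W * Q) * P := by rw [e2]
      _ = U * V * W * Q * P := by group
  have i2 : W * V * U = U * V * P * W * Q * T' := by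
    calc W * V * U = (W * V) * U := by group
      _ = (V * W * Q) * U := by rw [e2]
      _ = V * W * (Q * U) := by group
      _ = V * W * (U * Q * T') := by rw [e4]
      _ = V * (W * U) * Q * T' := by group
      _ = V * (U * W) * Q * T' := by rw [hWU]
      _ = (V * U) * W * Q * T' := by group
      _ = (U * V * P) * W * Q * T' := by rw [e1]
      _ = U * V * P * W * Q * T' := by group
  have h5 : W * Q * P = P * W * Q * T' := by
    have h' : (U * V) * (W * Q * P) = (U * V) * (P * W * Q * T') := by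
      calc (U * V) * (W * Q * P) = U * V * W * Q * P := by group
        _ = W * V * U := i1.symm
        _ = U * V * P * W * Q * T' := i2
        _ = (U * V) * (P * W * Q * T') := by group
    exact mul_left_cancel h'
  have h6 : W * Q * P = P * W * (T * Q) := by
    calc W * Q * P = W * (Q * P) := by group
      _ = W * (P * Q) := by rw [hPQ]
      _ = (W * P) * Q := by group
      _ = (P * W * T) * Q := by rw [e3]
      _ = P * W * (T * Q) := by group
  have h7 : P * W * (T * Q) = P * W * (T' * Q) := by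
    rw [← h6, h5, hTQ]
    group
  exact mul_right_cancel (mul_left_cancel h7)

end pure

section lifts

variable {K : Type*} [Field K] {Γ : Type*} [Group Γ] {E : Type*} [Group E]

/-- The root elements `x_p`, `x_q` commute. -/
def R0 (x : ℕ → K → Γ) (p q : ℕ) : Prop := ∀ t u : K, x q u * x p t = x p t * x q u

/-- The commutator formula of `(r, s)` has the single term `x_k(c (-t) u)`. -/
def R1 (x : ℕ → K → Γ) (r s k : ℕ) (c : K) : Prop :=
  ∀ t u : K, x s u * x r t = x r t * x s u * x k (c * (-t) * u)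

/-- Lifts of `x_p(·)` and `x_q(·)` commute. -/
def CommL (ψ : E →* Γ) (x : ℕ → K → Γ) (p q : ℕ) : Prop :=
  ∀ (d e : E) (a b : K), ψ d = x p a → ψ e = x q b → d * e = e * d

/-- `κ` of lifts of `x_r(·)`, `x_s(·)` is a lift of an element `x_k(·)`. -/
def KL (ψ : E →* Γ) (x : ℕ → K → Γ) (r s k : ℕ) : Prop :=
  ∀ (d e : E) (t u : K), ψ d = x r t → ψ e = x s u → ∃ τ : K, ψ (kap d e) = x k τ

theorem kap_congr (ψ : E →* Γ) (hc : ψ.ker ≤ Subgroup.center E) {d d' e e' : E}
    (hd : ψ d = ψ d') (he : ψ e = ψ e') : kap d e = kap d' e' := by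
  have h := Cfsg.Agent.Helper91.STUA1.comm_lift_eq ψ hc (a := e⁻¹) (a' := e'⁻¹) (b := d⁻¹)
    (b' := d'⁻¹) (by rw [map_inv, map_inv, he]) (by rw [map_inv, map_inv, hd])
  simp only [inv_inv] at h
  exact h

theorem map_kap {ψ : E →* Γ} {x : ℕ → K → Γ} {r s k : ℕ} {c : K} (h : R1 x r s k c) {d e : E}
    {t u : K} (hd : ψ d = x r t) (he : ψ e = x s u) : ψ (kap d e) = x k (c * (-t) * u) := by
  unfold kap
  rw [map_mul, map_mul, map_mul, map_inv, map_inv, hd, he]
  have h1 := h t u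
  calc (x s u)⁻¹ * (x r t)⁻¹ * x s u * x r t
      = (x s u)⁻¹ * (x r t)⁻¹ * (x s u * x r t) := by group
    _ = (x s u)⁻¹ * (x r t)⁻¹ * (x r t * x s u * x k (c * (-t) * u)) := by rw [h1]
    _ = x k (c * (-t) * u) := by group

theorem commL_symm {ψ : E →* Γ} {x : ℕ → K → Γ} {p q : ℕ} (h : CommL ψ x p q) :
    CommL ψ x q p := fun d e a b hd he => (h e d b a he hd).symm

theorem KL_of_R1 {ψ : E →* Γ} {x : ℕ → K → Γ} {r s k : ℕ} {c : K} (h : R1 x r s k c) :
    KL ψ x r s k := fun _ _ _ _ hd he => ⟨_, map_kap h hd he⟩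

theorem KL_swap {ψ : E →* Γ} {x : ℕ → K → Γ} (hadd : ∀ (r : ℕ) (t u : K), x r t * x r u = x r (t + u))
    {r s k : ℕ} (h : KL ψ x r s k) : KL ψ x s r k := by
  intro d e t u hd he
  obtain ⟨τ, hτ⟩ := h e d u t he hd
  refine ⟨-τ, ?_⟩
  rw [kap_swap, map_inv, hτ]
  apply inv_eq_of_mul_eq_one_right
  rw [hadd, add_neg_cancel]
  have h0 := hadd k 0 0
  rw [add_zero] at h0
  exact mul_eq_left.mp h0

/-- Lifts of `x_r`, `x_s` commute when `r = a + b` with `x_a`, `x_b` commuting with `x_s`. -/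
theorem commL_of_dec (ψ : E →* Γ) (hψ : Function.Surjective ψ) (hc : ψ.ker ≤ Subgroup.center E)
    {x : ℕ → K → Γ} {a b r s : ℕ} {c : K} (h1 : R1 x a b r c) (hcc : c * c = 1)
    (h2 : R0 x a s) (h3 : R0 x b s) : CommL ψ x r s := by
  intro d e α β hd he
  obtain ⟨A, hA⟩ := hψ (x a (-(c * α)))
  obtain ⟨B, hB⟩ := hψ (x b 1)
  have hk : ψ (kap A B) = x r α := by
    rw [map_kap h1 hA hB]
    congr 1
    linear_combination α * hcc
  have hz : (kap A B)⁻¹ * d ∈ Subgroup.center E :=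
    hc (by rw [MonoidHom.mem_ker, map_mul, map_inv, hk, hd, inv_mul_cancel])
  have hz' := Subgroup.mem_center_iff.mp hz
  have hcomm : e * kap A B = kap A B * e := by
    have g1 : kap (e * A * e⁻¹) (e * B * e⁻¹) = kap A B := by
      apply kap_congr ψ hc
      · rw [map_mul, map_mul, map_inv, he, hA, h2]; group
      · rw [map_mul, map_mul, map_inv, he, hB, h3]; group
    calc e * kap A B = (e * kap A B * e⁻¹) * e := by group
      _ = kap A B * e := by rw [kap_conj, g1]
  calc d * e = kap A B * (((kap A B)⁻¹ * d) * e) := by group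
    _ = kap A B * (e * ((kap A B)⁻¹ * d)) := by rw [hz' e]
    _ = (kap A B * e) * ((kap A B)⁻¹ * d) := by group
    _ = (e * kap A B) * ((kap A B)⁻¹ * d) := by rw [hcomm]
    _ = e * d := by group

theorem kap_add_left (ψ : E →* Γ) (hc : ψ.ker ≤ Subgroup.center E) {x : ℕ → K → Γ}
    (hadd : ∀ (r : ℕ) (t u : K), x r t * x r u = x r (t + u)) {r s k : ℕ}
    (hK : KL ψ x r s k) (hkr : CommL ψ x k r) {d₁ d₂ d e : E} {t₁ t₂ u : K}
    (h1 : ψ d₁ = x r t₁) (h2 : ψ d₂ = x r t₂) (hd : ψ d = x r (t₁ + t₂)) (he : ψ e = x s u) :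
    kap d e = kap d₂ e * kap d₁ e := by
  have e1 : kap d e = kap (d₁ * d₂) e :=
    kap_congr ψ hc (by rw [hd, map_mul, h1, h2, hadd]) rfl
  rw [e1]
  apply kap_mul_left
  obtain ⟨τ, hτ⟩ := hK d₁ e t₁ u h1 he
  exact (hkr (kap d₁ e) d₂ τ t₂ hτ h2).symm

/-- `κ(κ(U, V), W) = κ(U, κ(V, W))` for lifts of `x_u`, `x_v`, `x_w`. -/
theorem kap_a3 (ψ : E →* Γ) (hc : ψ.ker ≤ Subgroup.center E) {x : ℕ → K → Γ}
    {u v w p q g : ℕ} {c₁ c₂ : K} (h1 : R1 x u v p c₁) (h2 : R1 x v w q c₂)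
    (hK : KL ψ x u q g) (huw : CommL ψ x u w) (hpq : CommL ψ x p q) (hgq : CommL ψ x g q)
    {U V W P Q : E} {α β γ : K} (hU : ψ U = x u α) (hV : ψ V = x v β) (hW : ψ W = x w γ)
    (hP : ψ P = x p (c₁ * (-α) * β)) (hQ : ψ Q = x q (c₂ * (-β) * γ)) :
    kap P W = kap U Q := by
  have hP' : ψ (kap U V) = x p (c₁ * (-α) * β) := map_kap h1 hU hV
  have hQ' : ψ (kap V W) = x q (c₂ * (-β) * γ) := map_kap h2 hV hW
  have eP : kap P W = kap (kap U V) W := kap_congr ψ hc (by rw [hP, hP']) rfl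
  have eQ : kap U Q = kap U (kap V W) := kap_congr ψ hc rfl (by rw [hQ, hQ'])
  rw [eP, eQ]
  obtain ⟨τ, hτ⟩ := hK U (kap V W) α _ hU hQ'
  exact a3_pure (kap_eq U V) (kap_eq V W) (kap_eq (kap U V) W) (kap_eq U (kap V W))
    (huw U W α γ hU hW).symm (hpq _ _ _ _ hP' hQ') (hgq _ _ _ _ hτ hQ')

end lifts

section main

variable {K : Type*} [Field K] {Γ : Type*} [Group Γ] {E : Type*} [Group E]

theorem r0_of_is0 {D : ChevalleyDatum} {x : ℕ → K → Γ} (G : RSys D x) {p q : ℕ}
    (h : Is0 D p q) : R0 x p q := by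
  obtain ⟨⟨hp, hq, h1, h2⟩, h0⟩ := h
  intro t u
  have h3 := G.comm p hp q hq h1 h2 t u
  unfold ChevalleyDatum.commWord at h3
  rw [h0, List.map_nil, sW_nil, mul_one] at h3
  exact h3

theorem r1_of_t1 {D : ChevalleyDatum} {x : ℕ → K → Γ} (G : RSys D x) {r s k : ℕ} {C : ℤ}
    (h : T1 D r s k C) : R1 x r s k (C : K) := by
  obtain ⟨⟨hr, hs, h1, h2⟩, hk, hC, h0⟩ := h
  intro t u
  have h3 := G.comm r hr s hs h1 h2 t u
  unfold ChevalleyDatum.commWord at h3
  rw [h0] at h3
  simp only [List.map_cons, List.map_nil, sW_cons, sW_nil, mul_one, pow_one] at h3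
  exact h3

theorem sq_of_t1 {D : ChevalleyDatum} {r s k : ℕ} {C : ℤ} (h : T1 D r s k C) :
    ((C : ℤ) : K) * ((C : ℤ) : K) = 1 := by
  rcases h.2.2.1 with rfl | rfl <;> simp

theorem x_zero {D : ChevalleyDatum} {x : ℕ → K → Γ} (G : RSys D x) (r : ℕ) : x r (0 : K) = 1 := by
  have h := G.add r 0 0
  rw [add_zero] at h
  exact mul_eq_left.mp h

theorem x_inj {D : ChevalleyDatum} {x : ℕ → K → Γ} (G : RSys D x) {r : ℕ} (hr : r < D.nroots)
    {s t : K} (h : x r s = x r t) : s = t := by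
  have h2 : x r (s - t) * x r t = x r s := by
    rw [G.add]; congr 1; ring
  rw [h] at h2
  have h1 : x r (s - t) = 1 := by
    have h3 := congrArg (fun z => z * (x r t)⁻¹) h2
    simpa using h3
  exact sub_eq_zero.mp (G.inj r hr _ h1)

/-- The lift of `x_k(τ)` given by the decomposition `k = a + b` with constant `c`. -/
def Yk (lf : Γ → E) (x : ℕ → K → Γ) (a b : ℕ) (c : K) (τ : K) : E :=
  kap (lf (x a (-(c * τ)))) (lf (x b 1))

/-- The facts on the lifts `Yk` of `x_k(·)`: they are lifts, additive, and `κ` of lifts of the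
root elements of any decomposition of `k` is given by them. -/
theorem key_lemma {D : ChevalleyDatum} {x : ℕ → K → Γ} (G : RSys D x) (ψ : E →* Γ)
    (hc : ψ.ker ≤ Subgroup.center E) (lf : Γ → E) (hlf : ∀ g, ψ (lf g) = g)
    (hcl : ∀ p q, Is0 D p q → CommL ψ x p q) {k a b : ℕ} {C₀ : ℤ} (hk : k < D.nroots)
    (hT : T1 D a b k C₀) (hak : Is0 D a k) (hG₀ : ∃ q p : ℕ, Gen1 D k a b q p)
    (hL : ∀ p q : ℕ, ∀ C' : ℤ, T1 D p q k C' → Link D k a b p q) :
    (∀ τ : K, ψ (Yk lf x a b (C₀ : K) τ) = x k τ) ∧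
    (∀ τ τ' : K, Yk lf x a b (C₀ : K) τ * Yk lf x a b (C₀ : K) τ' = Yk lf x a b (C₀ : K) (τ + τ')) ∧
    ∀ (p q : ℕ) (C' : ℤ), T1 D p q k C' → ∀ (d e : E) (t u : K), ψ d = x p t → ψ e = x q u →
      kap d e = Yk lf x a b (C₀ : K) ((C' : K) * (-t) * u) := by
  have hR : R1 x a b k (C₀ : K) := r1_of_t1 G hT
  have hcc : (C₀ : K) * (C₀ : K) = 1 := sq_of_t1 hT
  have hKL : KL ψ x a b k := KL_of_R1 hR
  have hka : CommL ψ x k a := commL_symm (hcl a k hak)
  obtain ⟨q₀, p₀, c₀, C1, C2, hT1, hT2, hqa, hbp, hbk⟩ := hG₀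
  have hkb : CommL ψ x k b := commL_symm (hcl b k hbk)
  have hYmap : ∀ τ : K, ψ (Yk lf x a b (C₀ : K) τ) = x k τ := by
    intro τ
    unfold Yk
    rw [map_kap hR (hlf _) (hlf _)]
    congr 1
    linear_combination τ * hcc
  have hYadd : ∀ τ τ' : K,
      Yk lf x a b (C₀ : K) τ * Yk lf x a b (C₀ : K) τ' = Yk lf x a b (C₀ : K) (τ + τ') := by
    intro τ τ'
    unfold Yk
    symm
    exact kap_add_left ψ hc G.add hKL hka (hlf _) (hlf _) (by rw [hlf]; congr 1; ring) (hlf _)
  have hY0 : Yk lf x a b (C₀ : K) 0 = 1 := by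
    have h := hYadd 0 0
    rw [add_zero] at h
    exact mul_eq_left.mp h
  have hYneg : ∀ τ : K, Yk lf x a b (C₀ : K) (-τ) = (Yk lf x a b (C₀ : K) τ)⁻¹ := by
    intro τ
    have h := hYadd τ (-τ)
    rw [add_neg_cancel, hY0] at h
    exact (inv_eq_of_mul_eq_one_right h).symm
  -- the move out of the reference decomposition
  have hR1 : R1 x c₀ q₀ b (C1 : K) := r1_of_t1 G hT1
  have hR2 : R1 x a c₀ p₀ (C2 : K) := r1_of_t1 G hT2
  have hC1 : (C1 : K) * (C1 : K) = 1 := sq_of_t1 hT1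
  have H₀ : ∀ α β γ : K, kap (lf (x p₀ ((C2 : K) * (-α) * β))) (lf (x q₀ γ)) =
      kap (lf (x a α)) (lf (x b ((C1 : K) * (-β) * γ))) := by
    intro α β γ
    exact kap_a3 ψ hc hR2 hR1 hKL (commL_symm (hcl q₀ a hqa)) (commL_symm (hcl b p₀ hbp)) hkb
      (hlf _) (hlf _) (hlf _) (hlf _) (hlf _)
  have bal : ∀ α β s : K, kap (lf (x a (α * β))) (lf (x b s)) =
      kap (lf (x a α)) (lf (x b (β * s))) := by
    intro α β s
    have h1 := H₀ (α * β) 1 (-((C1 : K) * s))
    have h2 := H₀ α β (-((C1 : K) * s))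
    have e1 : (C1 : K) * (-1) * (-((C1 : K) * s)) = s := by linear_combination s * hC1
    have e2 : (C1 : K) * (-β) * (-((C1 : K) * s)) = β * s := by linear_combination (β * s) * hC1
    have e3 : (C2 : K) * (-(α * β)) * 1 = (C2 : K) * (-α) * β := by ring
    rw [e1, e3] at h1
    rw [e2] at h2
    exact h1.symm.trans h2
  have ev : ∀ s s' : K, kap (lf (x a s)) (lf (x b s')) =
      Yk lf x a b (C₀ : K) ((C₀ : K) * (-s) * s') := by
    intro s s'
    unfold Yk
    have h1 := bal s s' 1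
    rw [mul_one] at h1
    have e : -((C₀ : K) * ((C₀ : K) * (-s) * s')) = s * s' := by
      linear_combination (s * s') * hcc
    rw [e, h1]
  refine ⟨hYmap, hYadd, ?_⟩
  intro p q C' hT' d e t u hd he
  have hR' : R1 x p q k (C' : K) := r1_of_t1 G hT'
  have e0 : kap d e = kap (lf (x p t)) (lf (x q u)) :=
    kap_congr ψ hc (by rw [hd, hlf]) (by rw [he, hlf])
  rw [e0]
  rcases hL p q C' hT' with ⟨hq, hp⟩ | ⟨hq, hp⟩ | hG | hG
  · -- the reference decomposition
    subst hq hp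
    have h1 := hT.2.2.2.symm.trans hT'.2.2.2
    simp only [List.cons.injEq, Prod.mk.injEq, and_true, true_and] at h1
    subst h1
    exact ev t u
  · -- its transpose
    subst hq hp
    have s1 := hR 1 1
    have s2 := hR' 1 1
    have s3 : x k ((C₀ : K) * (-1) * 1) * x k ((C' : K) * (-1) * 1) = 1 := by
      have h4 : x q 1 * x p 1 =
          x q 1 * x p 1 * (x k ((C₀ : K) * (-1) * 1) * x k ((C' : K) * (-1) * 1)) := by
        calc x q 1 * x p 1 = x p 1 * x q 1 * x k ((C' : K) * (-1) * 1) := s2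
          _ = x q 1 * x p 1 * x k ((C₀ : K) * (-1) * 1) * x k ((C' : K) * (-1) * 1) := by rw [s1]
          _ = _ := by group
      exact mul_eq_left.mp h4.symm
    rw [G.add] at s3
    have s4 := G.inj k hk _ s3
    have hs : (C' : K) = -(C₀ : K) := by linear_combination -s4
    rw [kap_swap, ev u t, ← hYneg]
    congr 1
    rw [hs]
    ring
  · -- one move to the reference decomposition
    obtain ⟨c', D1, D2, hU1, hU2, hqa', hbp', hbk'⟩ := hG
    have hD2 : (D2 : K) * (D2 : K) = 1 := sq_of_t1 hU2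
    have H : ∀ α β γ : K, kap (lf (x p ((D2 : K) * (-α) * β))) (lf (x q γ)) =
        kap (lf (x a α)) (lf (x b ((D1 : K) * (-β) * γ))) := by
      intro α β γ
      exact kap_a3 ψ hc (r1_of_t1 G hU2) (r1_of_t1 G hU1) hKL (commL_symm (hcl q a hqa'))
        (commL_symm (hcl b p hbp')) hkb (hlf _) (hlf _) (hlf _) (hlf _) (hlf _)
    have s := congrArg ψ (H 1 1 1)
    rw [map_kap hR' (hlf _) (hlf _), map_kap hR (hlf _) (hlf _)] at s
    have s' := x_inj G hk s
    have h := H (-((D2 : K) * t)) 1 u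
    have e1 : (D2 : K) * (-(-((D2 : K) * t))) * 1 = t := by linear_combination t * hD2
    rw [e1, ev] at h
    rw [h]
    congr 1
    linear_combination (t * u * (D2 : K)) * s' - (t * u * (C' : K)) * hD2
  · -- one move to the transpose of the reference decomposition
    obtain ⟨c', D1, D2, hU1, hU2, hqb, hap, hak'⟩ := hG
    have hD2 : (D2 : K) * (D2 : K) = 1 := sq_of_t1 hU2
    have H : ∀ α β γ : K, kap (lf (x p ((D2 : K) * (-α) * β))) (lf (x q γ)) =
        Yk lf x a b (C₀ : K) (-((C₀ : K) * (-((D1 : K) * (-β) * γ)) * α)) := by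
      intro α β γ
      have h1 : kap (lf (x p ((D2 : K) * (-α) * β))) (lf (x q γ)) =
          kap (lf (x b α)) (lf (x a ((D1 : K) * (-β) * γ))) :=
        kap_a3 ψ hc (r1_of_t1 G hU2) (r1_of_t1 G hU1) (KL_swap G.add hKL)
          (commL_symm (hcl q b hqb)) (commL_symm (hcl a p hap)) hka
          (hlf _) (hlf _) (hlf _) (hlf _) (hlf _)
      rw [h1, kap_swap, ev, hYneg]
    have s := congrArg ψ (H 1 1 1)
    rw [map_kap hR' (hlf _) (hlf _), hYmap] at s
    have s' := x_inj G hk s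
    have h := H (-((D2 : K) * t)) 1 u
    have e1 : (D2 : K) * (-(-((D2 : K) * t))) * 1 = t := by linear_combination t * hD2
    rw [e1] at h
    rw [h]
    congr 1
    linear_combination (t * u * (D2 : K)) * s' - (t * u * (C' : K)) * hD2

/-- The relations (R1), (R2) lift to every central extension (no torus, any field). -/
theorem exists_rel2 {D : ChevalleyDatum} {x : ℕ → K → Γ} (G : RSys D x) (C : Cert2 D)
    (ψ : E →* Γ) (hψ : Function.Surjective ψ) (hc : ψ.ker ≤ Subgroup.center E) :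
    ∃ y : ℕ → K → E, (∀ r, ¬ r < D.nroots → ∀ t : K, y r t = 1) ∧
      (∀ r < D.nroots, ∀ t : K, ψ (y r t) = x r t) ∧
      (∀ (r : ℕ) (t u : K), y r t * y r u = y r (t + u)) ∧
      ∀ r s, VP D r s → Good D y r s := by
  classical
  have hcl : ∀ p q, Is0 D p q → CommL ψ x p q := by
    intro p q h
    obtain ⟨a, b, C₀, hT, ha, hb⟩ := C.czero p q h
    exact commL_of_dec ψ hψ hc (r1_of_t1 G hT) (sq_of_t1 hT) (r0_of_is0 G ha) (r0_of_is0 G hb)
  choose lf hlf using hψ
  have hdec : ∀ k : ℕ, ∃ a b : ℕ, ∃ C₀ : ℤ, k < D.nroots →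
      (T1 D a b k C₀ ∧ Is0 D a k ∧ (∃ q p : ℕ, Gen1 D k a b q p) ∧
        ∀ p q : ℕ, ∀ C' : ℤ, T1 D p q k C' → Link D k a b p q) := by
    intro k
    by_cases hk : k < D.nroots
    · obtain ⟨a, b, C₀, h⟩ := C.dec k hk
      exact ⟨a, b, C₀, fun _ => h⟩
    · exact ⟨0, 0, 0, fun h => absurd h hk⟩
  choose ra rb rc hr using hdec
  have key : ∀ k < D.nroots, _ := fun k hk =>
    key_lemma G ψ hc lf hlf hcl hk (hr k hk).1 (hr k hk).2.1 (hr k hk).2.2.1 (hr k hk).2.2.2
  let y : ℕ → K → E := fun k τ =>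
    if k < D.nroots then Yk lf x (ra k) (rb k) ((rc k : ℤ) : K) τ else 1
  have hy : ∀ k < D.nroots, ∀ τ : K, y k τ = Yk lf x (ra k) (rb k) ((rc k : ℤ) : K) τ :=
    fun k hk τ => if_pos hk
  have hy1 : ∀ r, ¬ r < D.nroots → ∀ t : K, y r t = 1 := fun r hr t => if_neg hr
  have hmap : ∀ r < D.nroots, ∀ t : K, ψ (y r t) = x r t := by
    intro r hr t
    rw [hy r hr]
    exact (key r hr).1 t
  refine ⟨y, hy1, hmap, ?_, ?_⟩
  · intro r t u
    by_cases hr : r < D.nroots
    · rw [hy r hr, hy r hr, hy r hr]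
      exact (key r hr).2.1 t u
    · rw [hy1 r hr, hy1 r hr, hy1 r hr, one_mul]
  · rintro r s ⟨hr, hs, h1, h2⟩
    intro t u
    rcases C.shape r hr s hs h1 h2 with h0 | ⟨k, C', hT⟩
    · unfold ChevalleyDatum.commWord
      rw [h0]
      simp only [List.map_nil, sW_nil, mul_one]
      exact (hcl r s ⟨⟨hr, hs, h1, h2⟩, h0⟩ (y r t) (y s u) t u (hmap r hr t) (hmap s hs u)).symm
    · unfold ChevalleyDatum.commWord
      rw [hT.2.2.2]
      simp only [List.map_cons, List.map_nil, sW_cons, sW_nil, mul_one, pow_one]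
      rw [kap_eq (y r t) (y s u), hy k hT.2.1]
      congr 1
      exact (key k hT.2.1).2.2 r s C' hT (y r t) (y s u) t u (hmap r hr t) (hmap s hs u)

end main

end Cfsg.Agent.Helper36.SX7Rel
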