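import Cfsg.Agent.Helper36.G2Triv
import Cfsg.Agent.Helper64.UCDefs

/-!
# CALL S2107: from lifted relations to the Schur multiplier

If the relations (R1), (R2) lift to every central extension of the group presented by them, then
every central extension of that group splits (`section_of_rel`), the map to the Chevalley group
lifts along every central extension of the Chevalley group (`lift_of_rel`), and for the types
`G₂`, `F₄`, `E₈` over a finite field the Schur multiplier is trivial (`schur_of_rel`).
No condition on the size of the field, no perfectness.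
-/

set_option autoImplicit false

namespace Cfsg.Agent.Helper36.SX7Top

open Cfsg Cfsg.Lie Cfsg.Agent.Helper36 Cfsg.Agent.Helper64.UC

universe u

section

variable {K : Type u} [Field K] {E : Type u} [Group E]

theorem lift_stX' (D : ChevalleyDatum) (y : ℕ → K → E)
    (hy1 : ∀ r, ¬ r < D.nroots → ∀ t : K, y r t = 1) (r : ℕ) (t : K) :
    FreeGroup.lift (fun p : Fin D.nroots × K => y p.1.val p.2) (D.stX r t) = y r t := by
  unfold ChevalleyDatum.stX
  split_ifs with h
  · rw [FreeGroup.lift_apply_of]
  · rw [map_one, hy1 r h]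

theorem lift_stWord' (D : ChevalleyDatum) (y : ℕ → K → E)
    (hy1 : ∀ r, ¬ r < D.nroots → ∀ t : K, y r t = 1) (w : List (ℕ × K)) :
    FreeGroup.lift (fun p : Fin D.nroots × K => y p.1.val p.2) (D.stWord w) = sW y w := by
  unfold ChevalleyDatum.stWord sW
  rw [map_list_prod, List.map_map]
  congr 1
  apply List.map_congr_left
  intro p _
  exact lift_stX' D y hy1 p.1 p.2

/-- The relations (R1), (R2) lift to the central extension `ψ` of the presented group. -/
def RelLift (D : ChevalleyDatum) (ψ : E →* D.SteinbergCover K) : Prop :=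
  ∃ y : ℕ → K → E, (∀ r, ¬ r < D.nroots → ∀ t : K, y r t = 1) ∧
    (∀ r < D.nroots, ∀ t : K, ψ (y r t) = D.scGen K r t) ∧
    (∀ (r : ℕ) (t u : K), y r t * y r u = y r (t + u)) ∧
    ∀ r s, VP D r s → Good D y r s

/-- Lifted relations give a section. -/
theorem section_of_rel (D : ChevalleyDatum) (ψ : E →* D.SteinbergCover K)
    (h : RelLift D ψ) : ∃ s : D.SteinbergCover K →* E, ψ.comp s = MonoidHom.id _ := by
  obtain ⟨y, hy1, hmap, hadd, hgood⟩ := h
  have hrel : ∀ w ∈ D.steinbergRelsAB K,
      FreeGroup.lift (fun p : Fin D.nroots × K => y p.1.val p.2) w = 1 := by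
    rintro w (⟨r, t₁, t₂, hr, rfl⟩ | ⟨r, s, t, u, hr, hs, h1, h2, rfl⟩)
    · rw [map_mul, map_mul, map_inv, lift_stX' D y hy1, lift_stX' D y hy1, lift_stX' D y hy1,
        hadd, mul_inv_cancel]
    · rw [map_mul, map_mul, map_mul, map_mul, map_inv, map_inv, map_inv, lift_stX' D y hy1,
        lift_stX' D y hy1, lift_stWord' D y hy1]
      have h3 := hgood r s ⟨hr, hs, h1, h2⟩ t u
      have e : (y s u)⁻¹ * (y r t)⁻¹ * y s u * y r t * (sW y (D.commWord K r s t u))⁻¹ =
          (y s u)⁻¹ * (y r t)⁻¹ * (y s u * y r t) * (sW y (D.commWord K r s t u))⁻¹ := by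
        group
      rw [e, h3]
      group
  refine ⟨PresentedGroup.toGroup hrel, ?_⟩
  apply PresentedGroup.ext
  intro p
  rw [MonoidHom.comp_apply, PresentedGroup.toGroup.of, MonoidHom.id_apply, hmap p.1.val p.1.isLt]
  unfold ChevalleyDatum.scGen ChevalleyDatum.stX
  rw [dif_pos p.1.isLt]
  rfl

end

section

variable {K : Type u} [Field K]

/-- If the relations lift to every central extension of the presented group, then every
homomorphism of the presented group lifts along every central extension. -/
theorem lift_of_rel (D : ChevalleyDatum)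
    (hrel : ∀ (P : Type u) [Group P] (ψ : P →* D.SteinbergCover K), Function.Surjective ψ →
      ψ.ker ≤ Subgroup.center P → RelLift D ψ)
    {E : Type u} [Group E] {G₁ : Type u} [Group G₁] (π₁ : E →* G₁)
    (hπ : Function.Surjective π₁) (hc : π₁.ker ≤ Subgroup.center E)
    (σ : D.SteinbergCover K →* G₁) : ∃ τ : D.SteinbergCover K →* E, π₁.comp τ = σ := by
  -- the pull-back
  let P : Subgroup (E × D.SteinbergCover K) :=
    (π₁.comp (MonoidHom.fst E (D.SteinbergCover K))).eqLocus
      (σ.comp (MonoidHom.snd E (D.SteinbergCover K)))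
  let ψ : P →* D.SteinbergCover K := (MonoidHom.snd E (D.SteinbergCover K)).comp P.subtype
  have hP : ∀ p : P, π₁ p.1.1 = σ p.1.2 := fun p => p.2
  have hψ : Function.Surjective ψ := by
    intro g
    obtain ⟨e, he⟩ := hπ (σ g)
    exact ⟨⟨(e, g), he⟩, rfl⟩
  have hcψ : ψ.ker ≤ Subgroup.center P := by
    intro p hp
    rw [MonoidHom.mem_ker] at hp
    have hp2 : p.1.2 = 1 := hp
    have hp1 : p.1.1 ∈ Subgroup.center E := by
      apply hc
      rw [MonoidHom.mem_ker, hP p, hp2, map_one]
    rw [Subgroup.mem_center_iff]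
    intro q
    apply Subtype.ext
    apply Prod.ext
    · exact Subgroup.mem_center_iff.mp hp1 q.1.1
    · change q.1.2 * p.1.2 = p.1.2 * q.1.2
      rw [hp2, mul_one, one_mul]
  obtain ⟨s, hs⟩ := section_of_rel D ψ (hrel P ψ hψ hcψ)
  have hs' : ∀ g, (s g).1.2 = g := fun g => DFunLike.congr_fun hs g
  refine ⟨((MonoidHom.fst E (D.SteinbergCover K)).comp P.subtype).comp s, ?_⟩
  apply MonoidHom.ext
  intro g
  change π₁ (s g).1.1 = σ g
  rw [hP (s g), hs' g]

/-- If the relations lift to every central extension of the presented group, the Schur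
multiplier of the Chevalley group is trivial (`G₂`, `F₄`, `E₈` over a finite field). -/
theorem schur_of_rel [Fintype K] (D : ChevalleyDatum) (hD : D ∈ [chevG2, chevF4, chevE8])
    (hD' : D ∈ [chevG2, chevB2, chevD4, chevF4, chevE6, chevE7, chevE8])
    (hrel : ∀ (P : Type u) [Group P] (ψ : P →* D.SteinbergCover K), Function.Surjective ψ →
      ψ.ker ≤ Subgroup.center P → RelLift D ψ) :
    Cfsg.HasCyclicSchurMultiplier ↥(D.group K) 1 :=
  schur_trivial_of_lift D hD hD' (fun _ _ π₁ hs hc => lift_of_rel D hrel π₁ hs hc _)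

end

end Cfsg.Agent.Helper36.SX7Top
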