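import Cfsg.Agent.Helper36.SbF
import Cfsg.Agent.Helper36.ChevRelAll
import Cfsg.Agent.Helper18.NLongAll
import Cfsg.Agent.Helper18.FAut3
import Cfsg.Agent.Helper17.ChevUniMem

/-!
# The outer automorphism group of `E₈(q)` (helper36)

`|Out(E₈(p^f))| = f`: every automorphism of the Chevalley group of type `E₈` is the product of an inner
automorphism and a field automorphism (Steinberg).  The table facts for `E₈`: the longest word, the
Dynkin diagram (which has no symmetry), the unimodular Cartan matrix.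
-/

set_option autoImplicit false
set_option linter.unusedSectionVars false
set_option linter.unusedVariables false

namespace Cfsg.Agent.Helper36

open Cfsg Cfsg.Lie Cfsg.Agent.Helper17

theorem sb_negUnipotent_le_group {D : ChevalleyDatum} {F : Type*} [Field F] (hX : XAdd D F) :
    D.negUnipotent F ≤ D.group F := by
  unfold ChevalleyDatum.negUnipotent
  rw [Subgroup.closure_le]
  rintro g ⟨r, t, -, hg⟩
  rw [SetLike.mem_coe, eq_xGL hX hg]
  exact xGL_mem_group hX r t

/-! ### Tables for `E₈` -/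

set_option maxRecDepth 100000 in
theorem sb_tau_E8 : ∀ j < 8, Cfsg.Agent.Helper18.fwdN chevE8 Cfsg.Agent.Helper18.longE8
    (chevE8.neg (chevE8.simple j)) = chevE8.simple j := by decide +kernel

theorem sbLong_E8 : SbLong chevE8 Cfsg.Agent.Helper18.longE8 := by
  have hD : chevE8 ∈ [chevG2, chevB2, chevD4, chevF4, chevE6, chevE7, chevE8] := by simp
  have W := wFacts_of_mem hD
  have h := Cfsg.Agent.Helper18.chkLong_E8
  unfold Cfsg.Agent.Helper18.chkLong at h
  rw [Bool.and_eq_true, Cfsg.Agent.Helper18.allBelow_iff] at h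
  have hL := Cfsg.Agent.Helper18.allLt_spec _ _ h.1
  have htau : ∀ j < chevE8.rank, wW chevE8 Cfsg.Agent.Helper18.longE8 (chevE8.neg (chevE8.simple j)) =
      chevE8.simple j := by
    intro j hj
    have h1 := sb_tau_E8 j hj
    rw [(Cfsg.Agent.Helper18.fwdN_spec chevE8 hD Cfsg.Agent.Helper18.longE8 hL _
      (W.neg_lt _ (W.simple_lt j hj))).1] at h1
    exact h1
  refine ⟨hL, ?_, fun j hj => ⟨j, hj, htau j hj⟩, fun j hj => ⟨j, hj, htau j hj⟩⟩
  intro s hs
  have h2 := h.2 s hs.1
  rw [Bool.and_eq_true] at h2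
  have h3 := h2.1
  rw [decide_eq_true hs, Cfsg.Agent.Helper18.bsel_true, decide_eq_true_eq,
    (Cfsg.Agent.Helper18.fwdN_spec chevE8 hD Cfsg.Agent.Helper18.longE8 hL s hs.1).1] at h3
  exact h3

theorem sbTab_E8 : SbTab chevE8 where
  simple_inj := by decide +kernel
  comm_pn := by decide +kernel

/-- The Dynkin diagram of `E₈`. -/
def sbAdjE8 (i j : ℕ) : Bool :=
  [(0, 2), (2, 0), (1, 3), (3, 1), (2, 3), (3, 2), (3, 4), (4, 3), (4, 5), (5, 4), (5, 6), (6, 5),
    (6, 7), (7, 6)].contains (i, j)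

/-- The check of the commutator of two negative fundamental root elements. -/
def sbEdgeOK (D : ChevalleyDatum) (i j : ℕ) : Bool :=
  match D.commTerms (D.neg (D.simple i)) (D.neg (D.simple j)) with
  | [(k, ε, a, b)] =>
    decide (k < D.nroots) && (decide (ε = 1) || decide (ε = -1)) && decide (a = 1) && decide (b = 1)
  | _ => false

theorem sbEdgeOK_spec {D : ChevalleyDatum} {i j : ℕ} (h : sbEdgeOK D i j = true) :
    ∃ k < D.nroots, ∃ ε : ℤ, (ε = 1 ∨ ε = -1) ∧
      D.commTerms (D.neg (D.simple i)) (D.neg (D.simple j)) = [(k, ε, 1, 1)] := by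
  unfold sbEdgeOK at h
  split at h
  · rename_i k ε a b heq
    simp only [Bool.and_eq_true, Bool.or_eq_true, decide_eq_true_eq] at h
    obtain ⟨⟨⟨hk, hε⟩, ha⟩, hb⟩ := h
    refine ⟨k, hk, ε, hε, ?_⟩
    rw [heq, ha, hb]
  · exact absurd h (by simp)

theorem sb_edge_E8 : ∀ i < 8, ∀ j < 8, sbAdjE8 i j = true → sbEdgeOK chevE8 i j = true := by
  decide +kernel

theorem sb_nonedge_E8 : ∀ i < 8, ∀ j < 8, i ≠ j → sbAdjE8 i j = false →
    chevE8.commTerms (chevE8.neg (chevE8.simple i)) (chevE8.neg (chevE8.simple j)) = [] := by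
  decide +kernel

theorem sbAdj_E8 : SbAdj chevE8 sbAdjE8 where
  edge := fun i hi j hj h => sbEdgeOK_spec (sb_edge_E8 i hi j hj h)
  nonedge := sb_nonedge_E8

theorem sb_adj_irrefl_E8 : ∀ i : Fin 8, sbAdjE8 i.val i.val = false := by decide

/-- The Dynkin diagram of `E₈` has no symmetry. -/
theorem sb_e8_rigid (ρ : Fin 8 → Fin 8) (hinj : Function.Injective ρ)
    (hadj : ∀ i j : Fin 8, sbAdjE8 i.val j.val = true → sbAdjE8 (ρ i).val (ρ j).val = true) :
    ∀ i, ρ i = i := by
  have L1 : ∀ x a b c : Fin 8, sbAdjE8 x.val a.val = true → sbAdjE8 x.val b.val = true →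
      sbAdjE8 x.val c.val = true → a ≠ b → a ≠ c → b ≠ c → x = 3 := by decide
  have L2 : ∀ r4 r5 r6 : Fin 8, sbAdjE8 (3 : Fin 8).val r4.val = true →
      sbAdjE8 r4.val r5.val = true → r5 ≠ 3 → sbAdjE8 r5.val r6.val = true → r6 ≠ r4 →
      (r4 = 4 ∧ r5 = 5 ∧ r6 = 6) := by decide
  have L3 : ∀ r7 : Fin 8, sbAdjE8 (6 : Fin 8).val r7.val = true → r7 ≠ 5 → r7 = 7 := by decide
  have L4 : ∀ r2 r0 : Fin 8, sbAdjE8 (3 : Fin 8).val r2.val = true → r2 ≠ 4 →
      sbAdjE8 r2.val r0.val = true → r0 ≠ 3 → (r2 = 2 ∧ r0 = 0) := by decide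
  have L5 : ∀ r1 : Fin 8, sbAdjE8 (3 : Fin 8).val r1.val = true → r1 ≠ 4 → r1 ≠ 2 → r1 = 1 := by
    decide
  have h3 : ρ 3 = 3 := L1 (ρ 3) (ρ 1) (ρ 2) (ρ 4) (hadj 3 1 (by decide)) (hadj 3 2 (by decide))
    (hadj 3 4 (by decide)) (fun h => absurd (hinj h) (by decide))
    (fun h => absurd (hinj h) (by decide)) (fun h => absurd (hinj h) (by decide))
  obtain ⟨h4, h5, h6⟩ := L2 (ρ 4) (ρ 5) (ρ 6)
    (by have := hadj 3 4 (by decide); rwa [h3] at this) (hadj 4 5 (by decide))
    (fun h => absurd (hinj (h.trans h3.symm)) (by decide)) (hadj 5 6 (by decide))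
    (fun h => absurd (hinj h) (by decide))
  have h7 := L3 (ρ 7) (by have := hadj 6 7 (by decide); rwa [h6] at this)
    (fun h => absurd (hinj (h.trans h5.symm)) (by decide))
  obtain ⟨h2, h0⟩ := L4 (ρ 2) (ρ 0) (by have := hadj 3 2 (by decide); rwa [h3] at this)
    (fun h => absurd (hinj (h.trans h4.symm)) (by decide)) (hadj 2 0 (by decide))
    (fun h => absurd (hinj (h.trans h3.symm)) (by decide))
  have h1 := L5 (ρ 1) (by have := hadj 3 1 (by decide); rwa [h3] at this)
    (fun h => absurd (hinj (h.trans h4.symm)) (by decide))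
    (fun h => absurd (hinj (h.trans h2.symm)) (by decide))
  intro i
  fin_cases i
  · exact h0
  · exact h1
  · exact h2
  · exact h3
  · exact h4
  · exact h5
  · exact h6
  · exact h7

/-! ### The outer automorphism group -/

/-- `|Out(E₈(p^f))| = f`. -/
theorem sb_e8_out_card {F : Type*} [Field F] [Fintype F] (p f : ℕ) [Fact p.Prime] [CharP F p]
    (hF : Fintype.card F = p ^ f) : Nat.card (Cfsg.Out ↥(chevE8.group F)) = f := by
  classical
  have hD : chevE8 ∈ [chevG2, chevB2, chevD4, chevF4, chevE6, chevE7, chevE8] := by simp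
  have R := bRel_of_mem (F := F) hD
  have hC := cartanFacts_of_mem hD
  have hRk : ∀ r < chevE8.nroots, RankOne chevE8 r := fun r hr => rankOne_of_mem hD hr
  have hT := torusFacts_of_mem hD
  have hHD : HDiag chevE8 F := hDiag_of_mem hD
  have hf0 : 0 < f := by
    rcases Nat.eq_zero_or_pos f with h | h
    · rw [h, pow_zero] at hF
      have := Fintype.one_lt_card (α := F)
      omega
    · exact h
  obtain ⟨hP, hidx⟩ := R.sb_sylow p
    (card_posUnipotent_of_mem hD (fun r s hr hs h1 h2 => R.cf r hr s hs h1 h2))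
    (diagonalSubgroup_le_torus hHD)
  have hinj : Function.Injective (torusHom chevE8 F) :=
    Cfsg.Agent.Helper18.torusHom_injective (simpleOK_of_mem hD) smithData_E8 (by
      intro i hi
      have hi' : i < 8 := hi
      interval_cases i <;> simp [smithDDE8])
  have hr8 : chevE8.rank = 8 := rfl
  apply card_out_of_cyclic (sbFrob chevE8 F p 1) f hf0
  · intro α
    obtain ⟨g₀, hnorm⟩ := R.sb_exists_norm p hP hidx sbLong_E8 α
    have hsimple := fun i : Fin 8 =>
      R.sb_norm_simple hC hRk sbTab_E8 sbLong_E8 hnorm (i := i.val) i.isLt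
    choose ρ hρ c hc σ hσ using hsimple
    have hinjρ : Function.Injective (fun i : Fin 8 => (⟨ρ i, hρ i⟩ : Fin 8)) := by
      intro i i' hii
      by_contra hne
      have hne' : i.val ≠ i'.val := fun h => hne (Fin.ext h)
      have hρeq : ρ i = ρ i' := congrArg Fin.val hii
      refine R.sb_norm_inj sbTab_E8 (α := MulAut.conj g₀ * α) i.isLt i'.isLt hne' (hc i')
        (σ := σ i) (σ' := σ i') (fun t x hx => ((hσ i t x).1 hx)) (fun t x hx => ?_)
      rw [hρeq]; exact (hσ i' t x).1 hx
    have hadjne : ∀ i i' : Fin 8, sbAdjE8 i.val i'.val = true → i.val ≠ i'.val := by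
      intro i i' hadj h
      rw [h, sb_adj_irrefl_E8 i'] at hadj
      exact Bool.false_ne_true hadj
    have hadjρ : ∀ i i' : Fin 8, sbAdjE8 i.val i'.val = true →
        sbAdjE8 ((⟨ρ i, hρ i⟩ : Fin 8)).val ((⟨ρ i', hρ i'⟩ : Fin 8)).val = true := by
      intro i i' hadj
      have hne := hadjne i i' hadj
      exact R.sb_norm_adj sbTab_E8 sbAdj_E8 i.isLt i'.isLt (hρ i) (hρ i') hne
        (fun h => hne (congrArg Fin.val (hinjρ (Fin.ext h))))
        (fun t x hx => (hσ i t x).1 hx) (fun t x hx => (hσ i' t x).1 hx) hadj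
    have hid := sb_e8_rigid (fun i : Fin 8 => (⟨ρ i, hρ i⟩ : Fin 8)) hinjρ hadjρ
    have hid' : ∀ i : Fin 8, ρ i = i.val := fun i => congrArg Fin.val (hid i)
    have hσeq : ∀ i i' : Fin 8, sbAdjE8 i.val i'.val = true → ∀ t, σ i t = σ i' t := by
      intro i i' hadj t
      have hne := hadjne i i' hadj
      have h1 := R.sb_edge sbTab_E8 sbAdj_E8 (α := MulAut.conj g₀ * α) i.isLt i'.isLt hadj hne
        (f := fun t => c i * σ i t) (f' := fun t => c i' * σ i' t)
        (fun t x hx => by have := (hσ i t x).1 hx; rw [hid' i] at this; exact this)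
        (fun t x hx => by have := (hσ i' t x).1 hx; rw [hid' i'] at this; exact this) t
      simp only [map_one, mul_one] at h1
      have h2 : c i * c i' * σ i t = c i * c i' * σ i' t := by linear_combination h1
      exact mul_left_cancel₀ (mul_ne_zero (hc i) (hc i')) h2
    have hσall : ∀ i : Fin 8, ∀ t, σ i t = σ 0 t := by
      have h02 := hσeq 0 2 (by decide)
      have h23 := hσeq 2 3 (by decide)
      have h31 := hσeq 3 1 (by decide)
      have h34 := hσeq 3 4 (by decide)
      have h45 := hσeq 4 5 (by decide)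
      have h56 := hσeq 5 6 (by decide)
      have h67 := hσeq 6 7 (by decide)
      intro i t
      have e2 : σ 2 t = σ 0 t := (h02 t).symm
      have e3 : σ 3 t = σ 0 t := (h23 t).symm.trans e2
      have e1 : σ 1 t = σ 0 t := (h31 t).symm.trans e3
      have e4 : σ 4 t = σ 0 t := (h34 t).symm.trans e3
      have e5 : σ 5 t = σ 0 t := (h45 t).symm.trans e4
      have e6 : σ 6 t = σ 0 t := (h56 t).symm.trans e5
      have e7 : σ 7 t = σ 0 t := (h67 t).symm.trans e6
      fin_cases i
      · rfl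
      · exact e1
      · exact e2
      · exact e3
      · exact e4
      · exact e5
      · exact e6
      · exact e7
    obtain ⟨k, hk⟩ := ringHom_eq_frob_pow p (σ 0)
    obtain ⟨h, hhT, hh⟩ := sb_torus_twist R.xadd (chainOK_of_mem chevE8 hD) hC smithData_E8 hinj
      (fun i hi => R.wf.simple_lt i hi) (fun i => (Units.mk0 (c i) (hc i))⁻¹)
    have hhH : h ∈ chevE8.diagonalSubgroup F := by
      rw [diagonalSubgroup_eq_torus (simpleOK_of_mem hD) hHD (rootElts_of_mem hD)]
      exact hhT
    have hhG : h ∈ chevE8.group F := diagonalSubgroup_le_group R.xadd hhH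
    have hβeq : MulAut.conj g₀ * α =
        MulAut.conj (⟨h, hhG⟩ : ↥(chevE8.group F)) * sbFrob chevE8 F p k := by
      apply R.sb_aut_ext
      intro i hi t x hx
      apply Subtype.ext
      rw [sb_conj_val (chevE8.group F) ⟨h, hhG⟩ (sbFrob chevE8 F p k) x]
      rcases hx with hx | hx
      · rw [(hσ ⟨i, hi⟩ t x).2 hx, sbFrob_x p R.xadd k _ t x hx, hid' ⟨i, hi⟩]
        show _ = h * _ * h⁻¹
        rw [(hh ⟨i, hi⟩ _).1, hσall, hk]
        congr 1
      · rw [(hσ ⟨i, hi⟩ t x).1 hx, sbFrob_x p R.xadd k _ t x hx, hid' ⟨i, hi⟩]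
        show _ = h * _ * h⁻¹
        rw [(hh ⟨i, hi⟩ _).2, hσall, hk]
        congr 1
    refine ⟨g₀⁻¹ * ⟨h, hhG⟩, k, ?_⟩
    rw [sbFrob_pow, map_mul, map_inv, mul_assoc, ← hβeq]
    group
  · intro k
    rw [sbFrob_pow]
    constructor
    · rintro ⟨g, hg⟩
      have hgH : (g : GL chevE8.Idx F) ∈ chevE8.diagonalSubgroup F := by
        apply R.sb_H_char hT hHD sbLong_E8 g.2
        · intro u hu
          have h := (sbFrob_norm p k).1 ⟨u, posUnipotent_le_group R.xadd hu⟩ hu
          rw [← hg] at h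
          exact h
        · intro v hv
          have h := (sbFrob_norm p k).2 ⟨v, sb_negUnipotent_le_group R.xadd hv⟩ hv
          rw [← hg] at h
          exact h
      have hlt0 : chevE8.simple 0 < chevE8.nroots := R.wf.simple_lt 0 (by decide)
      obtain ⟨cc, hcc⟩ := R.hx _ hgH (chevE8.simple 0) hlt0
      have key : ∀ t : F, t ^ p ^ k = cc * t := by
        intro t
        have h1 : MulAut.conj g ⟨xGL R.xadd (chevE8.simple 0) t, xGL_mem_group R.xadd _ _⟩ =
            sbFrob chevE8 F p k ⟨xGL R.xadd (chevE8.simple 0) t, xGL_mem_group R.xadd _ _⟩ := by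
          rw [hg]
        have h2 := congrArg Subtype.val h1
        rw [sbFrob_x p R.xadd k _ t _ rfl] at h2
        have h3 : ((MulAut.conj g ⟨xGL R.xadd (chevE8.simple 0) t, xGL_mem_group R.xadd _ _⟩ :
            ↥(chevE8.group F)) : GL chevE8.Idx F) = xGL R.xadd (chevE8.simple 0) (cc * t) := hcc t
        rw [h3] at h2
        exact (R.sb_x_inj hlt0 h2).symm
      have hcc1 : cc = 1 := by
        have := key 1
        rw [one_pow, mul_one] at this
        exact this.symm
      apply frob_pow_fix_dvd p hF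
      intro t
      rw [key t, hcc1, one_mul]
    · rintro ⟨j, rfl⟩
      have h1 : sbFrob chevE8 F p (f * j) = 1 := by
        apply sbFrob_eq_one
        intro t
        rw [pow_mul]
        induction j with
        | zero => simp
        | succ j ih => rw [pow_succ, pow_mul, ih, ← hF, FiniteField.pow_card]
      rw [h1]
      exact one_mem _

end Cfsg.Agent.Helper36
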