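import Cfsg.Agent.Helper36.SbH
import Cfsg.Agent.Helper36.SbG
import Cfsg.Agent.Helper36.GraphAutTab

/-!
# Automorphisms of Chevalley groups, VIII: the generic final steps (helper36)

* `sbLong_of_chk`: the longest word, from helper18's check;
* `sb_id_case`: an automorphism fixing every fundamental root subgroup (with one field map) is the product of
  a conjugation by an element of `H` and a field automorphism (unimodular Cartan matrix);
* `sb_frob_inn_iff`: the field automorphism `t ↦ t ^ p ^ k` is inner iff `f ∣ k`;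
* `sb_ga_norm`, `sb_ga_sq`: the exceptional graph automorphism normalises `U`, `V`; its square is the Frobenius;
* `card_out_of_sq`: the order of `Out` when it is generated by a square root of the field automorphism.
-/

set_option autoImplicit false
set_option linter.unusedSectionVars false
set_option linter.unusedVariables false

namespace Cfsg.Agent.Helper36

open Cfsg Cfsg.Lie Cfsg.Agent.Helper17

theorem sbLong_of_chk {D : ChevalleyDatum}
    (hD : D ∈ [chevG2, chevB2, chevD4, chevF4, chevE6, chevE7, chevE8]) {L : List ℕ}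
    (h : Cfsg.Agent.Helper18.chkLong D L = true) (tau : ℕ → ℕ)
    (htau : ∀ j < D.rank, tau j < D.rank ∧ tau (tau j) = j ∧
      Cfsg.Agent.Helper18.fwdN D L (D.neg (D.simple j)) = D.simple (tau j)) : SbLong D L := by
  have W := wFacts_of_mem hD
  unfold Cfsg.Agent.Helper18.chkLong at h
  rw [Bool.and_eq_true, Cfsg.Agent.Helper18.allBelow_iff] at h
  have hL := Cfsg.Agent.Helper18.allLt_spec _ _ h.1
  have htau' : ∀ j < D.rank, wW D L (D.neg (D.simple j)) = D.simple (tau j) := by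
    intro j hj
    have h1 := (htau j hj).2.2
    rw [(Cfsg.Agent.Helper18.fwdN_spec D hD L hL _ (W.neg_lt _ (W.simple_lt j hj))).1] at h1
    exact h1
  refine ⟨hL, ?_, fun j hj => ⟨tau j, (htau j hj).1, htau' j hj⟩,
    fun j hj => ⟨tau j, (htau j hj).1, ?_⟩⟩
  · intro s hs
    have h2 := h.2 s hs.1
    rw [Bool.and_eq_true] at h2
    have h3 := h2.1
    rw [decide_eq_true hs, Cfsg.Agent.Helper18.bsel_true, decide_eq_true_eq,
      (Cfsg.Agent.Helper18.fwdN_spec D hD L hL s hs.1).1] at h3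
    exact h3
  · rw [htau' _ (htau j hj).1, (htau j hj).2.1]

theorem SbNorm.mul {D : ChevalleyDatum} {F : Type*} [Field F] {α β : MulAut ↥(D.group F)}
    (hα : SbNorm D F α) (hβ : SbNorm D F β) : SbNorm D F (α * β) :=
  ⟨fun g hg => hα.1 _ (hβ.1 g hg), fun g hg => hα.2 _ (hβ.2 g hg)⟩

section

variable {D : ChevalleyDatum} {F : Type*} [Field F] [Fintype F] {η : ℕ → ℕ → ℤ}

/-- An automorphism fixing every fundamental root subgroup, with the same field map at every node. -/
theorem sb_id_case (p : ℕ) [Fact p.Prime] [CharP F p]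
    (hD : D ∈ [chevG2, chevB2, chevD4, chevF4, chevE6, chevE7, chevE8]) (R : BRel D F η)
    {dd : ℕ → ℕ} (hS : SmithData D dd) (hinj : Function.Injective (torusHom D F))
    {β : MulAut ↥(D.group F)} (c : Fin D.rank → F) (hc : ∀ i, c i ≠ 0) (σ : F →+* F)
    (hβ : ∀ (i : Fin D.rank) (t : F) (x : ↥(D.group F)),
      ((x : GL D.Idx F) = xGL R.xadd (D.neg (D.simple i)) t →
        ((β x : ↥(D.group F)) : GL D.Idx F) = xGL R.xadd (D.neg (D.simple i)) (c i * σ t)) ∧
      ((x : GL D.Idx F) = xGL R.xadd (D.simple i) t →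
        ((β x : ↥(D.group F)) : GL D.Idx F) = xGL R.xadd (D.simple i) ((c i)⁻¹ * σ t))) :
    ∃ (h : ↥(D.group F)) (k : ℕ), β = MulAut.conj h * sbFrob D F p k := by
  classical
  have hC := cartanFacts_of_mem hD
  have hHD : HDiag D F := hDiag_of_mem hD
  obtain ⟨k, hk⟩ := ringHom_eq_frob_pow p σ
  obtain ⟨h, hhT, hh⟩ := sb_torus_twist R.xadd (chainOK_of_mem D hD) hC hS hinj
    (fun i hi => R.wf.simple_lt i hi) (fun i => (Units.mk0 (c i) (hc i))⁻¹)
  have hhH : h ∈ D.diagonalSubgroup F := by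
    rw [diagonalSubgroup_eq_torus (simpleOK_of_mem hD) hHD (rootElts_of_mem hD)]
    exact hhT
  have hhG : h ∈ D.group F := diagonalSubgroup_le_group R.xadd hhH
  refine ⟨⟨h, hhG⟩, k, ?_⟩
  apply R.sb_aut_ext
  intro i hi t x hx
  apply Subtype.ext
  rw [sb_conj_val (D.group F) ⟨h, hhG⟩ (sbFrob D F p k) x]
  rcases hx with hx | hx
  · rw [(hβ ⟨i, hi⟩ t x).2 hx, sbFrob_x p R.xadd k _ t x hx]
    show _ = h * _ * h⁻¹
    rw [(hh ⟨i, hi⟩ _).1, hk]
    congr 1
  · rw [(hβ ⟨i, hi⟩ t x).1 hx, sbFrob_x p R.xadd k _ t x hx]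
    show _ = h * _ * h⁻¹
    rw [(hh ⟨i, hi⟩ _).2, hk]
    congr 1

/-- The field automorphism `t ↦ t ^ p ^ k` is inner iff `f ∣ k`. -/
theorem sb_frob_inn_iff (p f : ℕ) [Fact p.Prime] [CharP F p] (hF : Fintype.card F = p ^ f)
    (hD : D ∈ [chevG2, chevB2, chevD4, chevF4, chevE6, chevE7, chevE8]) (R : BRel D F η)
    {L₀ : List ℕ} (hL : SbLong D L₀) (h0 : 0 < D.rank) (k : ℕ) :
    sbFrob D F p k ∈ Cfsg.Inn ↥(D.group F) ↔ f ∣ k := by
  have hT := torusFacts_of_mem hD
  have hHD : HDiag D F := hDiag_of_mem hD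
  constructor
  · rintro ⟨g, hg⟩
    have hgH : (g : GL D.Idx F) ∈ D.diagonalSubgroup F := by
      apply R.sb_H_char hT hHD hL g.2
      · intro u hu
        have h := (sbFrob_norm p k).1 ⟨u, posUnipotent_le_group R.xadd hu⟩ hu
        rw [← hg] at h
        exact h
      · intro v hv
        have h := (sbFrob_norm p k).2 ⟨v, sb_negUnipotent_le_group R.xadd hv⟩ hv
        rw [← hg] at h
        exact h
    have hlt0 : D.simple 0 < D.nroots := R.wf.simple_lt 0 h0
    obtain ⟨cc, hcc⟩ := R.hx _ hgH (D.simple 0) hlt0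
    have key : ∀ t : F, t ^ p ^ k = cc * t := by
      intro t
      have h1 : MulAut.conj g ⟨xGL R.xadd (D.simple 0) t, xGL_mem_group R.xadd _ _⟩ =
          sbFrob D F p k ⟨xGL R.xadd (D.simple 0) t, xGL_mem_group R.xadd _ _⟩ := by
        rw [hg]
      have h2 := congrArg Subtype.val h1
      rw [sbFrob_x p R.xadd k _ t _ rfl] at h2
      have h3 : ((MulAut.conj g ⟨xGL R.xadd (D.simple 0) t, xGL_mem_group R.xadd _ _⟩ :
          ↥(D.group F)) : GL D.Idx F) = xGL R.xadd (D.simple 0) (cc * t) := hcc t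
      rw [h3] at h2
      exact (R.sb_x_inj hlt0 h2).symm
    have hcc1 : cc = 1 := by
      have := key 1
      rw [one_pow, mul_one] at this
      exact this.symm
    apply frob_pow_fix_dvd p hF
    intro t
    rw [key t, hcc1, one_mul]
  · rintro ⟨j, rfl⟩
    have h1 : sbFrob D F p (f * j) = 1 := by
      apply sbFrob_eq_one
      intro t
      rw [pow_mul]
      induction j with
      | zero => simp
      | succ j ih => rw [pow_succ, pow_mul, ih, ← hF, FiniteField.pow_card]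
    rw [h1]
    exact one_mem _

/-- The exceptional graph automorphism normalises `U` and `V`. -/
theorem sb_ga_norm (R : BRel D F η) {ρ lam : ℕ → ℕ}
    (hpos : ∀ r, D.IsPosRoot r → D.IsPosRoot (ρ r)) (hneg : ∀ r, D.IsNegRoot r → D.IsNegRoot (ρ r))
    {γ : MulAut ↥(D.group F)}
    (hγ : ∀ (g : ↥(D.group F)) (r : ℕ) (t : F), r < D.nroots →
      ((g : GL D.Idx F) : Matrix D.Idx D.Idx F) = D.x F r t →
      ((γ g : GL D.Idx F) : Matrix D.Idx D.Idx F) = D.x F (ρ r) (t ^ lam r)) : SbNorm D F γ := by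
  constructor
  · have key : ∀ u ∈ D.posUnipotent F, ∀ hu : u ∈ D.group F,
        ((γ ⟨u, hu⟩ : ↥(D.group F)) : GL D.Idx F) ∈ D.posUnipotent F := by
      intro u hu
      unfold ChevalleyDatum.posUnipotent at hu
      induction hu using Subgroup.closure_induction with
      | mem u hu =>
        obtain ⟨r, t, hr, hg⟩ := hu
        intro hG
        have e : ((γ ⟨u, hG⟩ : ↥(D.group F)) : GL D.Idx F) = xGL R.xadd (ρ r) (t ^ lam r) :=
          eq_xGL R.xadd (hγ ⟨u, hG⟩ r t hr.1 hg)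
        rw [e]
        exact xGL_mem_posUnipotent _ (hpos r hr) _
      | one =>
        intro hG
        have : (⟨1, hG⟩ : ↥(D.group F)) = 1 := rfl
        rw [this, map_one]
        exact one_mem _
      | mul a b ha hb iha ihb =>
        intro hG
        have haG : a ∈ D.group F := posUnipotent_le_group R.xadd ha
        have hbG : b ∈ D.group F := posUnipotent_le_group R.xadd hb
        have : (⟨a * b, hG⟩ : ↥(D.group F)) = ⟨a, haG⟩ * ⟨b, hbG⟩ := rfl
        rw [this, map_mul]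
        exact mul_mem (iha haG) (ihb hbG)
      | inv a ha iha =>
        intro hG
        have haG : a ∈ D.group F := posUnipotent_le_group R.xadd ha
        have : (⟨a⁻¹, hG⟩ : ↥(D.group F)) = (⟨a, haG⟩)⁻¹ := rfl
        rw [this, map_inv]
        exact inv_mem (iha haG)
    exact fun g hg => key g.val hg g.2
  · have key : ∀ u ∈ D.negUnipotent F, ∀ hu : u ∈ D.group F,
        ((γ ⟨u, hu⟩ : ↥(D.group F)) : GL D.Idx F) ∈ D.negUnipotent F := by
      intro u hu
      unfold ChevalleyDatum.negUnipotent at hu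
      induction hu using Subgroup.closure_induction with
      | mem u hu =>
        obtain ⟨r, t, hr, hg⟩ := hu
        intro hG
        have e : ((γ ⟨u, hG⟩ : ↥(D.group F)) : GL D.Idx F) = xGL R.xadd (ρ r) (t ^ lam r) :=
          eq_xGL R.xadd (hγ ⟨u, hG⟩ r t hr.1 hg)
        rw [e]
        exact xGL_mem_negUnipotent _ (hneg r hr) _
      | one =>
        intro hG
        have : (⟨1, hG⟩ : ↥(D.group F)) = 1 := rfl
        rw [this, map_one]
        exact one_mem _
      | mul a b ha hb iha ihb =>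
        intro hG
        have haG : a ∈ D.group F := sb_negUnipotent_le_group R.xadd ha
        have hbG : b ∈ D.group F := sb_negUnipotent_le_group R.xadd hb
        have : (⟨a * b, hG⟩ : ↥(D.group F)) = ⟨a, haG⟩ * ⟨b, hbG⟩ := rfl
        rw [this, map_mul]
        exact mul_mem (iha haG) (ihb hbG)
      | inv a ha iha =>
        intro hG
        have haG : a ∈ D.group F := sb_negUnipotent_le_group R.xadd ha
        have : (⟨a⁻¹, hG⟩ : ↥(D.group F)) = (⟨a, haG⟩)⁻¹ := rfl
        rw [this, map_inv]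
        exact inv_mem (iha haG)
    exact fun g hg => key g.val hg g.2

/-- The square of the exceptional graph automorphism is the Frobenius field automorphism. -/
theorem sb_ga_sq (p : ℕ) [Fact p.Prime] [CharP F p] (R : BRel D F η) {ρ lam : ℕ → ℕ}
    (hOK : ∀ r < D.nroots, gaRootOK D p ρ lam r = true) {γ : MulAut ↥(D.group F)}
    (hγ : ∀ (g : ↥(D.group F)) (r : ℕ) (t : F), r < D.nroots →
      ((g : GL D.Idx F) : Matrix D.Idx D.Idx F) = D.x F r t →
      ((γ g : GL D.Idx F) : Matrix D.Idx D.Idx F) = D.x F (ρ r) (t ^ lam r)) :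
    γ * γ = sbFrob D F p 1 := by
  apply R.sb_aut_ext
  intro i hi t x hx
  apply Subtype.ext
  have key : ∀ r < D.nroots, (x : GL D.Idx F) = xGL R.xadd r t →
      (((γ * γ) x : ↥(D.group F)) : GL D.Idx F) =
        ((sbFrob D F p 1 x : ↥(D.group F)) : GL D.Idx F) := by
    intro r hr hx
    obtain ⟨hρr, hρρ, -, hmul, -⟩ := gaRootOK_spec p (hOK r hr)
    have h1 := hγ x r t hr (by rw [hx, xGL_val])
    have h2 := hγ (γ x) (ρ r) (t ^ lam r) hρr h1
    rw [hρρ, ← pow_mul, hmul] at h2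
    rw [sbFrob_x p R.xadd 1 r t x hx, pow_one]
    exact eq_xGL R.xadd h2
  rcases hx with hx | hx
  · exact key _ (R.wf.simple_lt i hi) hx
  · exact key _ (R.wf.neg_lt _ (R.wf.simple_lt i hi)) hx

end

/-- The order of `Out` when it is generated by a square root `γ` of `φ`. -/
theorem card_out_of_sq {G : Type*} [Group G] (γ φ : MulAut G) (f : ℕ) (hf : 0 < f)
    (hsq : γ * γ = φ) (hgen : ∀ α : MulAut G, ∃ (g : G) (k : ℕ), α = MulAut.conj g * γ ^ k)
    (hφ : ∀ k : ℕ, φ ^ k ∈ Cfsg.Inn G ↔ f ∣ k)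
    (hodd : ∀ k : ℕ, γ * φ ^ k ∉ Cfsg.Inn G) : Nat.card (Cfsg.Out G) = 2 * f := by
  apply card_out_of_cyclic γ (2 * f) (by omega) hgen
  intro k
  obtain ⟨m, rfl | rfl⟩ := Nat.even_or_odd' k
  · rw [pow_mul, pow_two, hsq, hφ]
    exact ⟨fun h => Nat.mul_dvd_mul_left 2 h,
      fun h => (Nat.mul_dvd_mul_iff_left (by norm_num)).mp h⟩
  · rw [pow_succ', pow_mul, pow_two, hsq]
    constructor
    · intro h
      exact absurd h (hodd m)
    · intro h
      exfalso
      have h2 : 2 ∣ 2 * m + 1 := Dvd.dvd.trans (dvd_mul_right 2 f) h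
      omega

section

variable {D : ChevalleyDatum} {F : Type*} [Field F] {η : ℕ → ℕ → ℤ}

/-- `α` maps the root subgroups of `∓p_i` to those of `∓p_j`, by `t ↦ c σ(t)` and `t ↦ c⁻¹ σ(t)`. -/
def SbAt (R : BRel D F η) (α : MulAut ↥(D.group F)) (i j : ℕ) (c : F) (σ : F →+* F) : Prop :=
  ∀ (t : F) (x : ↥(D.group F)),
    ((x : GL D.Idx F) = xGL R.xadd (D.neg (D.simple i)) t →
      ((α x : ↥(D.group F)) : GL D.Idx F) = xGL R.xadd (D.neg (D.simple j)) (c * σ t)) ∧
    ((x : GL D.Idx F) = xGL R.xadd (D.simple i) t →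
      ((α x : ↥(D.group F)) : GL D.Idx F) = xGL R.xadd (D.simple j) (c⁻¹ * σ t))

variable [Fintype F]

/-- Composing with the exceptional graph automorphism. -/
theorem sb_ga_comp (p : ℕ) [Fact p.Prime] [CharP F p] (R : BRel D F η) {ρ lam : ℕ → ℕ}
    {γ : MulAut ↥(D.group F)}
    (hγ : ∀ (g : ↥(D.group F)) (r : ℕ) (t : F), r < D.nroots →
      ((g : GL D.Idx F) : Matrix D.Idx D.Idx F) = D.x F r t →
      ((γ g : GL D.Idx F) : Matrix D.Idx D.Idx F) = D.x F (ρ r) (t ^ lam r))
    {β : MulAut ↥(D.group F)} {i j : ℕ} (hj : j < D.rank) {c : F} {σ : F →+* F} {e : ℕ}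
    (h1 : ρ (D.simple j) = D.simple i) (h2 : ρ (D.neg (D.simple j)) = D.neg (D.simple i))
    (h3 : lam (D.simple j) = p ^ e) (h4 : lam (D.neg (D.simple j)) = p ^ e)
    (hβ : SbAt R β i j c σ) : SbAt R (γ * β) i i (c ^ p ^ e) ((sbFr F p e).comp σ) := by
  have hlj := R.wf.simple_lt j hj
  intro t x
  constructor
  · intro hx
    have b1 := (hβ t x).1 hx
    have b2 := hγ (β x) _ _ (R.wf.neg_lt _ hlj) (by rw [b1, xGL_val])
    rw [h2, h4] at b2
    have b3 : (((γ * β) x : ↥(D.group F)) : GL D.Idx F) =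
        xGL R.xadd (D.neg (D.simple i)) ((c * σ t) ^ p ^ e) := eq_xGL R.xadd b2
    rw [b3, RingHom.comp_apply, sbFr_apply, mul_pow]
  · intro hx
    have b1 := (hβ t x).2 hx
    have b2 := hγ (β x) _ _ hlj (by rw [b1, xGL_val])
    rw [h1, h3] at b2
    have b3 : (((γ * β) x : ↥(D.group F)) : GL D.Idx F) =
        xGL R.xadd (D.simple i) ((c⁻¹ * σ t) ^ p ^ e) := eq_xGL R.xadd b2
    rw [b3, RingHom.comp_apply, sbFr_apply, mul_pow, inv_pow]

/-- The exceptional graph automorphism times a field automorphism is not inner. -/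
theorem sb_ga_not_inn (p : ℕ) [Fact p.Prime] [CharP F p] (R : BRel D F η) (T : SbTab D)
    (hT : TorusFacts D) (hHD : HDiag D F) {L₀ : List ℕ} (hL : SbLong D L₀) {ρ lam : ℕ → ℕ}
    {γ : MulAut ↥(D.group F)} (hγn : SbNorm D F γ)
    (hγ : ∀ (g : ↥(D.group F)) (r : ℕ) (t : F), r < D.nroots →
      ((g : GL D.Idx F) : Matrix D.Idx D.Idx F) = D.x F r t →
      ((γ g : GL D.Idx F) : Matrix D.Idx D.Idx F) = D.x F (ρ r) (t ^ lam r))
    {i j : ℕ} (hi : i < D.rank) (hj : j < D.rank) (hij : j ≠ i)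
    (h2 : ρ (D.neg (D.simple i)) = D.neg (D.simple j)) (k : ℕ) :
    γ * (sbFrob D F p 1) ^ k ∉ Cfsg.Inn ↥(D.group F) := by
  rintro ⟨g, hg⟩
  rw [sbFrob_pow] at hg
  have hn : SbNorm D F (γ * sbFrob D F p k) := hγn.mul (sbFrob_norm p k)
  have hgH : (g : GL D.Idx F) ∈ D.diagonalSubgroup F := by
    apply R.sb_H_char hT hHD hL g.2
    · intro u hu
      have h := hn.1 ⟨u, posUnipotent_le_group R.xadd hu⟩ hu
      rw [← hg] at h
      exact h
    · intro v hv
      have h := hn.2 ⟨v, sb_negUnipotent_le_group R.xadd hv⟩ hv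
      rw [← hg] at h
      exact h
  have hlt := R.wf.neg_lt _ (R.wf.simple_lt i hi)
  obtain ⟨cc, hcc⟩ := R.hx _ hgH _ hlt
  have h1 : MulAut.conj g ⟨xGL R.xadd (D.neg (D.simple i)) 1, xGL_mem_group R.xadd _ _⟩ =
      (γ * sbFrob D F p k) ⟨xGL R.xadd (D.neg (D.simple i)) 1, xGL_mem_group R.xadd _ _⟩ := by
    rw [hg]
  have h3 := congrArg Subtype.val h1
  have h4 : ((MulAut.conj g ⟨xGL R.xadd (D.neg (D.simple i)) 1, xGL_mem_group R.xadd _ _⟩ :
      ↥(D.group F)) : GL D.Idx F) = xGL R.xadd (D.neg (D.simple i)) (cc * 1) := hcc 1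
  have h5 := hγ (sbFrob D F p k ⟨xGL R.xadd (D.neg (D.simple i)) 1, xGL_mem_group R.xadd _ _⟩)
    _ _ hlt (by rw [sbFrob_x p R.xadd k _ (1 : F) _ rfl, xGL_val])
  rw [h2, one_pow, one_pow] at h5
  have h6 : (((γ * sbFrob D F p k) ⟨xGL R.xadd (D.neg (D.simple i)) 1, xGL_mem_group R.xadd _ _⟩ :
      ↥(D.group F)) : GL D.Idx F) = xGL R.xadd (D.neg (D.simple j)) 1 := eq_xGL R.xadd h5
  rw [h4, h6] at h3
  exact hij (R.sb_xneg_simple_inj T hj hi one_ne_zero h3.symm)

/-- The order of the outer automorphism group for a diagram with one non-trivial symmetry `fl`, realised only in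
characteristic `p₀` by an exceptional graph automorphism whose square is the Frobenius. -/
theorem sb_out_card_exotic (p f p₀ : ℕ) [Fact p.Prime] [CharP F p] [Fact p₀.Prime]
    (hF : Fintype.card F = p ^ f)
    (hD : D ∈ [chevG2, chevB2, chevD4, chevF4, chevE6, chevE7, chevE8]) (R : BRel D F η)
    (T : SbTab D) {L₀ : List ℕ} (hL : SbLong D L₀) (h0 : 0 < D.rank)
    {dd : ℕ → ℕ} (hS : SmithData D dd) (hinj : Function.Injective (torusHom D F))
    (fl e ρ lam : ℕ → ℕ) (hfl : ∀ i < D.rank, fl i < D.rank ∧ fl (fl i) = i) (hfl0 : fl 0 ≠ 0)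
    (hOK : ∀ r < D.nroots, gaRootOK D p₀ ρ lam r = true)
    (hpos : ∀ r, D.IsPosRoot r → D.IsPosRoot (ρ r)) (hneg : ∀ r, D.IsNegRoot r → D.IsNegRoot (ρ r))
    (hga : ∀ j < D.rank, ρ (D.simple j) = D.simple (fl j) ∧
      ρ (D.neg (D.simple j)) = D.neg (D.simple (fl j)) ∧
      lam (D.simple j) = p₀ ^ e j ∧ lam (D.neg (D.simple j)) = p₀ ^ e j)
    (hsig : ∀ (β : MulAut ↥(D.group F)) (c : Fin D.rank → F) (σ : Fin D.rank → F →+* F),
      (∀ i, c i ≠ 0) → (∀ i : Fin D.rank, SbAt R β i i (c i) (σ i)) →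
        ∀ i t, σ i t = σ ⟨0, h0⟩ t)
    (hcases : ∀ β : MulAut ↥(D.group F), SbNorm D F β →
      ∃ (c : Fin D.rank → F) (σ : Fin D.rank → F →+* F), (∀ i, c i ≠ 0) ∧
        ((∀ i : Fin D.rank, SbAt R β i i (c i) (σ i)) ∨
          (p = p₀ ∧ ∀ i : Fin D.rank, SbAt R β i (fl i) (c i) (σ i)))) :
    Nat.card (Cfsg.Out ↥(D.group F)) = if p = p₀ then 2 * f else f := by
  classical
  have hC := cartanFacts_of_mem hD
  have hT := torusFacts_of_mem hD
  have hHD : HDiag D F := hDiag_of_mem hD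
  have hf0 : 0 < f := by
    rcases Nat.eq_zero_or_pos f with h | h
    · rw [h, pow_zero] at hF
      have := Fintype.one_lt_card (α := F)
      omega
    · exact h
  obtain ⟨hP, hidx⟩ := R.sb_sylow p
    (card_posUnipotent_of_mem hD (fun r s hr hs h1 h2 => R.cf r hr s hs h1 h2))
    (diagonalSubgroup_le_torus hHD)
  have hid : ∀ (β : MulAut ↥(D.group F)) (c : Fin D.rank → F) (σ : Fin D.rank → F →+* F),
      (∀ i, c i ≠ 0) → (∀ i : Fin D.rank, SbAt R β i i (c i) (σ i)) →
      ∃ (h : ↥(D.group F)) (k : ℕ), β = MulAut.conj h * sbFrob D F p k := by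
    intro β c σ hc hβ
    have hσ := hsig β c σ hc hβ
    apply sb_id_case p hD R hS hinj c hc (σ ⟨0, h0⟩)
    intro i t x
    have h1 := hβ i t x
    rw [hσ i t] at h1
    exact h1
  have hφ : ∀ k : ℕ, (sbFrob D F p 1) ^ k ∈ Cfsg.Inn ↥(D.group F) ↔ f ∣ k := by
    intro k
    rw [sbFrob_pow]
    exact sb_frob_inn_iff p f hF hD R hL h0 k
  by_cases hp : p = p₀
  · subst hp
    rw [if_pos rfl]
    have hperf : ∀ x : F, ∃ y : F, y ^ p = x := by
      intro x
      obtain ⟨y, hy⟩ := Finite.surjective_of_injective (frobenius_inj F p) x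
      exact ⟨y, hy⟩
    obtain ⟨γ, hγ⟩ := ga_main p hD hperf ρ lam hOK
    have hγn : SbNorm D F γ := sb_ga_norm R hpos hneg hγ
    have hsq : γ * γ = sbFrob D F p 1 := sb_ga_sq p R hOK hγ
    have hpow : ∀ k, sbFrob D F p k = γ ^ (2 * k) := by
      intro k
      rw [pow_mul, pow_two, hsq, sbFrob_pow]
    apply card_out_of_sq γ (sbFrob D F p 1) f hf0 hsq ?_ hφ ?_
    · intro α
      obtain ⟨g₀, hnorm⟩ := R.sb_exists_norm p hP hidx hL α
      obtain ⟨c, σ, hc, hcase⟩ := hcases _ hnorm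
      rcases hcase with hcase | ⟨-, hcase⟩
      · obtain ⟨h, k, hk⟩ := hid _ c σ hc hcase
        refine ⟨g₀⁻¹ * h, 2 * k, ?_⟩
        rw [← hpow, map_mul, map_inv, mul_assoc, ← hk]
        group
      · have hcase' : ∀ i : Fin D.rank, SbAt R (γ * (MulAut.conj g₀ * α)) i i
            (c i ^ p ^ e (fl i)) ((sbFr F p (e (fl i))).comp (σ i)) := by
          intro i
          obtain ⟨hj, hjj⟩ := hfl i i.isLt
          obtain ⟨g1, g2, g3, g4⟩ := hga (fl i) hj
          rw [hjj] at g1 g2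
          exact sb_ga_comp p R hγ hj g1 g2 g3 g4 (hcase i)
        obtain ⟨h, k, hk⟩ := hid _ (fun i => c i ^ p ^ e (fl i))
          (fun i => (sbFr F p (e (fl i))).comp (σ i)) (fun i => pow_ne_zero _ (hc i)) hcase'
        have hγinv : γ⁻¹ = γ ^ (2 * f - 1) := by
          have h1 : γ ^ (2 * f) = 1 := by
            rw [← hpow]
            apply sbFrob_eq_one
            intro t
            rw [← hF]
            exact FiniteField.pow_card t
          have h2 : γ * γ ^ (2 * f - 1) = 1 := by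
            rw [← pow_succ', show 2 * f - 1 + 1 = 2 * f by omega, h1]
          exact inv_eq_of_mul_eq_one_right h2
        refine ⟨g₀⁻¹ * γ⁻¹ h, 2 * f - 1 + 2 * k, ?_⟩
        have hα : α = (MulAut.conj g₀)⁻¹ * (γ⁻¹ * (MulAut.conj h * sbFrob D F p k)) := by
          rw [← hk]
          group
        have hcj : γ⁻¹ * MulAut.conj h = MulAut.conj (γ⁻¹ h) * γ⁻¹ := by
          apply MulEquiv.ext
          intro x
          simp [MulAut.mul_apply, MulAut.conj_apply, map_mul, map_inv]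
        rw [hα, hpow, pow_add, ← hγinv, map_mul, map_inv, ← mul_assoc γ⁻¹ (MulAut.conj h), hcj]
        group
    · intro k
      exact sb_ga_not_inn p R T hT hHD hL hγn hγ h0 (hfl 0 h0).1 hfl0 (hga 0 h0).2.1 k
  · rw [if_neg hp]
    apply card_out_of_cyclic (sbFrob D F p 1) f hf0 ?_ hφ
    intro α
    obtain ⟨g₀, hnorm⟩ := R.sb_exists_norm p hP hidx hL α
    obtain ⟨c, σ, hc, hcase⟩ := hcases _ hnorm
    rcases hcase with hcase | ⟨hpp, -⟩
    · obtain ⟨h, k, hk⟩ := hid _ c σ hc hcase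
      refine ⟨g₀⁻¹ * h, k, ?_⟩
      rw [sbFrob_pow, map_mul, map_inv, mul_assoc, ← hk]
      group
    · exact absurd hpp hp

end

end Cfsg.Agent.Helper36
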