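import Cfsg.Agent.Helper36.SbI

/-!
# The outer automorphism group of `F₄(q)` (helper36)

`|Out(F₄(p^f))| = gcd(2, p) f`: field automorphisms, and for `p = 2` the exceptional graph automorphism whose
square is the Frobenius.
-/

set_option autoImplicit false
set_option linter.unusedSectionVars false
set_option linter.unusedVariables false

namespace Cfsg.Agent.Helper36

open Cfsg Cfsg.Lie Cfsg.Agent.Helper17

/-! ### Tables for `F₄` -/

set_option maxRecDepth 100000 in
theorem sb_tau_F4 : ∀ j < chevF4.rank, id j < chevF4.rank ∧ id (id j) = j ∧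
    Cfsg.Agent.Helper18.fwdN chevF4 Cfsg.Agent.Helper18.longF4 (chevF4.neg (chevF4.simple j)) =
      chevF4.simple (id j) := by decide +kernel

theorem sbLong_F4 : SbLong chevF4 Cfsg.Agent.Helper18.longF4 :=
  sbLong_of_chk (by simp) Cfsg.Agent.Helper18.chkLong_F4 id sb_tau_F4

theorem sbTab_F4 : SbTab chevF4 where
  simple_inj := by decide +kernel
  comm_pn := by decide +kernel

/-- The Dynkin diagram of `F₄`. -/
def sbAdjF4 (i j : ℕ) : Bool :=
  [(0, 1), (1, 0), (1, 2), (2, 1), (2, 3), (3, 2)].contains (i, j)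

theorem sbAdjG_F4 : SbAdjG chevF4 sbAdjF4 where
  edge := by decide +kernel
  nonedge := by decide +kernel

theorem sb_f4_rigid : ∀ a b c d : Fin 4, a ≠ b → a ≠ c → a ≠ d → b ≠ c → b ≠ d → c ≠ d →
    sbAdjF4 a.val b.val = true → sbAdjF4 b.val c.val = true → sbAdjF4 c.val d.val = true →
    (a = 0 ∧ b = 1 ∧ c = 2 ∧ d = 3) ∨ (a = 3 ∧ b = 2 ∧ c = 1 ∧ d = 0) := by decide

theorem sb_f4_pairing : chevF4.pairing (chevF4.simple 0) (chevF4.simple 1) = -1 ∧
    chevF4.pairing (chevF4.simple 2) (chevF4.simple 1) = -1 ∧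
    chevF4.pairing (chevF4.simple 2) (chevF4.simple 3) = -1 ∧
    chevF4.pairing (chevF4.simple 1) (chevF4.simple 2) = -2 := by decide +kernel

theorem sb_f4_ga_pos : ∀ r < 48, (chevF4.IsPosRoot r → chevF4.IsPosRoot (gaRhoF4 r)) ∧
    (chevF4.IsNegRoot r → chevF4.IsNegRoot (gaRhoF4 r)) := by decide +kernel

theorem sb_f4_ga : ∀ j < chevF4.rank, gaRhoF4 (chevF4.simple j) = chevF4.simple (3 - j) ∧
    gaRhoF4 (chevF4.neg (chevF4.simple j)) = chevF4.neg (chevF4.simple (3 - j)) ∧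
    gaLamF4 (chevF4.simple j) = 2 ^ ([1, 1, 0, 0] : List ℕ).getD j 0 ∧
    gaLamF4 (chevF4.neg (chevF4.simple j)) = 2 ^ ([1, 1, 0, 0] : List ℕ).getD j 0 := by
  decide +kernel

/-! ### The outer automorphism group -/

section

variable {F : Type*} [Field F] [Fintype F] {η : ℕ → ℕ → ℤ}

theorem sb_f4_sig (R : BRel chevF4 F η) (β : MulAut ↥(chevF4.group F)) (c : Fin 4 → F)
    (σ : Fin 4 → F →+* F) (hc : ∀ i, c i ≠ 0)
    (hβ : ∀ i : Fin 4, SbAt R β i i (c i) (σ i)) : ∀ i t, σ i t = σ 0 t := by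
  have hD : chevF4 ∈ [chevG2, chevB2, chevD4, chevF4, chevE6, chevE7, chevE8] := by simp
  have hC := cartanFacts_of_mem hD
  have hHD : HDiag chevF4 F := hDiag_of_mem hD
  have hOK := chainOK_of_mem chevF4 hD
  have h01 := R.sb_sigma_eq hHD hOK hC (i := 0) (i' := 1) (by decide) (by decide) (hc 0) (hc 1)
    (hβ 0) (fun t x hx => (hβ 1 t x).2 hx) sb_f4_pairing.1
  have h21 := R.sb_sigma_eq hHD hOK hC (i := 2) (i' := 1) (by decide) (by decide) (hc 2) (hc 1)
    (hβ 2) (fun t x hx => (hβ 1 t x).2 hx) sb_f4_pairing.2.1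
  have h23 := R.sb_sigma_eq hHD hOK hC (i := 2) (i' := 3) (by decide) (by decide) (hc 2) (hc 3)
    (hβ 2) (fun t x hx => (hβ 3 t x).2 hx) sb_f4_pairing.2.2.1
  intro i t
  fin_cases i
  · rfl
  · exact (h01 t).symm
  · exact (h21 t).trans (h01 t).symm
  · exact ((h23 t).symm.trans (h21 t)).trans (h01 t).symm

theorem sb_f4_cases (p : ℕ) [Fact p.Prime] [CharP F p] (R : BRel chevF4 F η)
    (β : MulAut ↥(chevF4.group F)) (hβ : SbNorm chevF4 F β) :
    ∃ (c : Fin 4 → F) (σ : Fin 4 → F →+* F), (∀ i, c i ≠ 0) ∧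
      ((∀ i : Fin 4, SbAt R β i i (c i) (σ i)) ∨
        (p = 2 ∧ ∀ i : Fin 4, SbAt R β i (3 - i.val) (c i) (σ i))) := by
  have hD : chevF4 ∈ [chevG2, chevB2, chevD4, chevF4, chevE6, chevE7, chevE8] := by simp
  have hC := cartanFacts_of_mem hD
  have hRk : ∀ r < chevF4.nroots, RankOne chevF4 r := fun r hr => rankOne_of_mem hD hr
  have hHD : HDiag chevF4 F := hDiag_of_mem hD
  have hOK := chainOK_of_mem chevF4 hD
  have hsimple := fun i : Fin 4 =>
    R.sb_norm_simple hC hRk sbTab_F4 sbLong_F4 hβ (i := i.val) i.isLt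
  choose ρ hρ c hc σ hσ using hsimple
  have hinjρ : ∀ i i' : Fin 4, i ≠ i' → ρ i ≠ ρ i' := by
    intro i i' hne hρeq
    refine R.sb_norm_inj sbTab_F4 (α := β) i.isLt i'.isLt (fun h => hne (Fin.ext h)) (hc i')
      (σ := σ i) (σ' := σ i') (fun t x hx => ((hσ i t x).1 hx)) (fun t x hx => ?_)
    rw [hρeq]
    exact (hσ i' t x).1 hx
  have hirr : ∀ i : Fin 4, sbAdjF4 i.val i.val = false := by decide
  have hadjρ : ∀ i i' : Fin 4, sbAdjF4 i.val i'.val = true → sbAdjF4 (ρ i) (ρ i') = true := by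
    intro i i' hadj
    have hne : i ≠ i' := by
      rintro rfl
      rw [hirr i] at hadj
      exact Bool.false_ne_true hadj
    exact R.sb_norm_adjG sbTab_F4 sbAdjG_F4 i.isLt i'.isLt (hρ i) (hρ i') (hinjρ i i' hne)
      (fun t x hx => (hσ i t x).1 hx) (fun t x hx => (hσ i' t x).1 hx) hadj
  have hne' : ∀ i i' : Fin 4, i ≠ i' → (⟨ρ i, hρ i⟩ : Fin 4) ≠ ⟨ρ i', hρ i'⟩ :=
    fun i i' hne h => hinjρ i i' hne (congrArg Fin.val h)
  have hrig := sb_f4_rigid ⟨ρ 0, hρ 0⟩ ⟨ρ 1, hρ 1⟩ ⟨ρ 2, hρ 2⟩ ⟨ρ 3, hρ 3⟩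
    (hne' 0 1 (by decide)) (hne' 0 2 (by decide)) (hne' 0 3 (by decide)) (hne' 1 2 (by decide))
    (hne' 1 3 (by decide)) (hne' 2 3 (by decide)) (hadjρ 0 1 (by decide)) (hadjρ 1 2 (by decide))
    (hadjρ 2 3 (by decide))
  refine ⟨c, σ, hc, ?_⟩
  rcases hrig with ⟨h0, h1, h2, h3⟩ | ⟨h0, h1, h2, h3⟩
  · left
    have hid : ∀ i : Fin 4, ρ i = i.val := by
      intro i
      fin_cases i
      · exact congrArg Fin.val h0
      · exact congrArg Fin.val h1
      · exact congrArg Fin.val h2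
      · exact congrArg Fin.val h3
    intro i t x
    have h := hσ i t x
    rw [hid i] at h
    exact h
  · have hfl : ∀ i : Fin 4, ρ i = 3 - i.val := by
      intro i
      fin_cases i
      · exact congrArg Fin.val h0
      · exact congrArg Fin.val h1
      · exact congrArg Fin.val h2
      · exact congrArg Fin.val h3
    have hall : ∀ i : Fin 4, SbAt R β i (3 - i.val) (c i) (σ i) := by
      intro i t x
      have h := hσ i t x
      rw [hfl i] at h
      exact h
    right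
    refine ⟨?_, hall⟩
    have key := R.sb_norm_torus hHD hOK hC (i := 1) (i' := 2) (j := 2) (j' := 1) (by decide)
      (by decide) (by decide) (by decide) (hc 1) (hc 2) (hall 1)
      (fun t x hx => (hall 2 t x).2 hx) (z := (-1 : F)) (by simp)
    rw [sb_f4_pairing.2.1, sb_f4_pairing.2.2.2, map_neg, map_one, map_neg, map_one] at key
    have h2 : ((2 : ℕ) : F) = 0 := by
      have e1 : ((-1 : F)) ^ (-1 : ℤ) = -1 := by rw [zpow_neg_one, inv_neg_one]
      have e2 : ((-1 : F)) ^ (-2 : ℤ) = 1 := by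
        rw [zpow_neg, show ((-1 : F)) ^ (2 : ℤ) = 1 by norm_num, inv_one]
      rw [e1, e2] at key
      push_cast
      linear_combination -key
    have h3 := (CharP.cast_eq_zero_iff F p 2).mp h2
    exact (Nat.prime_dvd_prime_iff_eq (Fact.out : p.Prime) Nat.prime_two).mp h3

/-- `|Out(F₄(p^f))| = gcd(2, p) f`. -/
theorem sb_f4_out_card (p f : ℕ) [Fact p.Prime] [CharP F p] (hF : Fintype.card F = p ^ f) :
    Nat.card (Cfsg.Out ↥(chevF4.group F)) = Nat.gcd 2 p * f := by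
  have hD : chevF4 ∈ [chevG2, chevB2, chevD4, chevF4, chevE6, chevE7, chevE8] := by simp
  have R := bRel_of_mem (F := F) hD
  have hinj : Function.Injective (torusHom chevF4 F) :=
    Cfsg.Agent.Helper18.torusHom_injective (simpleOK_of_mem hD) smithData_F4 (by
      intro i hi
      have hi' : i < 4 := hi
      interval_cases i <;> simp [smithDDF4])
  haveI : Fact (Nat.Prime 2) := ⟨Nat.prime_two⟩
  have h := sb_out_card_exotic p f 2 hF hD R sbTab_F4 sbLong_F4 (by decide) smithData_F4 hinj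
    (fun i => 3 - i) (fun j => ([1, 1, 0, 0] : List ℕ).getD j 0) gaRhoF4 gaLamF4
    (by intro i hi; have hi' : i < 4 := hi; exact ⟨show 3 - i < 4 by omega, by omega⟩)
    (by decide) gaOK_F4
    (fun r hr => (sb_f4_ga_pos r hr.1).1 hr) (fun r hr => (sb_f4_ga_pos r hr.1).2 hr)
    sb_f4_ga
    (fun β c σ hc hβ => sb_f4_sig R β c σ hc hβ)
    (fun β hβ => sb_f4_cases p R β hβ)
  rw [h]
  by_cases hp : p = 2
  · rw [if_pos hp, hp]
    rfl
  · rw [if_neg hp]
    have hcop : Nat.gcd 2 p = 1 := by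
      rw [Nat.gcd_comm]
      exact (Nat.coprime_primes (Fact.out : p.Prime) Nat.prime_two).mpr hp
    rw [hcop, one_mul]

end

end Cfsg.Agent.Helper36
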