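import Cfsg.Agent.Helper36.SbI

/-!
# The outer automorphism group of `G₂(q)` (helper36)

`|Out(G₂(p^f))| = f` for `p ≠ 3` and `2 f` for `p = 3` (`q ≥ 3`): field automorphisms, and for `p = 3` the
exceptional graph automorphism whose square is the Frobenius.
-/

set_option autoImplicit false
set_option linter.unusedSectionVars false
set_option linter.unusedVariables false

namespace Cfsg.Agent.Helper36

open Cfsg Cfsg.Lie Cfsg.Agent.Helper17

/-! ### Tables for `G₂` -/

theorem sb_tau_G2 : ∀ j < chevG2.rank, id j < chevG2.rank ∧ id (id j) = j ∧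
    Cfsg.Agent.Helper18.fwdN chevG2 Cfsg.Agent.Helper18.longG2 (chevG2.neg (chevG2.simple j)) =
      chevG2.simple (id j) := by decide +kernel

theorem sbLong_G2 : SbLong chevG2 Cfsg.Agent.Helper18.longG2 :=
  sbLong_of_chk (by simp) Cfsg.Agent.Helper18.chkLong_G2 id sb_tau_G2

theorem sbTab_G2 : SbTab chevG2 where
  simple_inj := by decide +kernel
  comm_pn := by decide +kernel

theorem sb_g2_pairing : chevG2.pairing (chevG2.simple 1) (chevG2.simple 0) = -1 ∧
    chevG2.pairing (chevG2.simple 0) (chevG2.simple 1) = -3 := by decide +kernel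

theorem sb_g2_ga_pos : ∀ r < 12, (chevG2.IsPosRoot r → chevG2.IsPosRoot (gaRhoG2 r)) ∧
    (chevG2.IsNegRoot r → chevG2.IsNegRoot (gaRhoG2 r)) := by decide +kernel

theorem sb_g2_ga : ∀ j < chevG2.rank, gaRhoG2 (chevG2.simple j) = chevG2.simple (1 - j) ∧
    gaRhoG2 (chevG2.neg (chevG2.simple j)) = chevG2.neg (chevG2.simple (1 - j)) ∧
    gaLamG2 (chevG2.simple j) = 3 ^ ([1, 0] : List ℕ).getD j 0 ∧
    gaLamG2 (chevG2.neg (chevG2.simple j)) = 3 ^ ([1, 0] : List ℕ).getD j 0 := by
  decide +kernel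

/-! ### The outer automorphism group -/

section

variable {F : Type*} [Field F] [Fintype F] {η : ℕ → ℕ → ℤ}

theorem sb_g2_sig (R : BRel chevG2 F η) (β : MulAut ↥(chevG2.group F)) (c : Fin 2 → F)
    (σ : Fin 2 → F →+* F) (hc : ∀ i, c i ≠ 0)
    (hβ : ∀ i : Fin 2, SbAt R β i i (c i) (σ i)) : ∀ i t, σ i t = σ 0 t := by
  have hD : chevG2 ∈ [chevG2, chevB2, chevD4, chevF4, chevE6, chevE7, chevE8] := by simp
  have hC := cartanFacts_of_mem hD
  have hHD : HDiag chevG2 F := hDiag_of_mem hD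
  have hOK := chainOK_of_mem chevG2 hD
  have h10 := R.sb_sigma_eq hHD hOK hC (i := 1) (i' := 0) (by decide) (by decide) (hc 1) (hc 0)
    (hβ 1) (fun t x hx => (hβ 0 t x).2 hx) sb_g2_pairing.1
  intro i t
  fin_cases i
  · rfl
  · exact h10 t

theorem sb_g2_cases (p f : ℕ) [Fact p.Prime] [CharP F p] (hF : Fintype.card F = p ^ f)
    (hq : 3 ≤ p ^ f) (R : BRel chevG2 F η)
    (β : MulAut ↥(chevG2.group F)) (hβ : SbNorm chevG2 F β) :
    ∃ (c : Fin 2 → F) (σ : Fin 2 → F →+* F), (∀ i, c i ≠ 0) ∧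
      ((∀ i : Fin 2, SbAt R β i i (c i) (σ i)) ∨
        (p = 3 ∧ ∀ i : Fin 2, SbAt R β i (1 - i.val) (c i) (σ i))) := by
  classical
  have hD : chevG2 ∈ [chevG2, chevB2, chevD4, chevF4, chevE6, chevE7, chevE8] := by simp
  have hC := cartanFacts_of_mem hD
  have hRk : ∀ r < chevG2.nroots, RankOne chevG2 r := fun r hr => rankOne_of_mem hD hr
  have hHD : HDiag chevG2 F := hDiag_of_mem hD
  have hOK := chainOK_of_mem chevG2 hD
  have hsimple := fun i : Fin 2 =>
    R.sb_norm_simple hC hRk sbTab_G2 sbLong_G2 hβ (i := i.val) i.isLt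
  choose ρ hρ c hc σ hσ using hsimple
  have hinjρ : ρ 0 ≠ ρ 1 := by
    intro hρeq
    refine R.sb_norm_inj sbTab_G2 (α := β) (i := 0) (i' := 1) (by decide) (by decide)
      (by decide) (hc 1) (σ := σ 0) (σ' := σ 1) (fun t x hx => ((hσ 0 t x).1 hx))
      (fun t x hx => ?_)
    rw [hρeq]
    exact (hσ 1 t x).1 hx
  have h0 : ρ 0 < 2 := hρ 0
  have h1 : ρ 1 < 2 := hρ 1
  refine ⟨c, σ, hc, ?_⟩
  have hcase : (ρ 0 = 0 ∧ ρ 1 = 1) ∨ (ρ 0 = 1 ∧ ρ 1 = 0) := by omega
  rcases hcase with ⟨e0, e1⟩ | ⟨e0, e1⟩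
  · left
    have hid : ∀ i : Fin 2, ρ i = i.val := by
      intro i
      fin_cases i
      · exact e0
      · exact e1
    intro i t x
    have h := hσ i t x
    rw [hid i] at h
    exact h
  · have hfl : ∀ i : Fin 2, ρ i = 1 - i.val := by
      intro i
      fin_cases i
      · exact e0
      · exact e1
    have hall : ∀ i : Fin 2, SbAt R β i (1 - i.val) (c i) (σ i) := by
      intro i t x
      have h := hσ i t x
      rw [hfl i] at h
      exact h
    right
    refine ⟨?_, hall⟩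
    have key : ∀ z : F, z ≠ 0 → σ 0 z = (σ 1 z) ^ 3 := by
      intro z hz
      have k1 := R.sb_norm_torus hHD hOK hC (i := 0) (i' := 1) (j := 1) (j' := 0) (by decide)
        (by decide) (by decide) (by decide) (hc 0) (hc 1) (hall 0)
        (fun t x hx => (hall 1 t x).2 hx) hz
      rw [sb_g2_pairing.1, sb_g2_pairing.2, zpow_neg_one] at k1
      have k2 : (σ 1 z) ^ (-3 : ℤ) = ((σ 1 z) ^ 3)⁻¹ := by
        rw [zpow_neg]
        norm_cast
      rw [k2] at k1
      exact inv_injective k1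
    have hex : ∃ z : F, z ≠ 0 ∧ z ≠ -1 := by
      by_contra hcon
      push_neg at hcon
      have hsub : (Finset.univ : Finset F) ⊆ {0, -1} := by
        intro z _
        by_cases hz : z = 0
        · simp [hz]
        · simp [hcon z hz]
      have h1 := Finset.card_le_card hsub
      have h2 : ({0, -1} : Finset F).card ≤ 2 := Finset.card_le_two
      rw [Finset.card_univ, hF] at h1
      omega
    obtain ⟨z, hz0, hz1⟩ := hex
    have hz2 : 1 + z ≠ 0 := by
      intro h
      apply hz1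
      linear_combination h
    have ka := key z hz0
    have kb := key (1 + z) hz2
    simp only [map_add, map_one] at kb
    rw [ka] at kb
    have hw0 : σ 1 z ≠ 0 := (map_ne_zero (σ 1)).mpr hz0
    have hw1 : 1 + σ 1 z ≠ 0 := by
      have := (map_ne_zero (σ 1)).mpr hz2
      rwa [map_add, map_one] at this
    have h3 : (3 : F) * (σ 1 z * (1 + σ 1 z)) = 0 := by
      linear_combination -kb
    have h3' : ((3 : ℕ) : F) = 0 := by
      rcases mul_eq_zero.mp h3 with h | h
      · push_cast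
        exact h
      · exact absurd h (mul_ne_zero hw0 hw1)
    have h4 := (CharP.cast_eq_zero_iff F p 3).mp h3'
    exact (Nat.prime_dvd_prime_iff_eq (Fact.out : p.Prime) Nat.prime_three).mp h4

/-- `|Out(G₂(p^f))| = 2 f` for `p = 3`, `f` otherwise (`p^f ≥ 3`). -/
theorem sb_g2_out_card (p f : ℕ) [Fact p.Prime] [CharP F p] (hF : Fintype.card F = p ^ f)
    (hq : 3 ≤ p ^ f) :
    Nat.card (Cfsg.Out ↥(chevG2.group F)) = if p = 3 then 2 * f else f := by
  have hD : chevG2 ∈ [chevG2, chevB2, chevD4, chevF4, chevE6, chevE7, chevE8] := by simp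
  have R := bRel_of_mem (F := F) hD
  have hinj : Function.Injective (torusHom chevG2 F) :=
    Cfsg.Agent.Helper18.torusHom_injective (simpleOK_of_mem hD) smithData_G2 (by
      intro i hi
      have hi' : i < 2 := hi
      interval_cases i <;> simp [smithDDG2])
  have : Fact (Nat.Prime 3) := ⟨Nat.prime_three⟩
  exact sb_out_card_exotic p f 3 hF hD R sbTab_G2 sbLong_G2 (by decide) smithData_G2 hinj
    (fun i => 1 - i) (fun j => ([1, 0] : List ℕ).getD j 0) gaRhoG2 gaLamG2
    (by intro i hi; have hi' : i < 2 := hi; exact ⟨show 1 - i < 2 by omega, by omega⟩)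
    (by decide) gaOK_G2
    (fun r hr => (sb_g2_ga_pos r hr.1).1 hr) (fun r hr => (sb_g2_ga_pos r hr.1).2 hr)
    sb_g2_ga
    (fun β c σ hc hβ => sb_g2_sig R β c σ hc hβ)
    (fun β hβ => sb_g2_cases p f hF hq R β hβ)

end

end Cfsg.Agent.Helper36
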