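import Cfsg.Agent.Helper36.SbI

/-!
# Automorphisms of Chevalley groups, IX: diagonal automorphisms (helper36)

* `SbCoord D co`: `co` gives the coordinates of the roots on the fundamental roots;
* `sbDiag`: the diagonal automorphism with prescribed values on the fundamental roots (conjugation by
  `charDiag χ`), as a homomorphism `sbDiagHom` from `(Fˣ)^rank`;
* `sb_norm_of_gens`, `SbNorm.inv`;
* `index_of_transversal`: the index of a subgroup from a transversal;
* `index_range_eq_card_ker`.
-/

set_option autoImplicit false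
set_option linter.unusedSectionVars false
set_option linter.unusedVariables false

namespace Cfsg.Agent.Helper36

open Cfsg Cfsg.Lie Cfsg.Agent.Helper17

/-- Coordinates of the roots on the fundamental roots. -/
structure SbCoord (D : ChevalleyDatum) (co : ℕ → ℕ → ℤ) : Prop where
  neg : ∀ i r, i < D.rank → r < D.nroots → co i (D.neg r) = - co i r
  add : ∀ i r s k, i < D.rank → r < D.nroots → s < D.nroots → D.chainRoot r s 1 = some k →
    co i k = co i r + co i s
  simple : ∀ i j, i < D.rank → j < D.rank → co i (D.simple j) = if i = j then 1 else 0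

section

variable {D : ChevalleyDatum} {F : Type*} [Field F] {η : ℕ → ℕ → ℤ} {co : ℕ → ℕ → ℤ}

theorem sbChi_isRootCharacter (hco : SbCoord D co) (c : ℕ → Fˣ) :
    D.IsRootCharacter (mu D.rank co c) := by
  constructor
  · intro r hr
    unfold mu
    rw [← list_prod_zpow_neg]
    apply list_prod_map_congr
    intro i hi
    rw [hco.neg i r (List.mem_range.mp hi) hr]
  · intro r s k hr hs hk
    unfold mu
    rw [← list_prod_zpow_add]
    apply list_prod_map_congr
    intro i hi
    rw [hco.add i r s k (List.mem_range.mp hi) hr hs hk]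

theorem sbChi_simple (hco : SbCoord D co) (c : ℕ → Fˣ) {j : ℕ} (hj : j < D.rank) :
    mu D.rank co c (D.simple j) = c j := by
  have h1 : mu D.rank co c (D.simple j) = mu D.rank (fun i j' => co i (D.simple j')) c j := rfl
  rw [h1, mu_diag D.rank hj (fun i hi => hco.simple i j hi hj) c, zpow_one]

/-- The diagonal matrix of the character with values `c` on the fundamental roots. -/
noncomputable def sbDiagGL (D : ChevalleyDatum) (F : Type*) [Field F] (co : ℕ → ℕ → ℤ)
    (c : Fin D.rank → Fˣ) : GL D.Idx F :=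
  ⟨D.charDiag F (mu D.rank co (extOne c)), D.charDiag F (fun s => (mu D.rank co (extOne c) s)⁻¹),
    charDiag_mul_inv D _, charDiag_inv_mul D _⟩

theorem sbDiagGL_mul (c c' : Fin D.rank → Fˣ) :
    sbDiagGL D F co (c * c') = sbDiagGL D F co c * sbDiagGL D F co c' := by
  apply Units.ext
  show D.charDiag F (mu D.rank co (extOne (c * c'))) =
    D.charDiag F (mu D.rank co (extOne c)) * D.charDiag F (mu D.rank co (extOne c'))
  rw [charDiag_mul]
  congr 1
  funext s
  unfold mu
  rw [← list_prod_mul_zpow]
  apply list_prod_map_congr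
  intro i hi
  have hi' := List.mem_range.mp hi
  rw [extOne_of_lt _ hi', extOne_of_lt _ hi', extOne_of_lt _ hi']
  rfl

theorem sbDiagGL_conj_x (hX : XAdd D F) (hOK : chainOK D = true) (hco : SbCoord D co)
    (c : Fin D.rank → Fˣ) {r : ℕ} (hr : r < D.nroots) (t : F) :
    sbDiagGL D F co c * xGL hX r t * (sbDiagGL D F co c)⁻¹ =
      xGL hX r (((mu D.rank co (extOne c) r : Fˣ) : F) * t) := by
  apply Units.ext
  rw [Units.val_mul, Units.val_mul, xGL_val, xGL_val]
  exact charDiag_conj_x D hOK _ (sbChi_isRootCharacter hco _) r hr t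

theorem sbDiagGL_conj_mem (hX : XAdd D F) (hOK : chainOK D = true) (hco : SbCoord D co)
    (c : Fin D.rank → Fˣ) (g : GL D.Idx F) (hg : g ∈ D.group F) :
    sbDiagGL D F co c * g * (sbDiagGL D F co c)⁻¹ ∈ D.group F := by
  refine conj_mem_closure _ (D.group F) _ ?_ g hg
  rintro g ⟨r, t, hg⟩
  have hg' : g = xGL hX r.val t := by
    apply eq_xGL hX
    rw [hg]
    unfold ChevalleyDatum.x
    rw [dif_pos r.isLt]
  rw [hg', sbDiagGL_conj_x hX hOK hco c r.isLt]
  exact xGL_mem_group hX _ _

/-- Conjugation by `sbDiagGL c`, as an endomorphism of the Chevalley group. -/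
noncomputable def sbDiagEnd (hX : XAdd D F) (hOK : chainOK D = true) (hco : SbCoord D co)
    (c : Fin D.rank → Fˣ) : ↥(D.group F) →* ↥(D.group F) where
  toFun g := ⟨sbDiagGL D F co c * g.val * (sbDiagGL D F co c)⁻¹,
    sbDiagGL_conj_mem hX hOK hco c g.val g.2⟩
  map_one' := by
    apply Subtype.ext
    simp
  map_mul' a b := by
    apply Subtype.ext
    simp [mul_assoc]

theorem sbDiagEnd_injective (hX : XAdd D F) (hOK : chainOK D = true) (hco : SbCoord D co)
    (c : Fin D.rank → Fˣ) : Function.Injective (sbDiagEnd hX hOK hco c) := by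
  intro a b h
  have h1 : sbDiagGL D F co c * a.val * (sbDiagGL D F co c)⁻¹ =
      sbDiagGL D F co c * b.val * (sbDiagGL D F co c)⁻¹ := congrArg Subtype.val h
  exact Subtype.ext (mul_left_cancel (mul_right_cancel h1))

variable [Fintype F]

/-- The diagonal automorphism with values `c` on the fundamental roots. -/
noncomputable def sbDiag (hX : XAdd D F) (hOK : chainOK D = true) (hco : SbCoord D co)
    (c : Fin D.rank → Fˣ) : MulAut ↥(D.group F) :=
  MulEquiv.ofBijective (sbDiagEnd hX hOK hco c)
    ⟨sbDiagEnd_injective hX hOK hco c,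
      Finite.surjective_of_injective (sbDiagEnd_injective hX hOK hco c)⟩

theorem sbDiag_val (hX : XAdd D F) (hOK : chainOK D = true) (hco : SbCoord D co)
    (c : Fin D.rank → Fˣ) (g : ↥(D.group F)) :
    ((sbDiag hX hOK hco c g : ↥(D.group F)) : GL D.Idx F) =
      sbDiagGL D F co c * g.val * (sbDiagGL D F co c)⁻¹ := rfl

/-- `c ↦ sbDiag c` as a homomorphism. -/
noncomputable def sbDiagHom (hX : XAdd D F) (hOK : chainOK D = true) (hco : SbCoord D co) :
    (Fin D.rank → Fˣ) →* MulAut ↥(D.group F) :=
  MonoidHom.mk' (fun c => sbDiag hX hOK hco c) (by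
    intro c c'
    apply MulEquiv.ext
    intro g
    apply Subtype.ext
    show sbDiagGL D F co (c * c') * g.val * (sbDiagGL D F co (c * c'))⁻¹ =
      sbDiagGL D F co c * (sbDiagGL D F co c' * g.val * (sbDiagGL D F co c')⁻¹) *
        (sbDiagGL D F co c)⁻¹
    rw [sbDiagGL_mul]
    group)

theorem sbDiagHom_apply (hX : XAdd D F) (hOK : chainOK D = true) (hco : SbCoord D co)
    (c : Fin D.rank → Fˣ) : sbDiagHom hX hOK hco c = sbDiag hX hOK hco c := rfl

theorem sbDiag_x (hX : XAdd D F) (hOK : chainOK D = true) (hco : SbCoord D co)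
    (c : Fin D.rank → Fˣ) {r : ℕ} (hr : r < D.nroots) (t : F) (x : ↥(D.group F))
    (hx : (x : GL D.Idx F) = xGL hX r t) :
    ((sbDiag hX hOK hco c x : ↥(D.group F)) : GL D.Idx F) =
      xGL hX r (((mu D.rank co (extOne c) r : Fˣ) : F) * t) := by
  rw [sbDiag_val, hx, sbDiagGL_conj_x hX hOK hco c hr]

theorem sbDiag_pos (R : BRel D F η) (hOK : chainOK D = true) (hco : SbCoord D co)
    (c : Fin D.rank → Fˣ) (i : Fin D.rank) (t : F) (x : ↥(D.group F))
    (hx : (x : GL D.Idx F) = xGL R.xadd (D.simple i) t) :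
    ((sbDiag R.xadd hOK hco c x : ↥(D.group F)) : GL D.Idx F) =
      xGL R.xadd (D.simple i) ((c i : F) * t) := by
  rw [sbDiag_x R.xadd hOK hco c (R.wf.simple_lt i i.isLt) t x hx, sbChi_simple hco _ i.isLt,
    extOne_of_lt _ i.isLt]

theorem sbDiag_neg (R : BRel D F η) (hOK : chainOK D = true) (hco : SbCoord D co)
    (c : Fin D.rank → Fˣ) (i : Fin D.rank) (t : F) (x : ↥(D.group F))
    (hx : (x : GL D.Idx F) = xGL R.xadd (D.neg (D.simple i)) t) :
    ((sbDiag R.xadd hOK hco c x : ↥(D.group F)) : GL D.Idx F) =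
      xGL R.xadd (D.neg (D.simple i)) ((((c i)⁻¹ : Fˣ) : F) * t) := by
  have hlt := R.wf.simple_lt i i.isLt
  rw [sbDiag_x R.xadd hOK hco c (R.wf.neg_lt _ hlt) t x hx,
    (sbChi_isRootCharacter hco (extOne c)).1 _ hlt, sbChi_simple hco _ i.isLt,
    extOne_of_lt _ i.isLt]

/-- An automorphism mapping the positive root elements into `U` and the negative ones into `V`. -/
theorem sb_norm_of_gens (R : BRel D F η) {γ : MulAut ↥(D.group F)}
    (hpos : ∀ (g : ↥(D.group F)) (r : ℕ) (t : F), D.IsPosRoot r →
      (g : GL D.Idx F) = xGL R.xadd r t →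
      ((γ g : ↥(D.group F)) : GL D.Idx F) ∈ D.posUnipotent F)
    (hneg : ∀ (g : ↥(D.group F)) (r : ℕ) (t : F), D.IsNegRoot r →
      (g : GL D.Idx F) = xGL R.xadd r t →
      ((γ g : ↥(D.group F)) : GL D.Idx F) ∈ D.negUnipotent F) : SbNorm D F γ := by
  constructor
  · have key : ∀ u ∈ D.posUnipotent F, ∀ hu : u ∈ D.group F,
        ((γ ⟨u, hu⟩ : ↥(D.group F)) : GL D.Idx F) ∈ D.posUnipotent F := by
      intro u hu
      unfold ChevalleyDatum.posUnipotent at hu
      induction hu using Subgroup.closure_induction with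
      | mem u hu =>
        obtain ⟨r, t, hr, hg⟩ := hu
        intro hG
        exact hpos ⟨u, hG⟩ r t hr (eq_xGL R.xadd hg)
      | one =>
        intro hG
        have : (⟨1, hG⟩ : ↥(D.group F)) = 1 := rfl
        rw [this, map_one]
        exact one_mem _
      | mul a b ha hb iha ihb =>
        intro hG
        have haG : a ∈ D.group F := posUnipotent_le_group R.xadd ha
        have hbG : b ∈ D.group F := posUnipotent_le_group R.xadd hb
        have : (⟨a * b, hG⟩ : ↥(D.group F)) = ⟨a, haG⟩ * ⟨b, hbG⟩ := rfl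
        rw [this, map_mul]
        exact mul_mem (iha haG) (ihb hbG)
      | inv a ha iha =>
        intro hG
        have haG : a ∈ D.group F := posUnipotent_le_group R.xadd ha
        have : (⟨a⁻¹, hG⟩ : ↥(D.group F)) = (⟨a, haG⟩)⁻¹ := rfl
        rw [this, map_inv]
        exact inv_mem (iha haG)
    exact fun g hg => key g.val hg g.2
  · have key : ∀ u ∈ D.negUnipotent F, ∀ hu : u ∈ D.group F,
        ((γ ⟨u, hu⟩ : ↥(D.group F)) : GL D.Idx F) ∈ D.negUnipotent F := by
      intro u hu
      unfold ChevalleyDatum.negUnipotent at hu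
      induction hu using Subgroup.closure_induction with
      | mem u hu =>
        obtain ⟨r, t, hr, hg⟩ := hu
        intro hG
        exact hneg ⟨u, hG⟩ r t hr (eq_xGL R.xadd hg)
      | one =>
        intro hG
        have : (⟨1, hG⟩ : ↥(D.group F)) = 1 := rfl
        rw [this, map_one]
        exact one_mem _
      | mul a b ha hb iha ihb =>
        intro hG
        have haG : a ∈ D.group F := sb_negUnipotent_le_group R.xadd ha
        have hbG : b ∈ D.group F := sb_negUnipotent_le_group R.xadd hb
        have : (⟨a * b, hG⟩ : ↥(D.group F)) = ⟨a, haG⟩ * ⟨b, hbG⟩ := rfl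
        rw [this, map_mul]
        exact mul_mem (iha haG) (ihb hbG)
      | inv a ha iha =>
        intro hG
        have haG : a ∈ D.group F := sb_negUnipotent_le_group R.xadd ha
        have : (⟨a⁻¹, hG⟩ : ↥(D.group F)) = (⟨a, haG⟩)⁻¹ := rfl
        rw [this, map_inv]
        exact inv_mem (iha haG)
    exact fun g hg => key g.val hg g.2

theorem SbNorm.inv {α : MulAut ↥(D.group F)} (hα : SbNorm D F α) : SbNorm D F α⁻¹ := by
  constructor
  · intro g hg
    apply hα.reflect_U
    rw [MulAut.apply_inv_self]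
    exact hg
  · intro g hg
    apply hα.reflect_V
    rw [MulAut.apply_inv_self]
    exact hg

theorem sbDiag_norm (R : BRel D F η) (hOK : chainOK D = true) (hco : SbCoord D co)
    (c : Fin D.rank → Fˣ) : SbNorm D F (sbDiag R.xadd hOK hco c) := by
  apply sb_norm_of_gens R
  · intro g r t hr hg
    rw [sbDiag_x R.xadd hOK hco c hr.1 t g hg]
    exact xGL_mem_posUnipotent _ hr _
  · intro g r t hr hg
    rw [sbDiag_x R.xadd hOK hco c hr.1 t g hg]
    exact xGL_mem_negUnipotent _ hr _

end

/-- The index of a subgroup from a (right) transversal. -/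
theorem index_of_transversal {Q : Type*} [Group Q] (N : Subgroup Q) {ι : Type*} [Finite ι]
    (T : ι → Q) (hgen : ∀ x : Q, ∃ i : ι, ∃ y ∈ N, x = y * T i)
    (hinj : ∀ i j : ι, T i * (T j)⁻¹ ∈ N → i = j) : N.index = Nat.card ι := by
  have hbij : Function.Bijective (fun i : ι => (QuotientGroup.mk (T i)⁻¹ : Q ⧸ N)) := by
    constructor
    · intro i j h
      have h1 : ((T i)⁻¹)⁻¹ * (T j)⁻¹ ∈ N := QuotientGroup.eq.mp h
      rw [inv_inv] at h1
      exact hinj i j h1
    · intro x
      induction x using QuotientGroup.induction_on with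
      | H x =>
        obtain ⟨i, y, hy, hx⟩ := hgen x⁻¹
        refine ⟨i, ?_⟩
        apply QuotientGroup.eq.mpr
        rw [inv_inv]
        have : T i * x = y⁻¹ := by
          have h2 : x = (y * T i)⁻¹ := by rw [← hx, inv_inv]
          rw [h2]
          group
        rw [this]
        exact inv_mem hy
  rw [Subgroup.index, ← Nat.card_congr (Equiv.ofBijective _ hbij)]

theorem index_range_eq_card_ker {A : Type*} [Group A] [Finite A] (Ψ : A →* A) :
    Ψ.range.index = Nat.card Ψ.ker := by
  have h1 := Subgroup.card_mul_index Ψ.range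
  have h2 := Subgroup.card_mul_index Ψ.ker
  rw [Subgroup.index_ker] at h2
  have h3 : 0 < Nat.card Ψ.range := Nat.card_pos
  have h4 : Nat.card Ψ.range * Ψ.range.index = Nat.card Ψ.range * Nat.card Ψ.ker := by
    rw [h1, mul_comm, h2]
  exact Nat.eq_of_mul_eq_mul_left h3 h4

end Cfsg.Agent.Helper36
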