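import Cfsg.Agent.Helper36.SbL

/-!
# Automorphisms of Chevalley groups, X: the order of `Out` with diagonal automorphisms (helper36)

* `sbPsi`: the map `z ↦ (χ_z(p_j))_j` on `(Fˣ)^rank`; its kernel is the kernel of `torusHom`;
* `sbDiag_inn_iff`: a diagonal automorphism is inner iff its values lie in the range of `sbPsi`;
* `sb_out_card_trans`: `|Out| = ∏ gcd(d_i, q - 1) · |ι|` for a transversal `T : ι → Aut` of the diagonal-inner
  automorphisms;
* `sb_out_card_rigid`: the case of a diagram without symmetry: `|Out| = ∏ gcd(d_i, q - 1) · f`.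
-/

set_option autoImplicit false
set_option linter.unusedSectionVars false
set_option linter.unusedVariables false

namespace Cfsg.Agent.Helper36

open Cfsg Cfsg.Lie Cfsg.Agent.Helper17

section

variable {D : ChevalleyDatum} {F : Type*} [Field F] {η : ℕ → ℕ → ℤ} {co : ℕ → ℕ → ℤ}

/-- The map `z ↦ (χ_z(p_j))_j`. -/
noncomputable def sbPsi (D : ChevalleyDatum) (F : Type*) [Field F] :
    (Fin D.rank → Fˣ) →* (Fin D.rank → Fˣ) :=
  MonoidHom.mk' (muT (fun a b => D.cartan a (D.simple b))) (by
    intro z z'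
    funext j
    show mu D.rank _ (extOne (z * z')) j.val =
      mu D.rank _ (extOne z) j.val * mu D.rank _ (extOne z') j.val
    unfold mu
    rw [← list_prod_mul_zpow]
    apply list_prod_map_congr
    intro i hi
    have hi' := List.mem_range.mp hi
    rw [extOne_of_lt _ hi', extOne_of_lt _ hi', extOne_of_lt _ hi']
    rfl)

theorem sbPsi_apply (z : Fin D.rank → Fˣ) (j : Fin D.rank) :
    sbPsi D F z j = torusChar D (extOne z) (D.simple j) := rfl

theorem sbPsi_ker {dd : ℕ → ℕ} (hs : simpleOK D = true) (hS : SmithData D dd) :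
    (sbPsi D F).ker = (torusHom D F).ker := by
  ext z
  rw [mem_ker_torusHom hs hS, MonoidHom.mem_ker]
  rfl

variable [Fintype F]

/-- A diagonal automorphism is inner iff its values on the fundamental roots come from the torus. -/
theorem sbDiag_inn_iff (hD : D ∈ [chevG2, chevB2, chevD4, chevF4, chevE6, chevE7, chevE8])
    (R : BRel D F η) (hco : SbCoord D co) {L₀ : List ℕ} (hL : SbLong D L₀)
    (c : Fin D.rank → Fˣ) :
    sbDiag R.xadd (chainOK_of_mem D hD) hco c ∈ Cfsg.Inn ↥(D.group F) ↔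
      c ∈ (sbPsi D F).range := by
  have hOK := chainOK_of_mem D hD
  have hC := cartanFacts_of_mem hD
  have hT := torusFacts_of_mem hD
  have hHD : HDiag D F := hDiag_of_mem hD
  constructor
  · rintro ⟨g, hg⟩
    have hn := sbDiag_norm R hOK hco c
    have hgH : (g : GL D.Idx F) ∈ D.diagonalSubgroup F := by
      apply R.sb_H_char hT hHD hL g.2
      · intro u hu
        have h := hn.1 ⟨u, posUnipotent_le_group R.xadd hu⟩ hu
        rw [← hg] at h
        exact h
      · intro v hv
        have h := hn.2 ⟨v, sb_negUnipotent_le_group R.xadd hv⟩ hv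
        rw [← hg] at h
        exact h
    rw [diagonalSubgroup_eq_torus (simpleOK_of_mem hD) hHD (rootElts_of_mem hD),
      ← range_torusHom] at hgH
    obtain ⟨z, hz⟩ := hgH
    refine ⟨z, ?_⟩
    funext j
    have hlt := R.wf.simple_lt j j.isLt
    have h1 : MulAut.conj g ⟨xGL R.xadd (D.simple j) 1, xGL_mem_group R.xadd _ _⟩ =
        sbDiag R.xadd hOK hco c ⟨xGL R.xadd (D.simple j) 1, xGL_mem_group R.xadd _ _⟩ := by
      rw [hg]
    have h2 := congrArg Subtype.val h1
    rw [sbDiag_pos R hOK hco c j 1 _ rfl] at h2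
    have h3 : ((MulAut.conj g ⟨xGL R.xadd (D.simple j) 1, xGL_mem_group R.xadd _ _⟩ :
        ↥(D.group F)) : GL D.Idx F) =
        xGL R.xadd (D.simple j) (((torusChar D (extOne z) (D.simple j) : Fˣ) : F) * 1) := by
      show (g : GL D.Idx F) * xGL R.xadd (D.simple j) 1 * (g : GL D.Idx F)⁻¹ = _
      apply Units.ext
      rw [Units.val_mul, Units.val_mul, xGL_val, xGL_val, ← hz]
      exact torus_conj_x hOK hC (torusHom_val z) _ hlt 1
    rw [h3] at h2
    have h4 := R.sb_x_inj hlt h2
    rw [mul_one, mul_one] at h4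
    exact Units.ext h4
  · rintro ⟨z, rfl⟩
    have hzT : torusHom D F z ∈ D.diagonalSubgroup F := by
      rw [diagonalSubgroup_eq_torus (simpleOK_of_mem hD) hHD (rootElts_of_mem hD),
        ← range_torusHom]
      exact ⟨z, rfl⟩
    have hzG := diagonalSubgroup_le_group R.xadd hzT
    refine ⟨⟨torusHom D F z, hzG⟩, ?_⟩
    apply R.sb_aut_ext
    intro i hi t x hx
    apply Subtype.ext
    have hlt := R.wf.simple_lt i hi
    show torusHom D F z * (x : GL D.Idx F) * (torusHom D F z)⁻¹ = _
    rcases hx with hx | hx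
    · rw [sbDiag_pos R hOK hco _ ⟨i, hi⟩ t x hx, hx]
      apply Units.ext
      rw [Units.val_mul, Units.val_mul, xGL_val, xGL_val,
        torus_conj_x hOK hC (torusHom_val z) _ hlt t]
      rfl
    · rw [sbDiag_neg R hOK hco _ ⟨i, hi⟩ t x hx, hx]
      apply Units.ext
      rw [Units.val_mul, Units.val_mul, xGL_val, xGL_val,
        torus_conj_x hOK hC (torusHom_val z) _ (R.wf.neg_lt _ hlt) t,
        (torusChar_isRootCharacter hC (extOne z)).1 _ hlt]
      rfl

/-- `|Out| = ∏ gcd(d_i, q - 1) · |ι|` for a transversal `T : ι → Aut` of the inner-diagonal automorphisms. -/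
theorem sb_out_card_trans (hD : D ∈ [chevG2, chevB2, chevD4, chevF4, chevE6, chevE7, chevE8])
    (R : BRel D F η) (hco : SbCoord D co) {L₀ : List ℕ} (hL : SbLong D L₀)
    {dd : ℕ → ℕ} (hS : SmithData D dd) {ι : Type*} [Finite ι] (T : ι → MulAut ↥(D.group F))
    (hgen : ∀ α : MulAut ↥(D.group F), ∃ (g : ↥(D.group F)) (c : Fin D.rank → Fˣ) (i : ι),
      α = MulAut.conj g * sbDiag R.xadd (chainOK_of_mem D hD) hco c * T i)
    (hinj : ∀ (i j : ι) (c : Fin D.rank → Fˣ) (g : ↥(D.group F)),
      T i * (T j)⁻¹ = sbDiag R.xadd (chainOK_of_mem D hD) hco c * MulAut.conj g → i = j) :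
    Nat.card (Cfsg.Out ↥(D.group F)) =
      ((List.range D.rank).map fun i => Nat.gcd (dd i) (Fintype.card F - 1)).prod *
        Nat.card ι := by
  classical
  have hOK := chainOK_of_mem D hD
  let δ : (Fin D.rank → Fˣ) →* Cfsg.Out ↥(D.group F) :=
    (QuotientGroup.mk' (Cfsg.Inn ↥(D.group F))).comp (sbDiagHom R.xadd hOK hco)
  have hδ : ∀ c, δ c = (QuotientGroup.mk (sbDiag R.xadd hOK hco c) : Cfsg.Out ↥(D.group F)) :=
    fun c => rfl
  have hker : δ.ker = (sbPsi D F).range := by
    ext c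
    rw [MonoidHom.mem_ker, hδ, QuotientGroup.eq_one_iff]
    exact sbDiag_inn_iff hD R hco hL c
  have hcard : Nat.card δ.range =
      ((List.range D.rank).map fun i => Nat.gcd (dd i) (Fintype.card F - 1)).prod := by
    rw [← Subgroup.index_ker, hker, index_range_eq_card_ker, sbPsi_ker (simpleOK_of_mem hD) hS,
      card_ker_torusHom (simpleOK_of_mem hD) hS]
  have hidx : δ.range.index = Nat.card ι := by
    apply index_of_transversal δ.range
      (fun i => (QuotientGroup.mk (T i) : Cfsg.Out ↥(D.group F)))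
    · intro x
      induction x using QuotientGroup.induction_on with
      | H α =>
        obtain ⟨g, c, i, rfl⟩ := hgen α
        refine ⟨i, δ c, ⟨c, rfl⟩, ?_⟩
        rw [QuotientGroup.mk_mul, QuotientGroup.mk_mul]
        have : (QuotientGroup.mk (MulAut.conj g) : Cfsg.Out ↥(D.group F)) = 1 :=
          (QuotientGroup.eq_one_iff _).mpr ⟨g, rfl⟩
        rw [this, one_mul, hδ]
    · intro i j hmem
      obtain ⟨c, hc⟩ := hmem
      have h1 : (QuotientGroup.mk (sbDiag R.xadd hOK hco c) : Cfsg.Out ↥(D.group F)) =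
          QuotientGroup.mk (T i * (T j)⁻¹) := by
        rw [QuotientGroup.mk_mul, QuotientGroup.mk_inv, ← hδ]
        exact hc
      obtain ⟨g, hg⟩ := QuotientGroup.eq.mp h1
      apply hinj i j c g
      rw [hg]
      group
  rw [← Subgroup.card_mul_index δ.range, hcard, hidx]

end

/-! ### Powers of the Frobenius -/

section

variable {F : Type*} [Field F] [Fintype F]

theorem frob_pow_mod (p f : ℕ) [Fact p.Prime] [CharP F p] (hF : Fintype.card F = p ^ f) (k : ℕ)
    (t : F) : t ^ p ^ k = t ^ p ^ (k % f) := by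
  have h1 : ∀ m : ℕ, t ^ (p ^ f) ^ m = t := by
    intro m
    induction m with
    | zero => simp
    | succ m ih => rw [pow_succ, pow_mul, ih, ← hF, FiniteField.pow_card]
  calc t ^ p ^ k = t ^ p ^ (k % f + f * (k / f)) := by rw [Nat.mod_add_div]
    _ = t ^ ((p ^ f) ^ (k / f) * p ^ (k % f)) := by
      congr 1
      rw [pow_add, pow_mul, mul_comm]
    _ = (t ^ (p ^ f) ^ (k / f)) ^ p ^ (k % f) := by rw [pow_mul]
    _ = t ^ p ^ (k % f) := by rw [h1]

theorem frob_pow_inj (p f : ℕ) [Fact p.Prime] [CharP F p] (hF : Fintype.card F = p ^ f)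
    {k k' : ℕ} (hk : k < f) (hk' : k' < f) (h : ∀ t : F, t ^ p ^ k = t ^ p ^ k') : k = k' := by
  have key : ∀ a b : ℕ, a ≤ b → b < f → (∀ t : F, t ^ p ^ a = t ^ p ^ b) → a = b := by
    intro a b hab hb hh
    have h1 : ∀ t : F, t ^ p ^ (b - a) = t := by
      intro t
      apply (sbFr F p a).injective
      rw [sbFr_apply, sbFr_apply, ← pow_mul, ← pow_add, Nat.sub_add_cancel hab]
      exact (hh t).symm
    have h2 := frob_pow_fix_dvd p hF h1
    have h3 : b - a = 0 := Nat.eq_zero_of_dvd_of_lt h2 (by omega)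
    omega
  rcases Nat.le_total k k' with hle | hle
  · exact key k k' hle hk' h
  · exact (key k' k hle hk (fun t => (h t).symm)).symm

end

section

variable {D : ChevalleyDatum} {F : Type*} [Field F] [Fintype F] {η : ℕ → ℕ → ℤ} {co : ℕ → ℕ → ℤ}

/-- Two field automorphisms differing by an inner-diagonal automorphism are equal. -/
theorem sb_frob_diag_eq (p f : ℕ) [Fact p.Prime] [CharP F p] (hF : Fintype.card F = p ^ f)
    (hD : D ∈ [chevG2, chevB2, chevD4, chevF4, chevE6, chevE7, chevE8]) (R : BRel D F η)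
    (hco : SbCoord D co) {L₀ : List ℕ} (hL : SbLong D L₀) (h0 : 0 < D.rank)
    {k k' : ℕ} (hk : k < f) (hk' : k' < f) (c : Fin D.rank → Fˣ) (g : ↥(D.group F))
    (h : sbFrob D F p k * (sbFrob D F p k')⁻¹ =
      sbDiag R.xadd (chainOK_of_mem D hD) hco c * MulAut.conj g) : k = k' := by
  have hOK := chainOK_of_mem D hD
  have hT := torusFacts_of_mem hD
  have hHD : HDiag D F := hDiag_of_mem hD
  have hcg : MulAut.conj g =
      (sbDiag R.xadd hOK hco c)⁻¹ * (sbFrob D F p k * (sbFrob D F p k')⁻¹) := by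
    rw [h]
    group
  have hn : SbNorm D F (MulAut.conj g) := by
    rw [hcg]
    exact (sbDiag_norm R hOK hco c).inv.mul ((sbFrob_norm p k).mul (sbFrob_norm p k').inv)
  have hgH : (g : GL D.Idx F) ∈ D.diagonalSubgroup F := by
    apply R.sb_H_char hT hHD hL g.2
    · intro u hu
      exact hn.1 ⟨u, posUnipotent_le_group R.xadd hu⟩ hu
    · intro v hv
      exact hn.2 ⟨v, sb_negUnipotent_le_group R.xadd hv⟩ hv
  have hlt0 : D.simple 0 < D.nroots := R.wf.simple_lt 0 h0
  obtain ⟨cc, hcc⟩ := R.hx _ hgH (D.simple 0) hlt0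
  apply frob_pow_inj p f hF hk hk'
  have key : ∀ t : F, t ^ p ^ k = (c ⟨0, h0⟩ : F) * (cc * t ^ p ^ k') := by
    intro t
    have h1 := congrArg (fun a : MulAut ↥(D.group F) =>
      ((a (sbFrob D F p k' ⟨xGL R.xadd (D.simple 0) t, xGL_mem_group R.xadd _ _⟩) :
        ↥(D.group F)) : GL D.Idx F)) h
    simp only [MulAut.mul_apply, MulAut.inv_apply_self] at h1
    rw [sbFrob_x p R.xadd k _ t _ rfl] at h1
    have h2 : ((MulAut.conj g
        (sbFrob D F p k' ⟨xGL R.xadd (D.simple 0) t, xGL_mem_group R.xadd _ _⟩) :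
        ↥(D.group F)) : GL D.Idx F) = xGL R.xadd (D.simple 0) (cc * t ^ p ^ k') := by
      show (g : GL D.Idx F) * ((sbFrob D F p k'
        ⟨xGL R.xadd (D.simple 0) t, xGL_mem_group R.xadd _ _⟩ : ↥(D.group F)) : GL D.Idx F) *
          (g : GL D.Idx F)⁻¹ = _
      rw [sbFrob_x p R.xadd k' _ t _ rfl]
      exact hcc _
    rw [sbDiag_pos R hOK hco c ⟨0, h0⟩ _ _ h2] at h1
    exact R.sb_x_inj hlt0 h1
  have h1 := key 1
  rw [one_pow, one_pow, mul_one] at h1
  intro t
  rw [key t, ← mul_assoc, ← h1, one_mul]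

/-- `|Out| = ∏ gcd(d_i, q - 1) · f` when every normalised automorphism fixes every node of the diagram. -/
theorem sb_out_card_rigid (p f : ℕ) [Fact p.Prime] [CharP F p] (hF : Fintype.card F = p ^ f)
    (hD : D ∈ [chevG2, chevB2, chevD4, chevF4, chevE6, chevE7, chevE8]) (R : BRel D F η)
    {L₀ : List ℕ} (hL : SbLong D L₀) (h0 : 0 < D.rank)
    {dd : ℕ → ℕ} (hS : SmithData D dd) (hco : SbCoord D co)
    (hsig : ∀ (β : MulAut ↥(D.group F)) (c : Fin D.rank → F) (σ : Fin D.rank → F →+* F),
      (∀ i, c i ≠ 0) → (∀ i : Fin D.rank, SbAt R β i i (c i) (σ i)) →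
        ∀ i t, σ i t = σ ⟨0, h0⟩ t)
    (hcases : ∀ β : MulAut ↥(D.group F), SbNorm D F β →
      ∃ (c : Fin D.rank → F) (σ : Fin D.rank → F →+* F), (∀ i, c i ≠ 0) ∧
        ∀ i : Fin D.rank, SbAt R β i i (c i) (σ i)) :
    Nat.card (Cfsg.Out ↥(D.group F)) =
      ((List.range D.rank).map fun i => Nat.gcd (dd i) (Fintype.card F - 1)).prod * f := by
  classical
  have hOK := chainOK_of_mem D hD
  have hHD : HDiag D F := hDiag_of_mem hD
  have hf0 : 0 < f := by
    rcases Nat.eq_zero_or_pos f with h | h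
    · rw [h, pow_zero] at hF
      have := Fintype.one_lt_card (α := F)
      omega
    · exact h
  obtain ⟨hP, hidx⟩ := R.sb_sylow p
    (card_posUnipotent_of_mem hD (fun r s hr hs h1 h2 => R.cf r hr s hs h1 h2))
    (diagonalSubgroup_le_torus hHD)
  have h := sb_out_card_trans hD R hco hL hS (ι := Fin f) (fun k => sbFrob D F p k.val) ?_ ?_
  · rw [h, Nat.card_eq_fintype_card, Fintype.card_fin]
  · intro α
    obtain ⟨g₀, hnorm⟩ := R.sb_exists_norm p hP hidx hL α
    obtain ⟨c, σ, hc, hcase⟩ := hcases _ hnorm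
    have hσ := hsig _ c σ hc hcase
    obtain ⟨k, hk⟩ := ringHom_eq_frob_pow p (σ ⟨0, h0⟩)
    refine ⟨g₀⁻¹, fun i => (Units.mk0 (c i) (hc i))⁻¹, ⟨k % f, Nat.mod_lt _ hf0⟩, ?_⟩
    have hβ : MulAut.conj g₀ * α =
        sbDiag R.xadd hOK hco (fun i => (Units.mk0 (c i) (hc i))⁻¹) * sbFrob D F p (k % f) := by
      apply R.sb_aut_ext
      intro i hi t x hx
      apply Subtype.ext
      rcases hx with hx | hx
      · rw [(hcase ⟨i, hi⟩ t x).2 hx]
        have e1 := sbFrob_x p R.xadd (k % f) _ t x hx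
        show _ = ((sbDiag R.xadd hOK hco _ (sbFrob D F p (k % f) x) : ↥(D.group F)) :
          GL D.Idx F)
        rw [sbDiag_pos R hOK hco _ ⟨i, hi⟩ _ _ e1, hσ, hk, frob_pow_mod p f hF k t]
        rfl
      · rw [(hcase ⟨i, hi⟩ t x).1 hx]
        have e1 := sbFrob_x p R.xadd (k % f) _ t x hx
        show _ = ((sbDiag R.xadd hOK hco _ (sbFrob D F p (k % f) x) : ↥(D.group F)) :
          GL D.Idx F)
        rw [sbDiag_neg R hOK hco _ ⟨i, hi⟩ _ _ e1, hσ, hk, frob_pow_mod p f hF k t]
        simp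
    rw [map_inv, mul_assoc, ← hβ]
    group
  · intro i j c g h
    exact Fin.ext (sb_frob_diag_eq p f hF hD R hco hL h0 i.isLt j.isLt c g h)

/-- The table check for `SbCoord`. -/
def sbCoordOK (D : ChevalleyDatum) (co : ℕ → ℕ → ℤ) : Bool :=
  ((List.range D.nroots).all fun r =>
    ((List.range D.rank).all fun i => decide (co i (D.neg r) = - co i r)) &&
    (List.range D.nroots).all fun s =>
      match D.chainRoot r s 1 with
      | some k => (List.range D.rank).all fun i => decide (co i k = co i r + co i s)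
      | none => true) &&
  (List.range D.rank).all fun i => (List.range D.rank).all fun j =>
    decide (co i (D.simple j) = if i = j then 1 else 0)

theorem sbCoord_of_OK {D : ChevalleyDatum} {co : ℕ → ℕ → ℤ} (h : sbCoordOK D co = true) :
    SbCoord D co := by
  unfold sbCoordOK at h
  rw [Bool.and_eq_true, List.all_eq_true, List.all_eq_true] at h
  obtain ⟨h1, h2⟩ := h
  refine ⟨?_, ?_, ?_⟩
  · intro i r hi hr
    have h3 := h1 r (List.mem_range.mpr hr)
    rw [Bool.and_eq_true, List.all_eq_true] at h3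
    have h4 := h3.1 i (List.mem_range.mpr hi)
    rwa [decide_eq_true_eq] at h4
  · intro i r s k hi hr hs hk
    have h3 := h1 r (List.mem_range.mpr hr)
    rw [Bool.and_eq_true] at h3
    have h4 := h3.2
    rw [List.all_eq_true] at h4
    have h5 := h4 s (List.mem_range.mpr hs)
    rw [hk] at h5
    simp only [List.all_eq_true, decide_eq_true_eq] at h5
    exact h5 i (List.mem_range.mpr hi)
  · intro i j hi hj
    have h3 := h2 i (List.mem_range.mpr hi)
    rw [List.all_eq_true] at h3
    have h4 := h3 j (List.mem_range.mpr hj)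
    rwa [decide_eq_true_eq] at h4

/-- The coordinates of the coroots (the coordinates of the roots when all roots have the same length). -/
def sbCo (D : ChevalleyDatum) (i s : ℕ) : ℤ := (D.coroot.getD s #[]).getD i 0

end

end Cfsg.Agent.Helper36
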