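import Cfsg.Agent.Helper36.SbM

/-!
# The outer automorphism group of `E₇(q)` (helper36)

`|Out(E₇(p^f))| = gcd(2, p^f - 1) f`: diagonal and field automorphisms.
-/

set_option autoImplicit false
set_option linter.unusedSectionVars false
set_option linter.unusedVariables false

namespace Cfsg.Agent.Helper36

open Cfsg Cfsg.Lie Cfsg.Agent.Helper17

/-! ### Tables for `E₇` -/

set_option maxRecDepth 100000 in
theorem sb_tau_E7 : ∀ j < chevE7.rank, id j < chevE7.rank ∧ id (id j) = j ∧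
    Cfsg.Agent.Helper18.fwdN chevE7 Cfsg.Agent.Helper18.longE7 (chevE7.neg (chevE7.simple j)) =
      chevE7.simple (id j) := by decide +kernel

theorem sbLong_E7 : SbLong chevE7 Cfsg.Agent.Helper18.longE7 :=
  sbLong_of_chk (by simp) Cfsg.Agent.Helper18.chkLong_E7 id sb_tau_E7

theorem sbTab_E7 : SbTab chevE7 where
  simple_inj := by decide +kernel
  comm_pn := by decide +kernel

/-- The Dynkin diagram of `E₇`. -/
def sbAdjE7 (i j : ℕ) : Bool :=
  [(0, 2), (2, 0), (1, 3), (3, 1), (2, 3), (3, 2), (3, 4), (4, 3), (4, 5), (5, 4), (5, 6),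
    (6, 5)].contains (i, j)

theorem sbAdjG_E7 : SbAdjG chevE7 sbAdjE7 where
  edge := by decide +kernel
  nonedge := by decide +kernel

theorem sb_e7_pairing : chevE7.pairing (chevE7.simple 0) (chevE7.simple 2) = -1 ∧
    chevE7.pairing (chevE7.simple 2) (chevE7.simple 3) = -1 ∧
    chevE7.pairing (chevE7.simple 3) (chevE7.simple 1) = -1 ∧
    chevE7.pairing (chevE7.simple 3) (chevE7.simple 4) = -1 ∧
    chevE7.pairing (chevE7.simple 4) (chevE7.simple 5) = -1 ∧
    chevE7.pairing (chevE7.simple 5) (chevE7.simple 6) = -1 := by decide +kernel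

set_option maxRecDepth 100000 in
theorem sbCoordOK_E7 : sbCoordOK chevE7 (sbCo chevE7) = true := by decide +kernel

theorem sbCoord_E7 : SbCoord chevE7 (sbCo chevE7) := sbCoord_of_OK sbCoordOK_E7

theorem sb_adj_irrefl_E7 : ∀ i : Fin 7, sbAdjE7 i.val i.val = false := by decide

/-- The Dynkin diagram of `E₇` has no symmetry. -/
theorem sb_e7_rigid (ρ : Fin 7 → Fin 7) (hinj : Function.Injective ρ)
    (hadj : ∀ i j : Fin 7, sbAdjE7 i.val j.val = true → sbAdjE7 (ρ i).val (ρ j).val = true) :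
    ∀ i, ρ i = i := by
  have L1 : ∀ x a b c : Fin 7, sbAdjE7 x.val a.val = true → sbAdjE7 x.val b.val = true →
      sbAdjE7 x.val c.val = true → a ≠ b → a ≠ c → b ≠ c → x = 3 := by decide
  have L2 : ∀ r4 r5 r6 : Fin 7, sbAdjE7 (3 : Fin 7).val r4.val = true →
      sbAdjE7 r4.val r5.val = true → r5 ≠ 3 → sbAdjE7 r5.val r6.val = true → r6 ≠ r4 →
      (r4 = 4 ∧ r5 = 5 ∧ r6 = 6) := by decide
  have L4 : ∀ r2 r0 : Fin 7, sbAdjE7 (3 : Fin 7).val r2.val = true → r2 ≠ 4 →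
      sbAdjE7 r2.val r0.val = true → r0 ≠ 3 → (r2 = 2 ∧ r0 = 0) := by decide
  have L5 : ∀ r1 : Fin 7, sbAdjE7 (3 : Fin 7).val r1.val = true → r1 ≠ 4 → r1 ≠ 2 → r1 = 1 := by
    decide
  have h3 : ρ 3 = 3 := L1 (ρ 3) (ρ 1) (ρ 2) (ρ 4) (hadj 3 1 (by decide)) (hadj 3 2 (by decide))
    (hadj 3 4 (by decide)) (fun h => absurd (hinj h) (by decide))
    (fun h => absurd (hinj h) (by decide)) (fun h => absurd (hinj h) (by decide))
  obtain ⟨h4, h5, h6⟩ := L2 (ρ 4) (ρ 5) (ρ 6)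
    (by have := hadj 3 4 (by decide); rwa [h3] at this) (hadj 4 5 (by decide))
    (fun h => absurd (hinj (h.trans h3.symm)) (by decide)) (hadj 5 6 (by decide))
    (fun h => absurd (hinj h) (by decide))
  obtain ⟨h2, h0⟩ := L4 (ρ 2) (ρ 0) (by have := hadj 3 2 (by decide); rwa [h3] at this)
    (fun h => absurd (hinj (h.trans h4.symm)) (by decide)) (hadj 2 0 (by decide))
    (fun h => absurd (hinj (h.trans h3.symm)) (by decide))
  have h1 := L5 (ρ 1) (by have := hadj 3 1 (by decide); rwa [h3] at this)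
    (fun h => absurd (hinj (h.trans h4.symm)) (by decide))
    (fun h => absurd (hinj (h.trans h2.symm)) (by decide))
  intro i
  fin_cases i
  · exact h0
  · exact h1
  · exact h2
  · exact h3
  · exact h4
  · exact h5
  · exact h6

/-! ### The outer automorphism group -/

section

variable {F : Type*} [Field F] [Fintype F] {η : ℕ → ℕ → ℤ}

theorem sb_e7_sig (R : BRel chevE7 F η) (β : MulAut ↥(chevE7.group F)) (c : Fin 7 → F)
    (σ : Fin 7 → F →+* F) (hc : ∀ i, c i ≠ 0)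
    (hβ : ∀ i : Fin 7, SbAt R β i i (c i) (σ i)) : ∀ i t, σ i t = σ 0 t := by
  have hD : chevE7 ∈ [chevG2, chevB2, chevD4, chevF4, chevE6, chevE7, chevE8] := by simp
  have hC := cartanFacts_of_mem hD
  have hHD : HDiag chevE7 F := hDiag_of_mem hD
  have hOK := chainOK_of_mem chevE7 hD
  have h02 := R.sb_sigma_eq hHD hOK hC (i := 0) (i' := 2) (by decide) (by decide) (hc 0) (hc 2)
    (hβ 0) (fun t x hx => (hβ 2 t x).2 hx) sb_e7_pairing.1
  have h23 := R.sb_sigma_eq hHD hOK hC (i := 2) (i' := 3) (by decide) (by decide) (hc 2) (hc 3)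
    (hβ 2) (fun t x hx => (hβ 3 t x).2 hx) sb_e7_pairing.2.1
  have h31 := R.sb_sigma_eq hHD hOK hC (i := 3) (i' := 1) (by decide) (by decide) (hc 3) (hc 1)
    (hβ 3) (fun t x hx => (hβ 1 t x).2 hx) sb_e7_pairing.2.2.1
  have h34 := R.sb_sigma_eq hHD hOK hC (i := 3) (i' := 4) (by decide) (by decide) (hc 3) (hc 4)
    (hβ 3) (fun t x hx => (hβ 4 t x).2 hx) sb_e7_pairing.2.2.2.1
  have h45 := R.sb_sigma_eq hHD hOK hC (i := 4) (i' := 5) (by decide) (by decide) (hc 4) (hc 5)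
    (hβ 4) (fun t x hx => (hβ 5 t x).2 hx) sb_e7_pairing.2.2.2.2.1
  have h56 := R.sb_sigma_eq hHD hOK hC (i := 5) (i' := 6) (by decide) (by decide) (hc 5) (hc 6)
    (hβ 5) (fun t x hx => (hβ 6 t x).2 hx) sb_e7_pairing.2.2.2.2.2
  intro i t
  have e2 : σ 2 t = σ 0 t := (h02 t).symm
  have e3 : σ 3 t = σ 0 t := (h23 t).symm.trans e2
  have e1 : σ 1 t = σ 0 t := (h31 t).symm.trans e3
  have e4 : σ 4 t = σ 0 t := (h34 t).symm.trans e3
  have e5 : σ 5 t = σ 0 t := (h45 t).symm.trans e4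
  have e6 : σ 6 t = σ 0 t := (h56 t).symm.trans e5
  fin_cases i
  · rfl
  · exact e1
  · exact e2
  · exact e3
  · exact e4
  · exact e5
  · exact e6

theorem sb_e7_cases (R : BRel chevE7 F η) (β : MulAut ↥(chevE7.group F))
    (hβ : SbNorm chevE7 F β) :
    ∃ (c : Fin 7 → F) (σ : Fin 7 → F →+* F), (∀ i, c i ≠ 0) ∧
      ∀ i : Fin 7, SbAt R β i i (c i) (σ i) := by
  have hD : chevE7 ∈ [chevG2, chevB2, chevD4, chevF4, chevE6, chevE7, chevE8] := by simp
  have hC := cartanFacts_of_mem hD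
  have hRk : ∀ r < chevE7.nroots, RankOne chevE7 r := fun r hr => rankOne_of_mem hD hr
  have hsimple := fun i : Fin 7 =>
    R.sb_norm_simple hC hRk sbTab_E7 sbLong_E7 hβ (i := i.val) i.isLt
  choose ρ hρ c hc σ hσ using hsimple
  have hinjρ : Function.Injective (fun i : Fin 7 => (⟨ρ i, hρ i⟩ : Fin 7)) := by
    intro i i' hii
    by_contra hne
    have hne' : i.val ≠ i'.val := fun h => hne (Fin.ext h)
    have hρeq : ρ i = ρ i' := congrArg Fin.val hii
    refine R.sb_norm_inj sbTab_E7 (α := β) i.isLt i'.isLt hne' (hc i')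
      (σ := σ i) (σ' := σ i') (fun t x hx => ((hσ i t x).1 hx)) (fun t x hx => ?_)
    rw [hρeq]
    exact (hσ i' t x).1 hx
  have hadjρ : ∀ i i' : Fin 7, sbAdjE7 i.val i'.val = true →
      sbAdjE7 ((⟨ρ i, hρ i⟩ : Fin 7)).val ((⟨ρ i', hρ i'⟩ : Fin 7)).val = true := by
    intro i i' hadj
    have hne : i ≠ i' := by
      rintro rfl
      rw [sb_adj_irrefl_E7 i] at hadj
      exact Bool.false_ne_true hadj
    exact R.sb_norm_adjG sbTab_E7 sbAdjG_E7 i.isLt i'.isLt (hρ i) (hρ i')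
      (fun h => hne (hinjρ (Fin.ext h)))
      (fun t x hx => (hσ i t x).1 hx) (fun t x hx => (hσ i' t x).1 hx) hadj
  have hid := sb_e7_rigid (fun i : Fin 7 => (⟨ρ i, hρ i⟩ : Fin 7)) hinjρ hadjρ
  have hid' : ∀ i : Fin 7, ρ i = i.val := fun i => congrArg Fin.val (hid i)
  refine ⟨c, σ, hc, ?_⟩
  intro i t x
  have h := hσ i t x
  rw [hid' i] at h
  exact h

/-- `|Out(E₇(p^f))| = gcd(2, p^f - 1) f`. -/
theorem sb_e7_out_card (p f : ℕ) [Fact p.Prime] [CharP F p] (hF : Fintype.card F = p ^ f) :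
    Nat.card (Cfsg.Out ↥(chevE7.group F)) = Nat.gcd 2 (p ^ f - 1) * f := by
  have hD : chevE7 ∈ [chevG2, chevB2, chevD4, chevF4, chevE6, chevE7, chevE8] := by simp
  have R := bRel_of_mem (F := F) hD
  have h := sb_out_card_rigid p f hF hD R sbLong_E7 (by decide) smithData_E7 sbCoord_E7
    (fun β c σ hc hβ => sb_e7_sig R β c σ hc hβ) (fun β hβ => sb_e7_cases R β hβ)
  rw [h, hF]
  congr 1
  show ((List.range 7).map fun i => Nat.gcd (smithDDE7.getD i 0) (p ^ f - 1)).prod = _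
  simp [List.range_succ, smithDDE7]

end

end Cfsg.Agent.Helper36
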