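import Cfsg.Agent.Helper36.SbM
import Cfsg.Agent.Helper36.GraphSgn

/-!
# Automorphisms of Chevalley groups, XI: a diagram with one symmetry of order two (helper36)

`sb_out_card_flip`: `|Out| = ∏ gcd(d_i, q - 1) · f · 2` when the normalised automorphisms induce the identity or
the symmetry `fl` on the diagram, the latter being realised by a graph automorphism (tables `ρ`, `ε`).
-/

set_option autoImplicit false
set_option linter.unusedSectionVars false
set_option linter.unusedVariables false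

namespace Cfsg.Agent.Helper36

open Cfsg Cfsg.Lie Cfsg.Agent.Helper17

section

variable {D : ChevalleyDatum} {F : Type*} [Field F] [Fintype F] {η : ℕ → ℕ → ℤ} {co : ℕ → ℕ → ℤ}

/-- An automorphism fixing every node of the diagram is diagonal times field. -/
theorem sb_id_diag_frob (p f : ℕ) [Fact p.Prime] [CharP F p] (hF : Fintype.card F = p ^ f)
    (hD : D ∈ [chevG2, chevB2, chevD4, chevF4, chevE6, chevE7, chevE8]) (R : BRel D F η)
    (hco : SbCoord D co) (h0 : 0 < D.rank) (hf0 : 0 < f)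
    (β : MulAut ↥(D.group F)) (c : Fin D.rank → F) (σ : Fin D.rank → F →+* F)
    (hc : ∀ i, c i ≠ 0) (hβ : ∀ i : Fin D.rank, SbAt R β i i (c i) (σ i))
    (hσ : ∀ i t, σ i t = σ ⟨0, h0⟩ t) :
    ∃ (c' : Fin D.rank → Fˣ) (k : Fin f),
      β = sbDiag R.xadd (chainOK_of_mem D hD) hco c' * sbFrob D F p k.val := by
  have hOK := chainOK_of_mem D hD
  obtain ⟨k, hk⟩ := ringHom_eq_frob_pow p (σ ⟨0, h0⟩)
  refine ⟨fun i => (Units.mk0 (c i) (hc i))⁻¹, ⟨k % f, Nat.mod_lt _ hf0⟩, ?_⟩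
  apply R.sb_aut_ext
  intro i hi t x hx
  apply Subtype.ext
  rcases hx with hx | hx
  · rw [(hβ ⟨i, hi⟩ t x).2 hx]
    have e1 := sbFrob_x p R.xadd (k % f) _ t x hx
    show _ = ((sbDiag R.xadd hOK hco _ (sbFrob D F p (k % f) x) : ↥(D.group F)) : GL D.Idx F)
    rw [sbDiag_pos R hOK hco _ ⟨i, hi⟩ _ _ e1, hσ, hk, frob_pow_mod p f hF k t]
    rfl
  · rw [(hβ ⟨i, hi⟩ t x).1 hx]
    have e1 := sbFrob_x p R.xadd (k % f) _ t x hx
    show _ = ((sbDiag R.xadd hOK hco _ (sbFrob D F p (k % f) x) : ↥(D.group F)) : GL D.Idx F)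
    rw [sbDiag_neg R hOK hco _ ⟨i, hi⟩ _ _ e1, hσ, hk, frob_pow_mod p f hF k t]
    simp

/-- `|Out| = ∏ gcd(d_i, q - 1) · f · 2` for a diagram with one symmetry `fl` of order two. -/
theorem sb_out_card_flip (p f : ℕ) [Fact p.Prime] [CharP F p] (hF : Fintype.card F = p ^ f)
    (hD : D ∈ [chevG2, chevB2, chevD4, chevF4, chevE6, chevE7, chevE8]) (R : BRel D F η)
    (T : SbTab D) {L₀ : List ℕ} (hL : SbLong D L₀) (h0 : 0 < D.rank)
    {dd : ℕ → ℕ} (hS : SmithData D dd) (hco : SbCoord D co)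
    (fl : ℕ → ℕ) (hfl : ∀ i < D.rank, fl i < D.rank ∧ fl (fl i) = i) (hfl0 : fl 0 ≠ 0)
    (ρ ρ' : ℕ → ℕ) (ε : ℕ → ℤ) (hOK : ∀ r < D.nroots, gsRootOK D ρ ρ' ε r = true)
    (hpos : ∀ r, D.IsPosRoot r → D.IsPosRoot (ρ r)) (hneg : ∀ r, D.IsNegRoot r → D.IsNegRoot (ρ r))
    (hga : ∀ j < D.rank, ρ (D.simple j) = D.simple (fl j) ∧
      ρ (D.neg (D.simple j)) = D.neg (D.simple (fl j)) ∧
      ε (D.simple j) = 1 ∧ ε (D.neg (D.simple j)) = 1)
    (hsig : ∀ (β : MulAut ↥(D.group F)) (c : Fin D.rank → F) (σ : Fin D.rank → F →+* F),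
      (∀ i, c i ≠ 0) → (∀ i : Fin D.rank, SbAt R β i i (c i) (σ i)) →
        ∀ i t, σ i t = σ ⟨0, h0⟩ t)
    (hcases : ∀ β : MulAut ↥(D.group F), SbNorm D F β →
      ∃ (c : Fin D.rank → F) (σ : Fin D.rank → F →+* F), (∀ i, c i ≠ 0) ∧
        ((∀ i : Fin D.rank, SbAt R β i i (c i) (σ i)) ∨
          (∀ i : Fin D.rank, SbAt R β i (fl i) (c i) (σ i)))) :
    Nat.card (Cfsg.Out ↥(D.group F)) =
      ((List.range D.rank).map fun i => Nat.gcd (dd i) (Fintype.card F - 1)).prod * (f * 2) := by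
  classical
  have hOK' := chainOK_of_mem D hD
  have hT := torusFacts_of_mem hD
  have hHD : HDiag D F := hDiag_of_mem hD
  have hf0 : 0 < f := by
    rcases Nat.eq_zero_or_pos f with h | h
    · rw [h, pow_zero] at hF
      have := Fintype.one_lt_card (α := F)
      omega
    · exact h
  obtain ⟨hP, hidx⟩ := R.sb_sylow p
    (card_posUnipotent_of_mem hD (fun r s hr hs h1 h2 => R.cf r hr s hs h1 h2))
    (diagonalSubgroup_le_torus hHD)
  obtain ⟨γ, hγ⟩ := gs_main hD ρ ρ' ε hOK (K := F)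
  have hγs : ∀ (i : ℕ) (hi : i < D.rank) (t : F) (x : ↥(D.group F)),
      ((x : GL D.Idx F) = xGL R.xadd (D.neg (D.simple i)) t →
        ((γ x : ↥(D.group F)) : GL D.Idx F) = xGL R.xadd (D.neg (D.simple (fl i))) t) ∧
      ((x : GL D.Idx F) = xGL R.xadd (D.simple i) t →
        ((γ x : ↥(D.group F)) : GL D.Idx F) = xGL R.xadd (D.simple (fl i)) t) := by
    intro i hi t x
    obtain ⟨g1, g2, g3, g4⟩ := hga i hi
    have hlt := R.wf.simple_lt i hi
    constructor
    · intro hx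
      have h1 := hγ x _ t (R.wf.neg_lt _ hlt) (by rw [hx, xGL_val])
      rw [g2, g4, Int.cast_one, one_mul] at h1
      exact eq_xGL R.xadd h1
    · intro hx
      have h1 := hγ x _ t hlt (by rw [hx, xGL_val])
      rw [g1, g3, Int.cast_one, one_mul] at h1
      exact eq_xGL R.xadd h1
  have hγn : SbNorm D F γ := by
    apply sb_norm_of_gens R
    · intro g r t hr hg
      have h1 := hγ g r t hr.1 (by rw [hg, xGL_val])
      rw [eq_xGL R.xadd h1]
      exact xGL_mem_posUnipotent _ (hpos r hr) _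
    · intro g r t hr hg
      have h1 := hγ g r t hr.1 (by rw [hg, xGL_val])
      rw [eq_xGL R.xadd h1]
      exact xGL_mem_negUnipotent _ (hneg r hr) _
  have hγ2 : γ * γ = 1 := by
    apply R.sb_aut_ext
    intro i hi t x hx
    apply Subtype.ext
    obtain ⟨hj, hjj⟩ := hfl i hi
    rcases hx with hx | hx
    · have e1 := (hγs i hi t x).2 hx
      have e2 := (hγs (fl i) hj t (γ x)).2 e1
      rw [hjj] at e2
      show ((γ (γ x) : ↥(D.group F)) : GL D.Idx F) = (x : GL D.Idx F)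
      rw [e2, hx]
    · have e1 := (hγs i hi t x).1 hx
      have e2 := (hγs (fl i) hj t (γ x)).1 e1
      rw [hjj] at e2
      show ((γ (γ x) : ↥(D.group F)) : GL D.Idx F) = (x : GL D.Idx F)
      rw [e2, hx]
  have hγinv : γ⁻¹ = γ := inv_eq_of_mul_eq_one_right hγ2
  have h := sb_out_card_trans hD R hco hL hS (ι := Fin f × Fin 2)
    (fun ke => sbFrob D F p ke.1.val * γ ^ ke.2.val) ?_ ?_
  · rw [h, Nat.card_prod, Nat.card_eq_fintype_card, Nat.card_eq_fintype_card, Fintype.card_fin,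
      Fintype.card_fin]
  · intro α
    obtain ⟨g₀, hnorm⟩ := R.sb_exists_norm p hP hidx hL α
    obtain ⟨c, σ, hc, hcase⟩ := hcases _ hnorm
    rcases hcase with hcase | hcase
    · obtain ⟨c', k, hk⟩ := sb_id_diag_frob p f hF hD R hco h0 hf0 _ c σ hc hcase
        (hsig _ c σ hc hcase)
      refine ⟨g₀⁻¹, c', (k, 0), ?_⟩
      simp only [Fin.val_zero, pow_zero, mul_one]
      rw [map_inv, mul_assoc, ← hk]
      group
    · have hcase' : ∀ i : Fin D.rank, SbAt R ((MulAut.conj g₀ * α) * γ) i i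
          (c ⟨fl i, (hfl i i.isLt).1⟩) (σ ⟨fl i, (hfl i i.isLt).1⟩) := by
        intro i t x
        obtain ⟨hj, hjj⟩ := hfl i i.isLt
        constructor
        · intro hx
          have e1 := (hγs i i.isLt t x).1 hx
          have e2 := (hcase ⟨fl i, hj⟩ t (γ x)).1 e1
          simp only [hjj] at e2
          exact e2
        · intro hx
          have e1 := (hγs i i.isLt t x).2 hx
          have e2 := (hcase ⟨fl i, hj⟩ t (γ x)).2 e1
          simp only [hjj] at e2
          exact e2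
      obtain ⟨c', k, hk⟩ := sb_id_diag_frob p f hF hD R hco h0 hf0 _
        (fun i => c ⟨fl i, (hfl i i.isLt).1⟩) (fun i => σ ⟨fl i, (hfl i i.isLt).1⟩)
        (fun i => hc _) hcase' (hsig _ _ _ (fun i => hc _) hcase')
      refine ⟨g₀⁻¹, c', (k, 1), ?_⟩
      have hα : α = (MulAut.conj g₀)⁻¹ *
          (sbDiag R.xadd hOK' hco c' * sbFrob D F p k.val) * γ⁻¹ := by
        rw [← hk]
        group
      rw [hα, hγinv, map_inv]
      simp only [Fin.val_one, pow_one]
      group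
  · rintro ⟨k, e⟩ ⟨k', e'⟩ c g h
    simp only at h
    have hee : e = e' := by
      by_contra hne
      have hγe : γ ^ e.val * (γ ^ e'.val)⁻¹ = γ := by
        have he : (e.val = 0 ∧ e'.val = 1) ∨ (e.val = 1 ∧ e'.val = 0) := by
          have h1 := e.isLt
          have h2 := e'.isLt
          have h3 : e.val ≠ e'.val := fun h => hne (Fin.ext h)
          omega
        rcases he with ⟨h1, h2⟩ | ⟨h1, h2⟩
        · rw [h1, h2, pow_zero, pow_one, one_mul, hγinv]
        · rw [h1, h2, pow_zero, pow_one, inv_one, mul_one]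
      have h' : sbFrob D F p k.val * γ * (sbFrob D F p k'.val)⁻¹ =
          sbDiag R.xadd hOK' hco c * MulAut.conj g := by
        rw [← h]
        have e3 : sbFrob D F p k.val * γ ^ e.val * (sbFrob D F p k'.val * γ ^ e'.val)⁻¹ =
            sbFrob D F p k.val * (γ ^ e.val * (γ ^ e'.val)⁻¹) * (sbFrob D F p k'.val)⁻¹ := by
          group
        rw [e3, hγe]
      have hcg : MulAut.conj g = (sbDiag R.xadd hOK' hco c)⁻¹ *
          (sbFrob D F p k.val * γ * (sbFrob D F p k'.val)⁻¹) := by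
        rw [h']
        group
      have hn : SbNorm D F (MulAut.conj g) := by
        rw [hcg]
        exact (sbDiag_norm R hOK' hco c).inv.mul
          (((sbFrob_norm p k.val).mul hγn).mul (sbFrob_norm p k'.val).inv)
      have hgH : (g : GL D.Idx F) ∈ D.diagonalSubgroup F := by
        apply R.sb_H_char hT hHD hL g.2
        · intro u hu
          exact hn.1 ⟨u, posUnipotent_le_group R.xadd hu⟩ hu
        · intro v hv
          exact hn.2 ⟨v, sb_negUnipotent_le_group R.xadd hv⟩ hv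
      have hlt0 := R.wf.neg_lt _ (R.wf.simple_lt 0 h0)
      obtain ⟨cc, hcc⟩ := R.hx _ hgH _ hlt0
      have h1 := congrArg (fun a : MulAut ↥(D.group F) =>
        ((a (sbFrob D F p k'.val ⟨xGL R.xadd (D.neg (D.simple 0)) 1, xGL_mem_group R.xadd _ _⟩) :
          ↥(D.group F)) : GL D.Idx F)) h'
      simp only [MulAut.mul_apply, MulAut.inv_apply_self] at h1
      have e1 := (hγs 0 h0 1 ⟨xGL R.xadd (D.neg (D.simple 0)) 1, xGL_mem_group R.xadd _ _⟩).1 rfl
      rw [sbFrob_x p R.xadd k.val _ 1 _ e1, one_pow] at h1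
      have h2 : ((MulAut.conj g
          (sbFrob D F p k'.val ⟨xGL R.xadd (D.neg (D.simple 0)) 1, xGL_mem_group R.xadd _ _⟩) :
          ↥(D.group F)) : GL D.Idx F) = xGL R.xadd (D.neg (D.simple 0)) (cc * 1 ^ p ^ k'.val) := by
        show (g : GL D.Idx F) * ((sbFrob D F p k'.val
          ⟨xGL R.xadd (D.neg (D.simple 0)) 1, xGL_mem_group R.xadd _ _⟩ : ↥(D.group F)) :
            GL D.Idx F) * (g : GL D.Idx F)⁻¹ = _
        rw [sbFrob_x p R.xadd k'.val _ 1 _ rfl]
        exact hcc _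
      rw [sbDiag_neg R hOK' hco c ⟨0, h0⟩ _ _ h2] at h1
      exact hfl0 (R.sb_xneg_simple_inj T (hfl 0 h0).1 h0 one_ne_zero h1)
    subst hee
    have h' : sbFrob D F p k.val * (sbFrob D F p k'.val)⁻¹ =
        sbDiag R.xadd hOK' hco c * MulAut.conj g := by
      rw [← h]
      group
    have hkk := sb_frob_diag_eq p f hF hD R hco hL h0 k.isLt k'.isLt c g h'
    exact Prod.ext (Fin.ext hkk) rfl

end

end Cfsg.Agent.Helper36
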