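import Cfsg.Agent.Helper36.SbO
import Cfsg.Agent.Helper36.ChevRcAll

/-!
# Automorphisms of Chevalley groups, XII: the normal form `d ∘ g ∘ f` (helper36)

* `sbCoord_exists`: coordinates of the roots for the seven data;
* `sb_isDiagonalAut_sbDiag`, `sb_isFieldAut_sbFrob`, `sb_isGraphAut_one`;
* `SbForm`: the normal form of a normalised automorphism on the fundamental root elements;
* `sb_form_decomp`: an automorphism in normal form is `d ∘ g ∘ f`;
* `sb_form_id`, `sb_form_signed`, `sb_form_exotic`: the normal form in the three cases.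
-/

set_option autoImplicit false
set_option linter.unusedSectionVars false
set_option linter.unusedVariables false

namespace Cfsg.Agent.Helper36

open Cfsg Cfsg.Lie Cfsg.Agent.Helper17

theorem sbCoord_of_rc {D : ChevalleyDatum} {P : ℕ} (h : RcFacts D (rcZ P D.rank))
    (hs : rcSimpleOK D P = true) : SbCoord D (rcZ P D.rank) := by
  refine ⟨fun i r hi hr => h.neg i hi r hr, ?_, ?_⟩
  · intro i r s k hi hr hs' hk
    unfold ChevalleyDatum.chainRoot at hk
    rw [Option.map_eq_some_iff] at hk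
    obtain ⟨⟨u, c⟩, h1, h2⟩ := hk
    have h3 := h.chain i hi r s 0 u c hr hs' h1
    simp only at h2
    rw [← h2, h3]
    push_cast
    ring
  · intro i j hi hj
    unfold rcSimpleOK at hs
    rw [List.all_eq_true] at hs
    have h1 := hs j (List.mem_range.mpr hj)
    rw [List.all_eq_true] at h1
    have h2 := h1 i (List.mem_range.mpr hi)
    rw [beq_iff_eq] at h2
    unfold rcZ
    rw [h2]
    split_ifs <;> simp

/-- Coordinates of the roots on the fundamental roots, for the seven data. -/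
theorem sbCoord_exists {D : ChevalleyDatum}
    (hD : D ∈ [chevG2, chevB2, chevD4, chevF4, chevE6, chevE7, chevE8]) :
    ∃ co : ℕ → ℕ → ℤ, SbCoord D co := by
  have hD' := hD
  simp only [List.mem_cons, List.not_mem_nil, or_false] at hD'
  rcases hD' with rfl | rfl | rfl | rfl | rfl | rfl | rfl
  · exact ⟨_, sbCoord_of_rc (rcFacts_of_checks chevG2 hD Cfsg.Agent.Helper17.chainPackOK_G2 sgnP_G2
      rcRootP_G2 rcRowP_G2 rcReflP_G2 rcSimpleP_G2) rcSimpleP_G2⟩
  · exact ⟨_, sbCoord_of_rc (rcFacts_of_checks chevB2 hD Cfsg.Agent.Helper17.chainPackOK_B2 sgnP_B2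
      rcRootP_B2 rcRowP_B2 rcReflP_B2 rcSimpleP_B2) rcSimpleP_B2⟩
  · exact ⟨_, sbCoord_of_rc (rcFacts_of_checks chevD4 hD Cfsg.Agent.Helper17.chainPackOK_D4 sgnP_D4
      rcRootP_D4 rcRowP_D4 rcReflP_D4 rcSimpleP_D4) rcSimpleP_D4⟩
  · exact ⟨_, sbCoord_of_rc (rcFacts_of_checks chevF4 hD Cfsg.Agent.Helper17.chainPackOK_F4 sgnP_F4
      rcRootP_F4 rcRowP_F4 rcReflP_F4 rcSimpleP_F4) rcSimpleP_F4⟩
  · exact ⟨_, sbCoord_of_rc (rcFacts_of_checks chevE6 hD Cfsg.Agent.Helper17.chainPackOK_E6 sgnP_E6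
      rcRootP_E6 rcRowP_E6 rcReflP_E6 rcSimpleP_E6) rcSimpleP_E6⟩
  · exact ⟨_, sbCoord_of_rc (rcFacts_of_checks chevE7 hD Cfsg.Agent.Helper17.chainPackOK_E7 sgnP_E7
      rcRootP_E7 rcRowP_E7 rcReflP_E7 rcSimpleP_E7) rcSimpleP_E7⟩
  · exact ⟨_, sbCoord_of_rc (rcFacts_of_checks chevE8 hD Cfsg.Agent.Helper17.chainPackOK_E8 sgnP_E8
      rcRootP_E8 rcRowP_E8 rcReflP_E8 rcSimpleP_E8) rcSimpleP_E8⟩

/-- `β = d ∘ g ∘ f` with `d` diagonal, `g` a graph automorphism and `f` a field automorphism. -/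
def SbDec (D : ChevalleyDatum) (F : Type*) [Field F] (β : MulAut ↥(D.group F)) : Prop :=
  ∃ d g f : MulAut ↥(D.group F), D.IsDiagonalAut d ∧ D.IsGraphAut g ∧ D.IsFieldAut f ∧
    β = d * g * f

section

variable {D : ChevalleyDatum} {F : Type*} [Field F] [Fintype F] {η : ℕ → ℕ → ℤ} {co : ℕ → ℕ → ℤ}

theorem sb_isDiagonalAut_sbDiag (hX : XAdd D F) (hOK : chainOK D = true) (hco : SbCoord D co)
    (c : Fin D.rank → Fˣ) : D.IsDiagonalAut (sbDiag hX hOK hco c) :=
  ⟨mu D.rank co (extOne c), sbChi_isRootCharacter hco _, fun g => rfl⟩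

theorem sb_isFieldAut_sbFrob (p : ℕ) [Fact p.Prime] [CharP F p] (hX : XAdd D F) (k : ℕ) :
    D.IsFieldAut (sbFrob D F p k) := by
  have hinj : Function.Injective (sbFr F p k) := (sbFr F p k).injective
  refine ⟨RingEquiv.ofBijective (sbFr F p k) ⟨hinj, Finite.surjective_of_injective hinj⟩, ?_⟩
  intro g r t hr hg
  rw [sbFrob_x p hX k r t g (eq_xGL hX hg), xGL_val]
  show D.x F r (t ^ p ^ k) = D.x F r (sbFr F p k t)
  rw [sbFr_apply]

theorem sb_isGraphAut (R : BRel D F η) (π : Equiv.Perm (Fin D.rank))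
    (hπ : D.IsDiagramSymmetry π) (γ : MulAut ↥(D.group F))
    (hγ : ∀ (i : Fin D.rank) (t : F) (x : ↥(D.group F)),
      ((x : GL D.Idx F) = xGL R.xadd (D.neg (D.simple i)) t →
        ((γ x : ↥(D.group F)) : GL D.Idx F) =
          xGL R.xadd (D.neg (D.simple (π i))) (t ^ D.graphExp (ringChar F) i (π i))) ∧
      ((x : GL D.Idx F) = xGL R.xadd (D.simple i) t →
        ((γ x : ↥(D.group F)) : GL D.Idx F) =
          xGL R.xadd (D.simple (π i)) (t ^ D.graphExp (ringChar F) i (π i)))) :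
    D.IsGraphAut γ := by
  refine ⟨π, hπ, fun g i t => ⟨fun h => ?_, fun h => ?_⟩⟩
  · rw [(hγ i t g).2 (eq_xGL R.xadd h), xGL_val]
  · rw [(hγ i t g).1 (eq_xGL R.xadd h), xGL_val]

theorem sb_graphExp_self (D : ChevalleyDatum) (c i : ℕ) : D.graphExp c i i = 1 := by
  unfold ChevalleyDatum.graphExp
  simp

theorem sb_isGraphAut_one (R : BRel D F η) : D.IsGraphAut (1 : MulAut ↥(D.group F)) := by
  refine sb_isGraphAut R 1 (fun i j _ => rfl) 1 ?_
  intro i t x
  simp only [Equiv.Perm.coe_one, id_eq, sb_graphExp_self, pow_one, MulAut.one_apply]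
  exact ⟨fun h => h, fun h => h⟩

/-- An automorphism in normal form on the fundamental root elements is `d ∘ g ∘ f`. -/
theorem sb_form_decomp (p : ℕ) [Fact p.Prime] [CharP F p]
    (hD : D ∈ [chevG2, chevB2, chevD4, chevF4, chevE6, chevE7, chevE8]) (R : BRel D F η)
    (hco : SbCoord D co) (π : Equiv.Perm (Fin D.rank)) (hπ : D.IsDiagramSymmetry π)
    (E : Fin D.rank → ℕ) (hE : ∀ i : Fin D.rank, D.graphExp (ringChar F) i (π i) = E i)
    (γ : MulAut ↥(D.group F))
    (hγ : ∀ (i : Fin D.rank) (t : F) (x : ↥(D.group F)),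
      ((x : GL D.Idx F) = xGL R.xadd (D.neg (D.simple i)) t →
        ((γ x : ↥(D.group F)) : GL D.Idx F) = xGL R.xadd (D.neg (D.simple (π i))) (t ^ E i)) ∧
      ((x : GL D.Idx F) = xGL R.xadd (D.simple i) t →
        ((γ x : ↥(D.group F)) : GL D.Idx F) = xGL R.xadd (D.simple (π i)) (t ^ E i)))
    (β : MulAut ↥(D.group F)) (c : Fin D.rank → F) (hc : ∀ i, c i ≠ 0) (k : ℕ)
    (hβ : ∀ (i : Fin D.rank) (t : F) (x : ↥(D.group F)),
      ((x : GL D.Idx F) = xGL R.xadd (D.neg (D.simple i)) t →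
        ((β x : ↥(D.group F)) : GL D.Idx F) =
          xGL R.xadd (D.neg (D.simple (π i))) (c i * (t ^ p ^ k) ^ E i)) ∧
      ((x : GL D.Idx F) = xGL R.xadd (D.simple i) t →
        ((β x : ↥(D.group F)) : GL D.Idx F) =
          xGL R.xadd (D.simple (π i)) ((c i)⁻¹ * (t ^ p ^ k) ^ E i))) :
    SbDec D F β := by
  have hOK := chainOK_of_mem D hD
  refine ⟨sbDiag R.xadd hOK hco (fun j => (Units.mk0 (c (π.symm j)) (hc _))⁻¹), γ,
    sbFrob D F p k, sb_isDiagonalAut_sbDiag _ _ _ _, ?_, sb_isFieldAut_sbFrob p R.xadd k, ?_⟩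
  · apply sb_isGraphAut R π hπ
    intro i t x
    rw [hE i]
    exact hγ i t x
  · apply R.sb_aut_ext
    intro i hi t x hx
    apply Subtype.ext
    rcases hx with hx | hx
    · rw [(hβ ⟨i, hi⟩ t x).2 hx]
      have e1 := sbFrob_x p R.xadd k _ t x hx
      have e2 := (hγ ⟨i, hi⟩ _ _).2 e1
      show _ = ((sbDiag R.xadd hOK hco _ (γ (sbFrob D F p k x)) : ↥(D.group F)) : GL D.Idx F)
      rw [sbDiag_pos R hOK hco _ (π ⟨i, hi⟩) _ _ e2]
      simp
    · rw [(hβ ⟨i, hi⟩ t x).1 hx]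
      have e1 := sbFrob_x p R.xadd k _ t x hx
      have e2 := (hγ ⟨i, hi⟩ _ _).1 e1
      show _ = ((sbDiag R.xadd hOK hco _ (γ (sbFrob D F p k x)) : ↥(D.group F)) : GL D.Idx F)
      rw [sbDiag_neg R hOK hco _ (π ⟨i, hi⟩) _ _ e2]
      simp

/-- The normal form when every node of the diagram is fixed. -/
theorem sb_dec_id (p : ℕ) [Fact p.Prime] [CharP F p]
    (hD : D ∈ [chevG2, chevB2, chevD4, chevF4, chevE6, chevE7, chevE8]) (R : BRel D F η)
    (hco : SbCoord D co) (h0 : 0 < D.rank)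
    (β : MulAut ↥(D.group F)) (c : Fin D.rank → F) (σ : Fin D.rank → F →+* F)
    (hc : ∀ i, c i ≠ 0) (hβ : ∀ i : Fin D.rank, SbAt R β i i (c i) (σ i))
    (hσ : ∀ i t, σ i t = σ ⟨0, h0⟩ t) : SbDec D F β := by
  obtain ⟨k, hk⟩ := ringHom_eq_frob_pow p (σ ⟨0, h0⟩)
  refine sb_form_decomp p hD R hco 1 (fun i j _ => rfl) (fun _ => 1)
    (fun i => sb_graphExp_self D _ _) 1 ?_ β c hc k ?_
  · intro i t x
    simp only [Equiv.Perm.coe_one, id_eq, pow_one, MulAut.one_apply]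
    exact ⟨fun h => h, fun h => h⟩
  · intro i t x
    simp only [Equiv.Perm.coe_one, id_eq, pow_one]
    have h := hβ i t x
    rw [hσ i t, hk t] at h
    exact h

/-- The normal form when the diagram is moved by a symmetry realised by a graph automorphism with
signs (one root length). -/
theorem sb_dec_signed (p : ℕ) [Fact p.Prime] [CharP F p]
    (hD : D ∈ [chevG2, chevB2, chevD4, chevF4, chevE6, chevE7, chevE8]) (R : BRel D F η)
    (hco : SbCoord D co) (h0 : 0 < D.rank)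
    (π : Equiv.Perm (Fin D.rank)) (hπ : D.IsDiagramSymmetry π)
    (hE : ∀ i : Fin D.rank, D.graphExp (ringChar F) i (π i) = 1)
    (ρ ρ' : ℕ → ℕ) (ε : ℕ → ℤ) (hOK : ∀ r < D.nroots, gsRootOK D ρ ρ' ε r = true)
    (hga : ∀ j : Fin D.rank, ρ (D.simple j) = D.simple (π j) ∧
      ρ (D.neg (D.simple j)) = D.neg (D.simple (π j)) ∧
      ε (D.simple j) = 1 ∧ ε (D.neg (D.simple j)) = 1)
    (hsig : ∀ (β : MulAut ↥(D.group F)) (c : Fin D.rank → F) (σ : Fin D.rank → F →+* F),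
      (∀ i, c i ≠ 0) → (∀ i : Fin D.rank, SbAt R β i i (c i) (σ i)) →
        ∀ i t, σ i t = σ ⟨0, h0⟩ t)
    (β : MulAut ↥(D.group F)) (c : Fin D.rank → F) (σ : Fin D.rank → F →+* F)
    (hc : ∀ i, c i ≠ 0) (hβ : ∀ i : Fin D.rank, SbAt R β i (π i) (c i) (σ i)) :
    SbDec D F β := by
  obtain ⟨γ, hγ⟩ := gs_main hD ρ ρ' ε hOK (K := F)
  have hγs : ∀ (i : Fin D.rank) (t : F) (x : ↥(D.group F)),
      ((x : GL D.Idx F) = xGL R.xadd (D.neg (D.simple i)) t →
        ((γ x : ↥(D.group F)) : GL D.Idx F) = xGL R.xadd (D.neg (D.simple (π i))) t) ∧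
      ((x : GL D.Idx F) = xGL R.xadd (D.simple i) t →
        ((γ x : ↥(D.group F)) : GL D.Idx F) = xGL R.xadd (D.simple (π i)) t) := by
    intro i t x
    obtain ⟨g1, g2, g3, g4⟩ := hga i
    have hlt := R.wf.simple_lt i i.isLt
    constructor
    · intro hx
      have h1 := hγ x _ t (R.wf.neg_lt _ hlt) (by rw [hx, xGL_val])
      rw [g2, g4, Int.cast_one, one_mul] at h1
      exact eq_xGL R.xadd h1
    · intro hx
      have h1 := hγ x _ t hlt (by rw [hx, xGL_val])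
      rw [g1, g3, Int.cast_one, one_mul] at h1
      exact eq_xGL R.xadd h1
  have hid : ∀ i : Fin D.rank, SbAt R (γ⁻¹ * β) i i (c i) (σ i) := by
    intro i t x
    constructor
    · intro hx
      have e1 : β x = γ ⟨xGL R.xadd (D.neg (D.simple i)) (c i * σ i t),
          xGL_mem_group R.xadd _ _⟩ := by
        apply Subtype.ext
        rw [(hβ i t x).1 hx, (hγs i _ _).1 rfl]
      show ((γ⁻¹ (β x) : ↥(D.group F)) : GL D.Idx F) = _
      rw [e1, MulAut.inv_apply_self]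
    · intro hx
      have e1 : β x = γ ⟨xGL R.xadd (D.simple i) ((c i)⁻¹ * σ i t),
          xGL_mem_group R.xadd _ _⟩ := by
        apply Subtype.ext
        rw [(hβ i t x).2 hx, (hγs i _ _).2 rfl]
      show ((γ⁻¹ (β x) : ↥(D.group F)) : GL D.Idx F) = _
      rw [e1, MulAut.inv_apply_self]
  have hσ := hsig _ c σ hc hid
  obtain ⟨k, hk⟩ := ringHom_eq_frob_pow p (σ ⟨0, h0⟩)
  refine sb_form_decomp p hD R hco π hπ (fun _ => 1) hE γ ?_ β c hc k ?_
  · intro i t x
    simp only [pow_one]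
    exact hγs i t x
  · intro i t x
    simp only [pow_one]
    have h := hβ i t x
    rw [hσ i t, hk t] at h
    exact h

/-- The normal form when the diagram is moved by the symmetry realised by the exceptional graph
automorphism (two root lengths, characteristic `p`). -/
theorem sb_dec_exotic (p f : ℕ) [Fact p.Prime] [CharP F p] (hF : Fintype.card F = p ^ f)
    (hD : D ∈ [chevG2, chevB2, chevD4, chevF4, chevE6, chevE7, chevE8]) (R : BRel D F η)
    (hco : SbCoord D co) (h0 : 0 < D.rank)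
    (π : Equiv.Perm (Fin D.rank)) (hπ : D.IsDiagramSymmetry π) (hπ2 : ∀ i, π (π i) = i)
    (e : ℕ → ℕ) (he : ∀ i : Fin D.rank, e i + e (π i) = 1)
    (hE : ∀ i : Fin D.rank, D.graphExp p i (π i) = p ^ e i)
    (ρ lam : ℕ → ℕ) (hOK : ∀ r < D.nroots, gaRootOK D p ρ lam r = true)
    (hga : ∀ j : Fin D.rank, ρ (D.simple j) = D.simple (π j) ∧
      ρ (D.neg (D.simple j)) = D.neg (D.simple (π j)) ∧
      lam (D.simple j) = p ^ e j ∧ lam (D.neg (D.simple j)) = p ^ e j)
    (hsig : ∀ (β : MulAut ↥(D.group F)) (c : Fin D.rank → F) (σ : Fin D.rank → F →+* F),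
      (∀ i, c i ≠ 0) → (∀ i : Fin D.rank, SbAt R β i i (c i) (σ i)) →
        ∀ i t, σ i t = σ ⟨0, h0⟩ t)
    (β : MulAut ↥(D.group F)) (c : Fin D.rank → F) (σ : Fin D.rank → F →+* F)
    (hc : ∀ i, c i ≠ 0) (hβ : ∀ i : Fin D.rank, SbAt R β i (π i) (c i) (σ i)) :
    SbDec D F β := by
  have hf0 : 0 < f := by
    rcases Nat.eq_zero_or_pos f with h | h
    · rw [h, pow_zero] at hF
      have := Fintype.one_lt_card (α := F)
      omega
    · exact h
  have hperf : ∀ x : F, ∃ y : F, y ^ p = x := by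
    intro x
    obtain ⟨y, hy⟩ := Finite.surjective_of_injective (frobenius_inj F p) x
    exact ⟨y, hy⟩
  obtain ⟨γ, hγ⟩ := ga_main p hD hperf ρ lam hOK
  have hγs : ∀ (i : Fin D.rank) (t : F) (x : ↥(D.group F)),
      ((x : GL D.Idx F) = xGL R.xadd (D.neg (D.simple i)) t →
        ((γ x : ↥(D.group F)) : GL D.Idx F) =
          xGL R.xadd (D.neg (D.simple (π i))) (t ^ p ^ e i)) ∧
      ((x : GL D.Idx F) = xGL R.xadd (D.simple i) t →
        ((γ x : ↥(D.group F)) : GL D.Idx F) = xGL R.xadd (D.simple (π i)) (t ^ p ^ e i)) := by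
    intro i t x
    obtain ⟨g1, g2, g3, g4⟩ := hga i
    have hlt := R.wf.simple_lt i i.isLt
    constructor
    · intro hx
      have h1 := hγ x _ t (R.wf.neg_lt _ hlt) (by rw [hx, xGL_val])
      rw [g2, g4] at h1
      exact eq_xGL R.xadd h1
    · intro hx
      have h1 := hγ x _ t hlt (by rw [hx, xGL_val])
      rw [g1, g3] at h1
      exact eq_xGL R.xadd h1
  have hid : ∀ i : Fin D.rank, SbAt R (γ * β) i i (c i ^ p ^ e (π i))
      ((sbFr F p (e (π i))).comp (σ i)) := by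
    intro i
    obtain ⟨g1, g2, g3, g4⟩ := hga (π i)
    rw [hπ2 i] at g1 g2
    exact sb_ga_comp p R hγ (π i).isLt g1 g2 g3 g4 (hβ i)
  have hσ := hsig _ (fun i => c i ^ p ^ e (π i)) (fun i => (sbFr F p (e (π i))).comp (σ i))
    (fun i => pow_ne_zero _ (hc i)) hid
  obtain ⟨k', hk'⟩ := ringHom_eq_frob_pow p
    ((sbFr F p (e (π ⟨0, h0⟩))).comp (σ ⟨0, h0⟩))
  have hq : ∀ t : F, t ^ p ^ f = t := by
    intro t
    rw [← hF]
    exact FiniteField.pow_card t
  have hσ' : ∀ (i : Fin D.rank) (t : F), σ i t = (t ^ p ^ (k' + (f - 1))) ^ p ^ e i := by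
    intro i t
    apply (sbFr F p (e (π i))).injective
    have h1 := hσ i t
    rw [hk' t] at h1
    simp only [RingHom.comp_apply] at h1
    rw [h1, sbFr_apply, ← pow_mul, ← pow_mul, ← pow_add, ← pow_add]
    have h2 : k' + (f - 1) + (e i + e (π i)) = f + k' := by
      have := he i
      omega
    rw [h2, pow_add, pow_mul, hq]
  refine sb_form_decomp p hD R hco π hπ (fun i => p ^ e i) ?_ γ hγs β c hc (k' + (f - 1)) ?_
  · intro i
    rw [ringChar.eq F p]
    exact hE i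
  · intro i t x
    have h := hβ i t x
    rw [hσ' i t] at h
    exact h

/-- Every automorphism is `x ↦ g (d (g' (f x))) g⁻¹`, given the normal form of the normalised ones. -/
theorem sb_aut_decomp (p : ℕ) [Fact p.Prime] [CharP F p]
    (hD : D ∈ [chevG2, chevB2, chevD4, chevF4, chevE6, chevE7, chevE8]) (R : BRel D F η)
    {L₀ : List ℕ} (hL : SbLong D L₀)
    (hform : ∀ β : MulAut ↥(D.group F), SbNorm D F β → SbDec D F β)
    (θ : ↥(D.group F) ≃* ↥(D.group F)) :
    ∃ (x : ↥(D.group F)) (d g f : ↥(D.group F) ≃* ↥(D.group F)),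
      D.IsDiagonalAut d ∧ D.IsGraphAut g ∧ D.IsFieldAut f ∧
        ∀ y : ↥(D.group F), θ y = x * d (g (f y)) * x⁻¹ := by
  have hHD : HDiag D F := hDiag_of_mem hD
  obtain ⟨hP, hidx⟩ := R.sb_sylow p
    (card_posUnipotent_of_mem hD (fun r s hr hs h1 h2 => R.cf r hr s hs h1 h2))
    (diagonalSubgroup_le_torus hHD)
  obtain ⟨g₀, hnorm⟩ := R.sb_exists_norm p hP hidx hL θ
  obtain ⟨d, g, f, hd, hg, hf, heq⟩ := hform _ hnorm
  refine ⟨g₀⁻¹, d, g, f, hd, hg, hf, ?_⟩
  intro y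
  have h1 : (MulAut.conj g₀ * θ) y = (d * g * f) y := by rw [heq]
  have h2 : g₀ * θ y * g₀⁻¹ = d (g (f y)) := h1
  rw [← h2]
  group

end

end Cfsg.Agent.Helper36
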