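import Cfsg.Agent.Helper36.SbQ

/-!
# Automorphisms of Chevalley groups, XIII: the permutation of the diagram (helper36)

* `sbPerm`: the permutation of `Fin n` given by a function on `ℕ`;
* `SbData R β π`: `β` is normalised and moves the fundamental root subgroups by `π`;
  existence, uniqueness, products, inverses, inner automorphisms;
* `SbType R α π`: the same up to an inner automorphism.
-/

set_option autoImplicit false
set_option linter.unusedSectionVars false
set_option linter.unusedVariables false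

namespace Cfsg.Agent.Helper36

open Cfsg Cfsg.Lie Cfsg.Agent.Helper17

/-- The permutation of `Fin n` given by a function on `ℕ` with an inverse. -/
def sbPerm (n : ℕ) (fl fl' : ℕ → ℕ)
    (h : ∀ i < n, fl i < n ∧ fl' i < n ∧ fl' (fl i) = i ∧ fl (fl' i) = i) : Equiv.Perm (Fin n) where
  toFun i := ⟨fl i.val, (h i.val i.isLt).1⟩
  invFun i := ⟨fl' i.val, (h i.val i.isLt).2.1⟩
  left_inv i := Fin.ext (h i.val i.isLt).2.2.1
  right_inv i := Fin.ext (h i.val i.isLt).2.2.2

theorem sbPerm_val (n : ℕ) (fl fl' : ℕ → ℕ)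
    (h : ∀ i < n, fl i < n ∧ fl' i < n ∧ fl' (fl i) = i ∧ fl (fl' i) = i) (i : Fin n) :
    (sbPerm n fl fl' h i).val = fl i.val := rfl

theorem sbPerm_sym (D : ChevalleyDatum) (fl fl' : ℕ → ℕ)
    (h : ∀ i < D.rank, fl i < D.rank ∧ fl' i < D.rank ∧ fl' (fl i) = i ∧ fl (fl' i) = i)
    (hb : ∀ i < D.rank, ∀ j < D.rank, D.bonds (fl i) (fl j) = D.bonds i j) :
    D.IsDiagramSymmetry (sbPerm D.rank fl fl' h) :=
  fun i j _ => hb i.val i.isLt j.val j.isLt

theorem sb_graphExp_short (D : ChevalleyDatum) (c : ℕ) {i j : ℕ}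
    (hj : D.isLong (D.simple j) = false) : D.graphExp c i j = 1 := by
  unfold ChevalleyDatum.graphExp
  rw [hj]
  simp

section

variable {D : ChevalleyDatum} {F : Type*} [Field F] [Fintype F] {η : ℕ → ℕ → ℤ} {co : ℕ → ℕ → ℤ}

/-- `β` is normalised and moves the fundamental root subgroups by the permutation `π`. -/
def SbData (R : BRel D F η) (β : MulAut ↥(D.group F)) (π : Equiv.Perm (Fin D.rank)) : Prop :=
  SbNorm D F β ∧ ∃ (c : Fin D.rank → F) (σ : Fin D.rank → F →+* F), (∀ i, c i ≠ 0) ∧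
    ∀ i : Fin D.rank, SbAt R β i (π i) (c i) (σ i)

theorem sb_data_exists (hD : D ∈ [chevG2, chevB2, chevD4, chevF4, chevE6, chevE7, chevE8])
    (R : BRel D F η) (T : SbTab D) {L₀ : List ℕ} (hL : SbLong D L₀)
    {β : MulAut ↥(D.group F)} (hβ : SbNorm D F β) : ∃ π, SbData R β π := by
  have hC := cartanFacts_of_mem hD
  have hRk : ∀ r < D.nroots, RankOne D r := fun r hr => rankOne_of_mem hD hr
  have hsimple := fun i : Fin D.rank => R.sb_norm_simple hC hRk T hL hβ (i := i.val) i.isLt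
  choose ρ hρ c hc σ hσ using hsimple
  have hinjρ : Function.Injective (fun i : Fin D.rank => (⟨ρ i, hρ i⟩ : Fin D.rank)) := by
    intro i i' hii
    by_contra hne
    have hne' : i.val ≠ i'.val := fun h => hne (Fin.ext h)
    have hρeq : ρ i = ρ i' := congrArg Fin.val hii
    refine R.sb_norm_inj T (α := β) i.isLt i'.isLt hne' (hc i')
      (σ := σ i) (σ' := σ i') (fun t x hx => ((hσ i t x).1 hx)) (fun t x hx => ?_)
    rw [hρeq]
    exact (hσ i' t x).1 hx
  refine ⟨Equiv.ofBijective _ (Finite.injective_iff_bijective.mp hinjρ), hβ, c, σ, hc, ?_⟩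
  intro i
  exact hσ i

theorem sb_data_unique (R : BRel D F η) (T : SbTab D) {β : MulAut ↥(D.group F)}
    {π π' : Equiv.Perm (Fin D.rank)} (h : SbData R β π) (h' : SbData R β π') : π = π' := by
  obtain ⟨-, c, σ, hc, hσ⟩ := h
  obtain ⟨-, c', σ', hc', hσ'⟩ := h'
  apply Equiv.ext
  intro i
  apply Fin.ext
  have e1 := (hσ i 1 ⟨_, xGL_mem_group R.xadd _ _⟩).1 rfl
  have e2 := (hσ' i 1 ⟨_, xGL_mem_group R.xadd _ _⟩).1 rfl
  rw [map_one, mul_one] at e1 e2
  exact R.sb_xneg_simple_inj T (π i).isLt (π' i).isLt (hc i) (e1.symm.trans e2)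

theorem sb_data_one (R : BRel D F η) : SbData R (1 : MulAut ↥(D.group F)) 1 := by
  refine ⟨⟨fun g hg => hg, fun g hg => hg⟩, fun _ => 1, fun _ => RingHom.id F,
    fun _ => one_ne_zero, ?_⟩
  intro i t x
  simp only [Equiv.Perm.coe_one, id_eq, MulAut.one_apply, RingHom.id_apply, one_mul, inv_one]
  exact ⟨fun h => h, fun h => h⟩

theorem SbData.mul {R : BRel D F η} {β β' : MulAut ↥(D.group F)}
    {π π' : Equiv.Perm (Fin D.rank)} (h : SbData R β π) (h' : SbData R β' π') :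
    SbData R (β * β') (π * π') := by
  obtain ⟨hn, c, σ, hc, hσ⟩ := h
  obtain ⟨hn', c', σ', hc', hσ'⟩ := h'
  refine ⟨hn.mul hn', fun i => c (π' i) * σ (π' i) (c' i), fun i => (σ (π' i)).comp (σ' i),
    fun i => mul_ne_zero (hc _) ((map_ne_zero _).mpr (hc' i)), ?_⟩
  intro i t x
  constructor
  · intro hx
    have e1 := (hσ' i t x).1 hx
    have e2 := (hσ (π' i) _ (β' x)).1 e1
    show ((β (β' x) : ↥(D.group F)) : GL D.Idx F) = _
    rw [e2, Equiv.Perm.mul_apply, RingHom.comp_apply, map_mul, mul_assoc]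
  · intro hx
    have e1 := (hσ' i t x).2 hx
    have e2 := (hσ (π' i) _ (β' x)).2 e1
    show ((β (β' x) : ↥(D.group F)) : GL D.Idx F) = _
    rw [e2, Equiv.Perm.mul_apply, RingHom.comp_apply, map_mul, map_inv₀, mul_inv, mul_assoc]

theorem SbData.inv (hD : D ∈ [chevG2, chevB2, chevD4, chevF4, chevE6, chevE7, chevE8])
    {R : BRel D F η} (T : SbTab D) {L₀ : List ℕ} (hL : SbLong D L₀)
    {β : MulAut ↥(D.group F)} {π : Equiv.Perm (Fin D.rank)} (h : SbData R β π) :
    SbData R β⁻¹ π⁻¹ := by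
  obtain ⟨π', h'⟩ := sb_data_exists hD R T hL (SbNorm.inv h.1)
  have h1 := h.mul h'
  rw [mul_inv_cancel] at h1
  have h2 := sb_data_unique R T h1 (sb_data_one R)
  have h3 : π' = π⁻¹ := eq_inv_of_mul_eq_one_right h2
  rw [← h3]
  exact h'

/-- A normalised inner automorphism fixes every node of the diagram. -/
theorem sb_data_conj (hD : D ∈ [chevG2, chevB2, chevD4, chevF4, chevE6, chevE7, chevE8])
    (R : BRel D F η) (T : SbTab D) {L₀ : List ℕ} (hL : SbLong D L₀) {g : ↥(D.group F)}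
    {π : Equiv.Perm (Fin D.rank)} (h : SbData R (MulAut.conj g) π) : π = 1 := by
  have hT := torusFacts_of_mem hD
  have hHD : HDiag D F := hDiag_of_mem hD
  obtain ⟨hn, c, σ, hc, hσ⟩ := h
  have hgH : (g : GL D.Idx F) ∈ D.diagonalSubgroup F := by
    apply R.sb_H_char hT hHD hL g.2
    · intro u hu
      exact hn.1 ⟨u, posUnipotent_le_group R.xadd hu⟩ hu
    · intro v hv
      exact hn.2 ⟨v, sb_negUnipotent_le_group R.xadd hv⟩ hv
  apply Equiv.ext
  intro i
  apply Fin.ext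
  have hlt := R.wf.neg_lt _ (R.wf.simple_lt i i.isLt)
  obtain ⟨cc, hcc⟩ := R.hx _ hgH _ hlt
  have e1 := (hσ i 1 ⟨_, xGL_mem_group R.xadd _ _⟩).1 rfl
  have e2 : ((MulAut.conj g ⟨xGL R.xadd (D.neg (D.simple i)) 1, xGL_mem_group R.xadd _ _⟩ :
      ↥(D.group F)) : GL D.Idx F) = xGL R.xadd (D.neg (D.simple i)) (cc * 1) := hcc 1
  rw [e2, map_one, mul_one, mul_one] at e1
  show ((π i : Fin D.rank) : ℕ) = (i : ℕ)
  exact R.sb_xneg_simple_inj T (π i).isLt i.isLt (hc i) e1.symm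

/-- `α` moves the nodes of the diagram by `π`, up to an inner automorphism. -/
def SbType (R : BRel D F η) (α : MulAut ↥(D.group F)) (π : Equiv.Perm (Fin D.rank)) : Prop :=
  ∃ g : ↥(D.group F), SbData R (MulAut.conj g * α) π

theorem sb_type_exists (p : ℕ) [Fact p.Prime] [CharP F p]
    (hD : D ∈ [chevG2, chevB2, chevD4, chevF4, chevE6, chevE7, chevE8])
    (R : BRel D F η) (T : SbTab D) {L₀ : List ℕ} (hL : SbLong D L₀)
    (α : MulAut ↥(D.group F)) : ∃ π, SbType R α π := by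
  have hHD : HDiag D F := hDiag_of_mem hD
  obtain ⟨hP, hidx⟩ := R.sb_sylow p
    (card_posUnipotent_of_mem hD (fun r s hr hs h1 h2 => R.cf r hr s hs h1 h2))
    (diagonalSubgroup_le_torus hHD)
  obtain ⟨g₀, hnorm⟩ := R.sb_exists_norm p hP hidx hL α
  obtain ⟨π, hπ⟩ := sb_data_exists hD R T hL hnorm
  exact ⟨π, g₀, hπ⟩

theorem SbType.mul {R : BRel D F η} {α α' : MulAut ↥(D.group F)}
    {π π' : Equiv.Perm (Fin D.rank)} (h : SbType R α π) (h' : SbType R α' π') :
    SbType R (α * α') (π * π') := by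
  obtain ⟨g, hg⟩ := h
  obtain ⟨g', hg'⟩ := h'
  refine ⟨g * α g', ?_⟩
  have e : MulAut.conj (g * α g') * (α * α') = (MulAut.conj g * α) * (MulAut.conj g' * α') := by
    apply MulEquiv.ext
    intro y
    simp only [MulAut.mul_apply, MulAut.conj_apply, map_mul, map_inv, mul_inv_rev, mul_assoc]
  rw [e]
  exact hg.mul hg'

theorem sb_type_one (R : BRel D F η) : SbType R (1 : MulAut ↥(D.group F)) 1 := by
  refine ⟨1, ?_⟩
  rw [map_one, one_mul]
  exact sb_data_one R

theorem sb_type_conj (R : BRel D F η) (g : ↥(D.group F)) : SbType R (MulAut.conj g) 1 := by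
  refine ⟨g⁻¹, ?_⟩
  rw [← map_mul, inv_mul_cancel, map_one]
  exact sb_data_one R

theorem sb_type_unique (hD : D ∈ [chevG2, chevB2, chevD4, chevF4, chevE6, chevE7, chevE8])
    (R : BRel D F η) (T : SbTab D) {L₀ : List ℕ} (hL : SbLong D L₀)
    {α : MulAut ↥(D.group F)} {π π' : Equiv.Perm (Fin D.rank)} (h : SbType R α π)
    (h' : SbType R α π') : π = π' := by
  obtain ⟨g, hg⟩ := h
  obtain ⟨g', hg'⟩ := h'
  have h1 := hg'.mul (hg.inv hD T hL)
  have e : (MulAut.conj g' * α) * (MulAut.conj g * α)⁻¹ = MulAut.conj (g' * g⁻¹) := by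
    rw [mul_inv_rev, mul_assoc, ← mul_assoc α, mul_inv_cancel, one_mul, map_mul, map_inv]
  rw [e] at h1
  have h2 := sb_data_conj hD R T hL h1
  exact (mul_inv_eq_one.mp h2).symm

theorem SbType.inv (p : ℕ) [Fact p.Prime] [CharP F p]
    (hD : D ∈ [chevG2, chevB2, chevD4, chevF4, chevE6, chevE7, chevE8])
    {R : BRel D F η} (T : SbTab D) {L₀ : List ℕ} (hL : SbLong D L₀)
    {α : MulAut ↥(D.group F)} {π : Equiv.Perm (Fin D.rank)} (h : SbType R α π) :
    SbType R α⁻¹ π⁻¹ := by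
  obtain ⟨π', h'⟩ := sb_type_exists p hD R T hL α⁻¹
  have h1 := h.mul h'
  rw [mul_inv_cancel] at h1
  have h2 := sb_type_unique hD R T hL h1 (sb_type_one R)
  have h3 : π' = π⁻¹ := eq_inv_of_mul_eq_one_right h2
  rw [← h3]
  exact h'

end

end Cfsg.Agent.Helper36
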