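import Cfsg.Agent.Helper36.SbR
import Cfsg.Agent.Helper36.SbJ
import Cfsg.Agent.Helper36.SbK
import Cfsg.Agent.Helper36.SbN
import Cfsg.Agent.Helper36.SbP

/-!
# Automorphisms of Chevalley groups, XIV: the normal form for `E₆`, `E₇`, `E₈`, `F₄`, `G₂` (helper36)

For each type: `sb_x_types` (the permutations of the diagram induced by normalised automorphisms) and
`sb_x_form` (every normalised automorphism is `d ∘ g ∘ f`).
-/

set_option autoImplicit false
set_option linter.unusedSectionVars false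
set_option linter.unusedVariables false

namespace Cfsg.Agent.Helper36

open Cfsg Cfsg.Lie Cfsg.Agent.Helper17

/-! ### Tables -/

/-- The symmetry of the diagram of `E₆`. -/
def sbPermE6 : Equiv.Perm (Fin chevE6.rank) := sbPerm chevE6.rank sbFlE6 sbFlE6 (by decide)

theorem sb_e6_short : ∀ j < chevE6.rank, chevE6.isLong (chevE6.simple j) = false := by
  decide +kernel

theorem sb_e6_bonds : ∀ i < chevE6.rank, ∀ j < chevE6.rank,
    chevE6.bonds (sbFlE6 i) (sbFlE6 j) = chevE6.bonds i j := by decide +kernel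

/-- The symmetry of the diagram of `F₄`. -/
def sbPermF4 : Equiv.Perm (Fin chevF4.rank) :=
  sbPerm chevF4.rank (fun i => 3 - i) (fun i => 3 - i) (by decide)

theorem sb_f4_bonds : ∀ i < chevF4.rank, ∀ j < chevF4.rank,
    chevF4.bonds (3 - i) (3 - j) = chevF4.bonds i j := by decide +kernel

theorem sb_f4_gexp : ∀ i < chevF4.rank,
    chevF4.graphExp 2 i (3 - i) = 2 ^ ([1, 1, 0, 0] : List ℕ).getD i 0 := by decide +kernel

theorem sb_f4_esum : ∀ i < chevF4.rank,
    ([1, 1, 0, 0] : List ℕ).getD i 0 + ([1, 1, 0, 0] : List ℕ).getD (3 - i) 0 = 1 := by decide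

/-- The symmetry of the diagram of `G₂`. -/
def sbPermG2 : Equiv.Perm (Fin chevG2.rank) :=
  sbPerm chevG2.rank (fun i => 1 - i) (fun i => 1 - i) (by decide)

theorem sb_g2_bonds : ∀ i < chevG2.rank, ∀ j < chevG2.rank,
    chevG2.bonds (1 - i) (1 - j) = chevG2.bonds i j := by decide +kernel

theorem sb_g2_gexp : ∀ i < chevG2.rank,
    chevG2.graphExp 3 i (1 - i) = 3 ^ ([1, 0] : List ℕ).getD i 0 := by decide +kernel

theorem sb_g2_esum : ∀ i < chevG2.rank,
    ([1, 0] : List ℕ).getD i 0 + ([1, 0] : List ℕ).getD (1 - i) 0 = 1 := by decide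

theorem sb_g2_comm_tab :
    chevG2.commTerms (chevG2.simple 1)
      (chevG2.reflectRoot 1 (chevG2.reflectRoot 0 (chevG2.simple 1))) = [] ∧
    chevG2.commTerms (chevG2.simple 0)
      (chevG2.reflectRoot 0 (chevG2.reflectRoot 1 (chevG2.simple 0))) = [(10, 3, 1, 1)] ∧
    chevG2.reflectRoot 1 (chevG2.reflectRoot 0 (chevG2.simple 1)) ≠ chevG2.simple 1 ∧
    chevG2.reflectRoot 1 (chevG2.reflectRoot 0 (chevG2.simple 1)) ≠
      chevG2.neg (chevG2.simple 1) ∧
    chevG2.reflectRoot 0 (chevG2.reflectRoot 1 (chevG2.simple 0)) ≠ chevG2.simple 0 ∧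
    chevG2.reflectRoot 0 (chevG2.reflectRoot 1 (chevG2.simple 0)) ≠
      chevG2.neg (chevG2.simple 0) := by decide +kernel

theorem sb_e8_pairing : chevE8.pairing (chevE8.simple 0) (chevE8.simple 2) = -1 ∧
    chevE8.pairing (chevE8.simple 2) (chevE8.simple 3) = -1 ∧
    chevE8.pairing (chevE8.simple 3) (chevE8.simple 1) = -1 ∧
    chevE8.pairing (chevE8.simple 3) (chevE8.simple 4) = -1 ∧
    chevE8.pairing (chevE8.simple 4) (chevE8.simple 5) = -1 ∧
    chevE8.pairing (chevE8.simple 5) (chevE8.simple 6) = -1 ∧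
    chevE8.pairing (chevE8.simple 6) (chevE8.simple 7) = -1 := by decide +kernel

section

variable {F : Type*} [Field F] [Fintype F] {η : ℕ → ℕ → ℤ}

/-! ### `E₇` -/

theorem sb_e7_types (R : BRel chevE7 F η) {β : MulAut ↥(chevE7.group F)}
    {π : Equiv.Perm (Fin chevE7.rank)} (h : SbData R β π) : π = 1 := by
  obtain ⟨c, σ, hc, hid⟩ := sb_e7_cases R β h.1
  exact sb_data_unique R sbTab_E7 h ⟨h.1, c, σ, hc, hid⟩

theorem sb_e7_form (p : ℕ) [Fact p.Prime] [CharP F p] (β : MulAut ↥(chevE7.group F))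
    (hβ : SbNorm chevE7 F β) : SbDec chevE7 F β := by
  have hD : chevE7 ∈ [chevG2, chevB2, chevD4, chevF4, chevE6, chevE7, chevE8] := by simp
  have R := bRel_of_mem (F := F) hD
  obtain ⟨c, σ, hc, h⟩ := sb_e7_cases R β hβ
  exact sb_dec_id p hD R sbCoord_E7 (by decide) β c σ hc h (sb_e7_sig R β c σ hc h)

/-! ### `E₆` -/

theorem sb_e6_types (R : BRel chevE6 F η) {β : MulAut ↥(chevE6.group F)}
    {π : Equiv.Perm (Fin chevE6.rank)} (h : SbData R β π) : π = 1 ∨ π = sbPermE6 := by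
  obtain ⟨c, σ, hc, hcase⟩ := sb_e6_cases R β h.1
  rcases hcase with hid | hfl
  · left
    exact sb_data_unique R sbTab_E6 h ⟨h.1, c, σ, hc, hid⟩
  · right
    exact sb_data_unique R sbTab_E6 h ⟨h.1, c, σ, hc, hfl⟩

theorem sb_e6_form (p : ℕ) [Fact p.Prime] [CharP F p] (β : MulAut ↥(chevE6.group F))
    (hβ : SbNorm chevE6 F β) : SbDec chevE6 F β := by
  have hD : chevE6 ∈ [chevG2, chevB2, chevD4, chevF4, chevE6, chevE7, chevE8] := by simp
  have R := bRel_of_mem (F := F) hD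
  obtain ⟨c, σ, hc, h⟩ := sb_e6_cases R β hβ
  rcases h with h | h
  · exact sb_dec_id p hD R sbCoord_E6 (by decide) β c σ hc h (sb_e6_sig R β c σ hc h)
  · exact sb_dec_signed p hD R sbCoord_E6 (by decide) sbPermE6
      (sbPerm_sym chevE6 _ _ _ sb_e6_bonds)
      (fun i => sb_graphExp_short chevE6 _ (sb_e6_short _ (sbPermE6 i).isLt))
      gsRhoE6 gsRhoE6 gsEpsE6 gsOK_E6 (fun j => sb_e6_ga j.val j.isLt)
      (fun β c σ hc hβ => sb_e6_sig R β c σ hc hβ) β c σ hc h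

/-! ### `F₄` -/

theorem sb_f4_types (p : ℕ) [Fact p.Prime] [CharP F p] (R : BRel chevF4 F η)
    {β : MulAut ↥(chevF4.group F)} {π : Equiv.Perm (Fin chevF4.rank)} (h : SbData R β π) :
    π = 1 ∨ (p = 2 ∧ π = sbPermF4) := by
  obtain ⟨c, σ, hc, hcase⟩ := sb_f4_cases p R β h.1
  rcases hcase with hid | ⟨hp, hfl⟩
  · left
    exact sb_data_unique R sbTab_F4 h ⟨h.1, c, σ, hc, hid⟩
  · right
    exact ⟨hp, sb_data_unique R sbTab_F4 h ⟨h.1, c, σ, hc, hfl⟩⟩

theorem sb_f4_form (p f : ℕ) [Fact p.Prime] [CharP F p] (hF : Fintype.card F = p ^ f)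
    (β : MulAut ↥(chevF4.group F)) (hβ : SbNorm chevF4 F β) : SbDec chevF4 F β := by
  have hD : chevF4 ∈ [chevG2, chevB2, chevD4, chevF4, chevE6, chevE7, chevE8] := by simp
  have R := bRel_of_mem (F := F) hD
  obtain ⟨co, hco⟩ := sbCoord_exists hD
  obtain ⟨c, σ, hc, h⟩ := sb_f4_cases p R β hβ
  rcases h with h | ⟨hp, h⟩
  · exact sb_dec_id p hD R hco (by decide) β c σ hc h (sb_f4_sig R β c σ hc h)
  · subst hp
    exact sb_dec_exotic 2 f hF hD R hco (by decide) sbPermF4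
      (sbPerm_sym chevF4 _ _ _ sb_f4_bonds)
      (fun i => Fin.ext (by
        have hi : i.val < 4 := i.isLt
        show 3 - (3 - i.val) = i.val
        omega))
      (fun j => ([1, 1, 0, 0] : List ℕ).getD j 0) (fun i => sb_f4_esum i.val i.isLt)
      (fun i => sb_f4_gexp i.val i.isLt) gaRhoF4 gaLamF4 gaOK_F4
      (fun j => sb_f4_ga j.val j.isLt)
      (fun β c σ hc hβ => sb_f4_sig R β c σ hc hβ) β c σ hc h

/-! ### `E₈` -/

theorem sb_e8_cases (R : BRel chevE8 F η) (β : MulAut ↥(chevE8.group F))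
    (hβ : SbNorm chevE8 F β) :
    ∃ (c : Fin 8 → F) (σ : Fin 8 → F →+* F), (∀ i, c i ≠ 0) ∧
      ∀ i : Fin 8, SbAt R β i i (c i) (σ i) := by
  have hD : chevE8 ∈ [chevG2, chevB2, chevD4, chevF4, chevE6, chevE7, chevE8] := by simp
  have hC := cartanFacts_of_mem hD
  have hRk : ∀ r < chevE8.nroots, RankOne chevE8 r := fun r hr => rankOne_of_mem hD hr
  have hsimple := fun i : Fin 8 =>
    R.sb_norm_simple hC hRk sbTab_E8 sbLong_E8 hβ (i := i.val) i.isLt
  choose ρ hρ c hc σ hσ using hsimple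
  have hinjρ : Function.Injective (fun i : Fin 8 => (⟨ρ i, hρ i⟩ : Fin 8)) := by
    intro i i' hii
    by_contra hne
    have hne' : i.val ≠ i'.val := fun h => hne (Fin.ext h)
    have hρeq : ρ i = ρ i' := congrArg Fin.val hii
    refine R.sb_norm_inj sbTab_E8 (α := β) i.isLt i'.isLt hne' (hc i')
      (σ := σ i) (σ' := σ i') (fun t x hx => ((hσ i t x).1 hx)) (fun t x hx => ?_)
    rw [hρeq]; exact (hσ i' t x).1 hx
  have hadjne : ∀ i i' : Fin 8, sbAdjE8 i.val i'.val = true → i.val ≠ i'.val := by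
    intro i i' hadj h
    rw [h, sb_adj_irrefl_E8 i'] at hadj
    exact Bool.false_ne_true hadj
  have hadjρ : ∀ i i' : Fin 8, sbAdjE8 i.val i'.val = true →
      sbAdjE8 ((⟨ρ i, hρ i⟩ : Fin 8)).val ((⟨ρ i', hρ i'⟩ : Fin 8)).val = true := by
    intro i i' hadj
    have hne := hadjne i i' hadj
    exact R.sb_norm_adj sbTab_E8 sbAdj_E8 i.isLt i'.isLt (hρ i) (hρ i') hne
      (fun h => hne (congrArg Fin.val (hinjρ (Fin.ext h))))
      (fun t x hx => (hσ i t x).1 hx) (fun t x hx => (hσ i' t x).1 hx) hadj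
  have hid := sb_e8_rigid (fun i : Fin 8 => (⟨ρ i, hρ i⟩ : Fin 8)) hinjρ hadjρ
  have hid' : ∀ i : Fin 8, ρ i = i.val := fun i => congrArg Fin.val (hid i)
  refine ⟨c, σ, hc, ?_⟩
  intro i t x
  have h := hσ i t x
  rw [hid' i] at h
  exact h

theorem sb_e8_sig (R : BRel chevE8 F η) (β : MulAut ↥(chevE8.group F)) (c : Fin 8 → F)
    (σ : Fin 8 → F →+* F) (hc : ∀ i, c i ≠ 0)
    (hβ : ∀ i : Fin 8, SbAt R β i i (c i) (σ i)) : ∀ i t, σ i t = σ 0 t := by
  have hD : chevE8 ∈ [chevG2, chevB2, chevD4, chevF4, chevE6, chevE7, chevE8] := by simp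
  have hC := cartanFacts_of_mem hD
  have hHD : HDiag chevE8 F := hDiag_of_mem hD
  have hOK := chainOK_of_mem chevE8 hD
  obtain ⟨p02, p23, p31, p34, p45, p56, p67⟩ := sb_e8_pairing
  have h02 := R.sb_sigma_eq hHD hOK hC (i := 0) (i' := 2) (by decide) (by decide) (hc 0) (hc 2)
    (hβ 0) (fun t x hx => (hβ 2 t x).2 hx) p02
  have h23 := R.sb_sigma_eq hHD hOK hC (i := 2) (i' := 3) (by decide) (by decide) (hc 2) (hc 3)
    (hβ 2) (fun t x hx => (hβ 3 t x).2 hx) p23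
  have h31 := R.sb_sigma_eq hHD hOK hC (i := 3) (i' := 1) (by decide) (by decide) (hc 3) (hc 1)
    (hβ 3) (fun t x hx => (hβ 1 t x).2 hx) p31
  have h34 := R.sb_sigma_eq hHD hOK hC (i := 3) (i' := 4) (by decide) (by decide) (hc 3) (hc 4)
    (hβ 3) (fun t x hx => (hβ 4 t x).2 hx) p34
  have h45 := R.sb_sigma_eq hHD hOK hC (i := 4) (i' := 5) (by decide) (by decide) (hc 4) (hc 5)
    (hβ 4) (fun t x hx => (hβ 5 t x).2 hx) p45
  have h56 := R.sb_sigma_eq hHD hOK hC (i := 5) (i' := 6) (by decide) (by decide) (hc 5) (hc 6)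
    (hβ 5) (fun t x hx => (hβ 6 t x).2 hx) p56
  have h67 := R.sb_sigma_eq hHD hOK hC (i := 6) (i' := 7) (by decide) (by decide) (hc 6) (hc 7)
    (hβ 6) (fun t x hx => (hβ 7 t x).2 hx) p67
  intro i t
  have e2 : σ 2 t = σ 0 t := (h02 t).symm
  have e3 : σ 3 t = σ 0 t := (h23 t).symm.trans e2
  have e1 : σ 1 t = σ 0 t := (h31 t).symm.trans e3
  have e4 : σ 4 t = σ 0 t := (h34 t).symm.trans e3
  have e5 : σ 5 t = σ 0 t := (h45 t).symm.trans e4
  have e6 : σ 6 t = σ 0 t := (h56 t).symm.trans e5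
  have e7 : σ 7 t = σ 0 t := (h67 t).symm.trans e6
  fin_cases i
  · rfl
  · exact e1
  · exact e2
  · exact e3
  · exact e4
  · exact e5
  · exact e6
  · exact e7

theorem sb_e8_types (R : BRel chevE8 F η) {β : MulAut ↥(chevE8.group F)}
    {π : Equiv.Perm (Fin chevE8.rank)} (h : SbData R β π) : π = 1 := by
  obtain ⟨c, σ, hc, hid⟩ := sb_e8_cases R β h.1
  exact sb_data_unique R sbTab_E8 h ⟨h.1, c, σ, hc, hid⟩

theorem sb_e8_form (p : ℕ) [Fact p.Prime] [CharP F p] (β : MulAut ↥(chevE8.group F))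
    (hβ : SbNorm chevE8 F β) : SbDec chevE8 F β := by
  have hD : chevE8 ∈ [chevG2, chevB2, chevD4, chevF4, chevE6, chevE7, chevE8] := by simp
  have R := bRel_of_mem (F := F) hD
  obtain ⟨co, hco⟩ := sbCoord_exists hD
  obtain ⟨c, σ, hc, h⟩ := sb_e8_cases R β hβ
  exact sb_dec_id p hD R hco (by decide) β c σ hc h (sb_e8_sig R β c σ hc h)

/-! ### `G₂` -/

/-- In type `G₂`, an automorphism exchanging the two fundamental root subgroups (with trivial constants) forces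
characteristic three. -/
theorem sb_g2_flip_three (R : BRel chevG2 F η) (β : MulAut ↥(chevG2.group F))
    (σ : Fin 2 → F →+* F) (hβ : ∀ i : Fin 2, SbAt R β i (1 - i.val) 1 (σ i)) : (3 : F) = 0 := by
  have h0 : (0 : ℕ) < chevG2.rank := by decide
  have h1 : (1 : ℕ) < chevG2.rank := by decide
  have ha := R.wf.simple_lt 0 h0
  have hb := R.wf.simple_lt 1 h1
  obtain ⟨t1, t2, t3, t4, t5, t6⟩ := sb_g2_comm_tab
  have hn0 : R.n 0 ∈ chevG2.group F := R.sb_nGL_mem_group _ _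
  have hn1 : R.n 1 ∈ chevG2.group F := R.sb_nGL_mem_group _ _
  have hN0 : ((β ⟨R.n 0, hn0⟩ : ↥(chevG2.group F)) : GL chevG2.Idx F) = R.n 1 := by
    have e := R.sb_norm_nGL (hβ 0) 1 ⟨R.n 0, hn0⟩ rfl
    rw [inv_one, one_mul, map_one] at e
    exact e
  have hN1 : ((β ⟨R.n 1, hn1⟩ : ↥(chevG2.group F)) : GL chevG2.Idx F) = R.n 0 := by
    have e := R.sb_norm_nGL (hβ 1) 1 ⟨R.n 1, hn1⟩ rfl
    rw [inv_one, one_mul, map_one] at e
    exact e
  have hX : ((β ⟨xGL R.xadd (chevG2.simple 1) 1, xGL_mem_group R.xadd _ _⟩ :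
      ↥(chevG2.group F)) : GL chevG2.Idx F) = xGL R.xadd (chevG2.simple 0) 1 := by
    have e := (hβ 1 1 ⟨xGL R.xadd (chevG2.simple 1) 1, xGL_mem_group R.xadd _ _⟩).2 rfl
    rw [inv_one, one_mul, map_one] at e
    exact e
  have hr1 := R.wf.refl_lt 1 h1 _ (R.wf.refl_lt 0 h0 _ hb)
  have hr2 := R.wf.refl_lt 0 h0 _ (R.wf.refl_lt 1 h1 _ ha)
  -- the element `y = n_1 n_0 x_b(1) n_0⁻¹ n_1⁻¹`
  have eY : R.n 1 * R.n 0 * xGL R.xadd (chevG2.simple 1) 1 * (R.n 0)⁻¹ * (R.n 1)⁻¹ =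
      xGL R.xadd (chevG2.reflectRoot 1 (chevG2.reflectRoot 0 (chevG2.simple 1)))
        ((η 1 (chevG2.reflectRoot 0 (chevG2.simple 1)) : F) *
          ((η 0 (chevG2.simple 1) : F) * 1)) := by
    have e1 := R.conj_x h0 hb (1 : F)
    have e2 := R.conj_x h1 (R.wf.refl_lt 0 h0 _ hb) ((η 0 (chevG2.simple 1) : F) * 1)
    rw [← e2, ← e1]
    group
  have eY' : R.n 0 * R.n 1 * xGL R.xadd (chevG2.simple 0) 1 * (R.n 1)⁻¹ * (R.n 0)⁻¹ =
      xGL R.xadd (chevG2.reflectRoot 0 (chevG2.reflectRoot 1 (chevG2.simple 0)))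
        ((η 0 (chevG2.reflectRoot 1 (chevG2.simple 0)) : F) *
          ((η 1 (chevG2.simple 0) : F) * 1)) := by
    have e1 := R.conj_x h1 ha (1 : F)
    have e2 := R.conj_x h0 (R.wf.refl_lt 1 h1 _ ha) ((η 1 (chevG2.simple 0) : F) * 1)
    rw [← e2, ← e1]
    group
  have hcomm := sb_comm_of_nil R.xadd (R.cf _ hb _ hr1 t3 t4) t1 (1 : F)
    ((η 1 (chevG2.reflectRoot 0 (chevG2.simple 1)) : F) * ((η 0 (chevG2.simple 1) : F) * 1))
  rw [← eY] at hcomm
  have hcomm' : (⟨xGL R.xadd (chevG2.simple 1) 1, xGL_mem_group R.xadd _ _⟩ : ↥(chevG2.group F)) *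
      (⟨R.n 1, hn1⟩ * ⟨R.n 0, hn0⟩ * ⟨xGL R.xadd (chevG2.simple 1) 1, xGL_mem_group R.xadd _ _⟩ *
        (⟨R.n 0, hn0⟩ : ↥(chevG2.group F))⁻¹ * (⟨R.n 1, hn1⟩ : ↥(chevG2.group F))⁻¹) =
      (⟨R.n 1, hn1⟩ * ⟨R.n 0, hn0⟩ * ⟨xGL R.xadd (chevG2.simple 1) 1, xGL_mem_group R.xadd _ _⟩ *
        (⟨R.n 0, hn0⟩ : ↥(chevG2.group F))⁻¹ * (⟨R.n 1, hn1⟩ : ↥(chevG2.group F))⁻¹) *
      ⟨xGL R.xadd (chevG2.simple 1) 1, xGL_mem_group R.xadd _ _⟩ := Subtype.ext hcomm.eq
  have h2 := congrArg (fun y => ((β y : ↥(chevG2.group F)) : GL chevG2.Idx F)) hcomm'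
  simp only [map_mul, map_inv, Subgroup.coe_mul, Subgroup.coe_inv] at h2
  rw [hN0, hN1, hX, eY'] at h2
  have h3 := sb_cf_single R.xadd (R.cf _ ha _ hr2 t5 t6) t2 (1 : F)
    ((η 0 (chevG2.reflectRoot 1 (chevG2.simple 0)) : F) * ((η 1 (chevG2.simple 0) : F) * 1))
  rw [← h2] at h3
  have h4 : xGL R.xadd 10 ((((3 : ℤ) : F)) * (-1) *
      ((η 0 (chevG2.reflectRoot 1 (chevG2.simple 0)) : F) * ((η 1 (chevG2.simple 0) : F) * 1))) =
      1 := by
    have := h3.symm
    rwa [mul_eq_left] at this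
  have h5 := R.xinj 10 (by decide) _ (by rw [← xGL_val R.xadd, h4]; rfl)
  have e1 := R.eta_mul_self (F := F) h0 (R.wf.refl_lt 1 h1 _ ha)
  have e2 := R.eta_mul_self (F := F) h1 ha
  have hne1 : (η 0 (chevG2.reflectRoot 1 (chevG2.simple 0)) : F) ≠ 0 := by
    intro h
    rw [h, mul_zero] at e1
    exact zero_ne_one e1
  have hne2 : (η 1 (chevG2.simple 0) : F) ≠ 0 := by
    intro h
    rw [h, mul_zero] at e2
    exact zero_ne_one e2
  have h6 : ((3 : ℤ) : F) = 0 := by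
    rcases mul_eq_zero.mp h5 with h | h
    · rcases mul_eq_zero.mp h with h' | h'
      · exact h'
      · exact absurd h' (by simp)
    · rcases mul_eq_zero.mp h with h' | h'
      · exact absurd h' hne1
      · rw [mul_one] at h'
        exact absurd h' hne2
  exact_mod_cast h6

theorem sb_g2_types (p f : ℕ) [Fact p.Prime] [CharP F p] (hF : Fintype.card F = p ^ f)
    (R : BRel chevG2 F η) {β : MulAut ↥(chevG2.group F)} {π : Equiv.Perm (Fin chevG2.rank)}
    (h : SbData R β π) : π = 1 ∨ (p = 3 ∧ π = sbPermG2) := by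
  by_cases hq : 3 ≤ p ^ f
  · obtain ⟨c, σ, hc, hcase⟩ := sb_g2_cases p f hF hq R β h.1
    rcases hcase with hid | ⟨hp, hfl⟩
    · left
      exact sb_data_unique R sbTab_G2 h ⟨h.1, c, σ, hc, hid⟩
    · right
      exact ⟨hp, sb_data_unique R sbTab_G2 h ⟨h.1, c, σ, hc, hfl⟩⟩
  · have hcard : Fintype.card F = 2 := by
      have := Fintype.one_lt_card (α := F)
      omega
    have key : ∀ π : Equiv.Perm (Fin chevG2.rank), π = 1 ∨ π = sbPermG2 := by decide
    rcases key π with hπ | hπ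
    · left; exact hπ
    · exfalso
      subst hπ
      obtain ⟨hn, c, σ, hc, hσ⟩ := h
      have hc1 : ∀ i, c i = 1 := by
        intro i
        have := FiniteField.pow_card_sub_one_eq_one (c i) (hc i)
        rw [hcard] at this
        simpa using this
      have h3 := sb_g2_flip_three R β σ (fun i => by
        have := hσ i
        rw [hc1 i] at this
        exact this)
      have h2 : ((2 : ℕ) : F) = 0 := by
        have hp2 : p = 2 := by
          have hpf : p ^ f = 2 := by rw [← hF]; exact hcard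
          have hdvd : p ∣ 2 := by
            rw [← hpf]
            rcases Nat.eq_zero_or_pos f with hf | hf
            · rw [hf, pow_zero] at hpf; omega
            · exact dvd_pow_self p (by omega)
          exact (Nat.prime_dvd_prime_iff_eq (Fact.out : p.Prime) Nat.prime_two).mp hdvd
        rw [← hp2]
        exact CharP.cast_eq_zero F p
      have h1 : (1 : F) = 0 := by
        have : (2 : F) = 0 := by exact_mod_cast h2
        linear_combination h3 - this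
      exact one_ne_zero h1

theorem sb_g2_form (p f : ℕ) [Fact p.Prime] [CharP F p] (hF : Fintype.card F = p ^ f)
    (β : MulAut ↥(chevG2.group F)) (hβ : SbNorm chevG2 F β) : SbDec chevG2 F β := by
  have hD : chevG2 ∈ [chevG2, chevB2, chevD4, chevF4, chevE6, chevE7, chevE8] := by simp
  have R := bRel_of_mem (F := F) hD
  obtain ⟨co, hco⟩ := sbCoord_exists hD
  obtain ⟨π, hπ⟩ := sb_data_exists hD R sbTab_G2 sbLong_G2 hβ
  have hty := sb_g2_types p f hF R hπ
  obtain ⟨-, c, σ, hc, h⟩ := hπ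
  rcases hty with rfl | ⟨hp, rfl⟩
  · exact sb_dec_id p hD R hco (by decide) β c σ hc h (sb_g2_sig R β c σ hc h)
  · subst hp
    exact sb_dec_exotic 3 f hF hD R hco (by decide) sbPermG2
      (sbPerm_sym chevG2 _ _ _ sb_g2_bonds)
      (fun i => Fin.ext (by
        have hi : i.val < 2 := i.isLt
        show 1 - (1 - i.val) = i.val
        omega))
      (fun j => ([1, 0] : List ℕ).getD j 0) (fun i => sb_g2_esum i.val i.isLt)
      (fun i => sb_g2_gexp i.val i.isLt) gaRhoG2 gaLamG2 gaOK_G2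
      (fun j => sb_g2_ga j.val j.isLt)
      (fun β c σ hc hβ => sb_g2_sig R β c σ hc hβ) β c σ hc h

end

end Cfsg.Agent.Helper36
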