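import Cfsg.Agent.Helper36.SbT

/-!
# Automorphisms of Chevalley groups, XVI: the structure of `Out` (helper36)

* `sb_closure_diag`, `sb_closure_field`: the groups generated by the diagonal and by the field automorphisms;
* `sb_data_conj_diag`, `sb_data_conj_frob`: conjugating them by a normalised automorphism;
* `sbKer`: the automorphisms fixing every node of the diagram up to inner automorphisms;
* `sb_out_struct`: the images `D̄`, `F̄` in `Out`: `D̄` normal abelian, `F̄` cyclic, `D̄ F̄` normal of index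
  the number of permutations of the diagram that are induced by automorphisms;
* `sb_out_final_two`, `sb_data_of_gs`.
-/

set_option autoImplicit false
set_option linter.unusedSectionVars false
set_option linter.unusedVariables false

namespace Cfsg.Agent.Helper36

open Cfsg Cfsg.Lie Cfsg.Agent.Helper17

theorem sb_map_normal {A : Type*} [Group A] (N : Subgroup A) [N.Normal] (K : Subgroup A)
    (h : ∀ α : A, ∃ β : A, QuotientGroup.mk' N α = QuotientGroup.mk' N β ∧
      ∀ δ ∈ K, β * δ * β⁻¹ ∈ K) : (K.map (QuotientGroup.mk' N)).Normal := by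
  constructor
  rintro _ ⟨δ, hδ, rfl⟩ g
  obtain ⟨α, rfl⟩ := QuotientGroup.mk'_surjective N g
  obtain ⟨β, hαβ, hβ⟩ := h α
  rw [hαβ]
  exact ⟨β * δ * β⁻¹, hβ δ hδ, by simp⟩

section

variable {D : ChevalleyDatum} {F : Type*} [Field F] [Fintype F] {η : ℕ → ℕ → ℤ} {co : ℕ → ℕ → ℤ}

theorem sb_data_diag (R : BRel D F η) (hOK : chainOK D = true) (hco : SbCoord D co)
    (c : Fin D.rank → Fˣ) : SbData R (sbDiag R.xadd hOK hco c) 1 := by
  refine ⟨sbDiag_norm R hOK hco c, fun i => (((c i)⁻¹ : Fˣ) : F), fun _ => RingHom.id F,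
    fun i => Units.ne_zero _, ?_⟩
  intro i t x
  constructor
  · intro hx
    rw [sbDiag_neg R hOK hco c i t x hx]
    rfl
  · intro hx
    rw [sbDiag_pos R hOK hco c i t x hx]
    simp

theorem sb_data_frob (p : ℕ) [Fact p.Prime] [CharP F p] (R : BRel D F η) (k : ℕ) :
    SbData R (sbFrob D F p k) 1 := by
  refine ⟨sbFrob_norm p k, fun _ => 1, fun _ => sbFr F p k, fun _ => one_ne_zero, ?_⟩
  intro i t x
  constructor
  · intro hx
    rw [sbFrob_x p R.xadd k _ t x hx, sbFr_apply, one_mul]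
    rfl
  · intro hx
    rw [sbFrob_x p R.xadd k _ t x hx, sbFr_apply, inv_one, one_mul]
    rfl

/-- Conjugating a diagonal automorphism by a normalised automorphism. -/
theorem sb_data_conj_diag (R : BRel D F η) (hOK : chainOK D = true) (hco : SbCoord D co)
    {β : MulAut ↥(D.group F)} {π : Equiv.Perm (Fin D.rank)} (h : SbData R β π)
    (c : Fin D.rank → Fˣ) :
    ∃ c' : Fin D.rank → Fˣ, β * sbDiag R.xadd hOK hco c = sbDiag R.xadd hOK hco c' * β := by
  obtain ⟨hn, a, σ, ha, hσ⟩ := h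
  refine ⟨fun j => Units.map (σ (π.symm j) : F →* F) (c (π.symm j)), ?_⟩
  apply R.sb_aut_ext
  intro i hi t x hx
  apply Subtype.ext
  rcases hx with hx | hx
  · have e1 := sbDiag_pos R hOK hco c ⟨i, hi⟩ t x hx
    have e2 := (hσ ⟨i, hi⟩ _ _).2 e1
    have e3 := (hσ ⟨i, hi⟩ t x).2 hx
    have e4 := sbDiag_pos R hOK hco
      (fun j => Units.map (σ (π.symm j) : F →* F) (c (π.symm j))) (π ⟨i, hi⟩) _ _ e3
    show ((β (sbDiag R.xadd hOK hco c x) : ↥(D.group F)) : GL D.Idx F) =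
      ((sbDiag R.xadd hOK hco _ (β x) : ↥(D.group F)) : GL D.Idx F)
    rw [e2, e4]
    congr 1
    simp only [Equiv.symm_apply_apply, Units.coe_map, MonoidHom.coe_coe, map_mul]
    ring
  · have e1 := sbDiag_neg R hOK hco c ⟨i, hi⟩ t x hx
    have e2 := (hσ ⟨i, hi⟩ _ _).1 e1
    have e3 := (hσ ⟨i, hi⟩ t x).1 hx
    have e4 := sbDiag_neg R hOK hco
      (fun j => Units.map (σ (π.symm j) : F →* F) (c (π.symm j))) (π ⟨i, hi⟩) _ _ e3
    show ((β (sbDiag R.xadd hOK hco c x) : ↥(D.group F)) : GL D.Idx F) =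
      ((sbDiag R.xadd hOK hco _ (β x) : ↥(D.group F)) : GL D.Idx F)
    rw [e2, e4]
    congr 1
    simp only [Equiv.symm_apply_apply, Units.val_inv_eq_inv_val, Units.coe_map, MonoidHom.coe_coe,
      map_mul, map_inv₀]
    ring

/-- Conjugating a field automorphism by a normalised automorphism. -/
theorem sb_data_conj_frob (p : ℕ) [Fact p.Prime] [CharP F p] (R : BRel D F η)
    (hOK : chainOK D = true) (hco : SbCoord D co)
    {β : MulAut ↥(D.group F)} {π : Equiv.Perm (Fin D.rank)} (h : SbData R β π) (k : ℕ) :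
    ∃ c' : Fin D.rank → Fˣ,
      β * sbFrob D F p k = sbDiag R.xadd hOK hco c' * sbFrob D F p k * β := by
  obtain ⟨hn, a, σ, ha, hσ⟩ := h
  refine ⟨fun j => (Units.mk0 (a (π.symm j)) (ha _)) ^ (p ^ k) *
    (Units.mk0 (a (π.symm j)) (ha _))⁻¹, ?_⟩
  apply R.sb_aut_ext
  intro i hi t x hx
  apply Subtype.ext
  have hai := ha ⟨i, hi⟩
  rcases hx with hx | hx
  · have e1 := sbFrob_x p R.xadd k _ t x hx
    have e2 := (hσ ⟨i, hi⟩ _ _).2 e1
    have e3 := (hσ ⟨i, hi⟩ t x).2 hx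
    have e4 := sbFrob_x p R.xadd k _ _ (β x) e3
    have e5 := sbDiag_pos R hOK hco (fun j => (Units.mk0 (a (π.symm j)) (ha _)) ^ (p ^ k) *
      (Units.mk0 (a (π.symm j)) (ha _))⁻¹) (π ⟨i, hi⟩) _ _ e4
    show ((β (sbFrob D F p k x) : ↥(D.group F)) : GL D.Idx F) =
      ((sbDiag R.xadd hOK hco _ (sbFrob D F p k (β x)) : ↥(D.group F)) : GL D.Idx F)
    rw [e2, e5]
    congr 1
    simp only [Equiv.symm_apply_apply, Units.val_mul, Units.val_pow_eq_pow_val, Units.val_mk0,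
      Units.val_inv_eq_inv_val, map_pow, mul_pow, inv_pow]
    field_simp
  · have e1 := sbFrob_x p R.xadd k _ t x hx
    have e2 := (hσ ⟨i, hi⟩ _ _).1 e1
    have e3 := (hσ ⟨i, hi⟩ t x).1 hx
    have e4 := sbFrob_x p R.xadd k _ _ (β x) e3
    have e5 := sbDiag_neg R hOK hco (fun j => (Units.mk0 (a (π.symm j)) (ha _)) ^ (p ^ k) *
      (Units.mk0 (a (π.symm j)) (ha _))⁻¹) (π ⟨i, hi⟩) _ _ e4
    show ((β (sbFrob D F p k x) : ↥(D.group F)) : GL D.Idx F) =
      ((sbDiag R.xadd hOK hco _ (sbFrob D F p k (β x)) : ↥(D.group F)) : GL D.Idx F)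
    rw [e2, e5]
    congr 1
    simp only [Equiv.symm_apply_apply, Units.val_mul, Units.val_pow_eq_pow_val, Units.val_mk0,
      Units.val_inv_eq_inv_val, map_pow, mul_pow, inv_pow, mul_inv, inv_inv]
    field_simp

/-- The group generated by the diagonal automorphisms. -/
theorem sb_closure_diag (hD : D ∈ [chevG2, chevB2, chevD4, chevF4, chevE6, chevE7, chevE8])
    (R : BRel D F η) (hco : SbCoord D co) :
    Subgroup.closure {φ : MulAut ↥(D.group F) | D.IsDiagonalAut φ} =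
      (sbDiagHom R.xadd (chainOK_of_mem D hD) hco).range := by
  have hOK := chainOK_of_mem D hD
  apply le_antisymm
  · rw [Subgroup.closure_le]
    rintro φ ⟨χ, hχ, hφ⟩
    refine ⟨fun i => χ (D.simple i), ?_⟩
    rw [sbDiagHom_apply]
    apply R.sb_aut_ext
    intro i hi t x hx
    apply Subtype.ext
    apply Units.ext
    have hlt := R.wf.simple_lt i hi
    rcases hx with hx | hx
    · rw [sbDiag_pos R hOK hco _ ⟨i, hi⟩ t x hx, hφ x, hx, xGL_val, xGL_val,
        charDiag_conj_x D hOK χ hχ _ hlt t]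
    · rw [sbDiag_neg R hOK hco _ ⟨i, hi⟩ t x hx, hφ x, hx, xGL_val, xGL_val,
        charDiag_conj_x D hOK χ hχ _ (R.wf.neg_lt _ hlt) t, hχ.1 _ hlt]
  · rintro _ ⟨c, rfl⟩
    exact Subgroup.subset_closure (sb_isDiagonalAut_sbDiag _ _ _ c)

/-- The group generated by the field automorphisms. -/
theorem sb_closure_field (p : ℕ) [Fact p.Prime] [CharP F p] (R : BRel D F η) :
    Subgroup.closure {φ : MulAut ↥(D.group F) | D.IsFieldAut φ} =
      Subgroup.zpowers (sbFrob D F p 1) := by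
  apply le_antisymm
  · rw [Subgroup.closure_le]
    rintro φ ⟨σ, hφ⟩
    obtain ⟨k, hk⟩ := ringHom_eq_frob_pow p (σ : F →+* F)
    have e : φ = sbFrob D F p k := by
      apply R.sb_aut_ext
      intro i hi t x hx
      apply Subtype.ext
      apply Units.ext
      have hlt := R.wf.simple_lt i hi
      rcases hx with hx | hx
      · rw [hφ x _ t hlt (by rw [hx, xGL_val]), sbFrob_x p R.xadd k _ t x hx, xGL_val]
        congr 1
        exact hk t
      · rw [hφ x _ t (R.wf.neg_lt _ hlt) (by rw [hx, xGL_val]), sbFrob_x p R.xadd k _ t x hx,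
          xGL_val]
        congr 1
        exact hk t
    show φ ∈ Subgroup.zpowers (sbFrob D F p 1)
    rw [e, ← sbFrob_pow p k]
    exact Subgroup.pow_mem _ (Subgroup.mem_zpowers _) k
  · rw [Subgroup.zpowers_le]
    exact Subgroup.subset_closure (sb_isFieldAut_sbFrob p R.xadd 1)

/-- The automorphisms fixing every node of the diagram, up to inner automorphisms. -/
def sbKer (p : ℕ) [Fact p.Prime] [CharP F p]
    (hD : D ∈ [chevG2, chevB2, chevD4, chevF4, chevE6, chevE7, chevE8])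
    (R : BRel D F η) (T : SbTab D) {L₀ : List ℕ} (hL : SbLong D L₀) :
    Subgroup (MulAut ↥(D.group F)) where
  carrier := {α | SbType R α 1}
  mul_mem' := fun {a b} ha hb => by
    have h := SbType.mul ha hb
    rwa [mul_one] at h
  one_mem' := sb_type_one R
  inv_mem' := fun {a} ha => by
    have h := SbType.inv p hD T hL ha
    rwa [inv_one] at h

theorem sb_type_one_decomp (p f : ℕ) [Fact p.Prime] [CharP F p] (hF : Fintype.card F = p ^ f)
    (hD : D ∈ [chevG2, chevB2, chevD4, chevF4, chevE6, chevE7, chevE8]) (R : BRel D F η)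
    (hco : SbCoord D co) (h0 : 0 < D.rank)
    (hsig : ∀ (β : MulAut ↥(D.group F)) (c : Fin D.rank → F) (σ : Fin D.rank → F →+* F),
      (∀ i, c i ≠ 0) → (∀ i : Fin D.rank, SbAt R β i i (c i) (σ i)) →
        ∀ i t, σ i t = σ ⟨0, h0⟩ t)
    {α : MulAut ↥(D.group F)} (h : SbType R α 1) :
    ∃ (g : ↥(D.group F)) (c : Fin D.rank → Fˣ) (k : ℕ),
      α = MulAut.conj g * (sbDiag R.xadd (chainOK_of_mem D hD) hco c * sbFrob D F p k) := by
  have hf0 : 0 < f := by
    rcases Nat.eq_zero_or_pos f with h | h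
    · rw [h, pow_zero] at hF
      have := Fintype.one_lt_card (α := F)
      omega
    · exact h
  obtain ⟨g₀, hn, c, σ, hc, hσ⟩ := h
  obtain ⟨c', k, hk⟩ := sb_id_diag_frob p f hF hD R hco h0 hf0 _ c σ hc hσ (hsig _ c σ hc hσ)
  refine ⟨g₀⁻¹, c', k.val, ?_⟩
  rw [← hk, map_inv, inv_mul_cancel_left]

/-- The structure of `Out`: `D̄` is normal and abelian, `F̄` is cyclic, `D̄ F̄` is normal, and its index is the
number of permutations of the diagram induced by automorphisms. -/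
theorem sb_out_struct (p f : ℕ) [Fact p.Prime] [CharP F p] (hF : Fintype.card F = p ^ f)
    (hD : D ∈ [chevG2, chevB2, chevD4, chevF4, chevE6, chevE7, chevE8]) (R : BRel D F η)
    (T : SbTab D) {L₀ : List ℕ} (hL : SbLong D L₀) (hco : SbCoord D co) (h0 : 0 < D.rank)
    (hsig : ∀ (β : MulAut ↥(D.group F)) (c : Fin D.rank → F) (σ : Fin D.rank → F →+* F),
      (∀ i, c i ≠ 0) → (∀ i : Fin D.rank, SbAt R β i i (c i) (σ i)) →
        ∀ i t, σ i t = σ ⟨0, h0⟩ t)
    (Dbar Fbar : Subgroup (Cfsg.Out ↥(D.group F)))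
    (hDbar : Dbar = (Subgroup.closure {φ : MulAut ↥(D.group F) | D.IsDiagonalAut φ}).map
      (QuotientGroup.mk' (Cfsg.Inn ↥(D.group F))))
    (hFbar : Fbar = (Subgroup.closure {φ : MulAut ↥(D.group F) | D.IsFieldAut φ}).map
      (QuotientGroup.mk' (Cfsg.Inn ↥(D.group F)))) :
    Dbar.Normal ∧ IsMulCommutative ↥Dbar ∧ IsCyclic ↥Fbar ∧ (Dbar ⊔ Fbar).Normal ∧
      (Dbar ⊔ Fbar).index = Nat.card {π : Equiv.Perm (Fin D.rank) // ∃ α, SbType R α π} ∧
      ∀ α : MulAut ↥(D.group F),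
        QuotientGroup.mk' (Cfsg.Inn ↥(D.group F)) α ∈ Dbar ⊔ Fbar → SbType R α 1 := by
  classical
  have hOK := chainOK_of_mem D hD
  rw [sb_closure_diag hD R hco] at hDbar
  rw [sb_closure_field p R] at hFbar
  obtain ⟨Dn, hDn⟩ : ∃ Dn : Subgroup (MulAut ↥(D.group F)),
      Dn = (sbDiagHom R.xadd hOK hco).range := ⟨_, rfl⟩
  obtain ⟨Fn, hFn⟩ : ∃ Fn : Subgroup (MulAut ↥(D.group F)),
      Fn = Subgroup.zpowers (sbFrob D F p 1) := ⟨_, rfl⟩
  rw [← hDn] at hDbar
  rw [← hFn] at hFbar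
  subst hDbar hFbar
  have hDmem : ∀ c, sbDiag R.xadd hOK hco c ∈ Dn := fun c => by rw [hDn]; exact ⟨c, rfl⟩
  have hFmem : ∀ k, sbFrob D F p k ∈ Fn := fun k => by
    rw [hFn, ← sbFrob_pow p k]
    exact Subgroup.pow_mem _ (Subgroup.mem_zpowers _) k
  have hsup : Dn.map (QuotientGroup.mk' (Cfsg.Inn ↥(D.group F))) ⊔
      Fn.map (QuotientGroup.mk' (Cfsg.Inn ↥(D.group F))) =
      (Dn ⊔ Fn).map (QuotientGroup.mk' (Cfsg.Inn ↥(D.group F))) :=
    (Subgroup.map_sup _ _ _).symm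
  have hmkconj : ∀ (g : ↥(D.group F)) (α : MulAut ↥(D.group F)),
      QuotientGroup.mk' (Cfsg.Inn ↥(D.group F)) (MulAut.conj g * α) =
        QuotientGroup.mk' (Cfsg.Inn ↥(D.group F)) α := by
    intro g α
    rw [map_mul]
    have : QuotientGroup.mk' (Cfsg.Inn ↥(D.group F)) (MulAut.conj g) = 1 :=
      (QuotientGroup.eq_one_iff _).mpr ⟨g, rfl⟩
    rw [this, one_mul]
  have hrep : ∀ α : MulAut ↥(D.group F), ∃ β π,
      QuotientGroup.mk' (Cfsg.Inn ↥(D.group F)) α =
        QuotientGroup.mk' (Cfsg.Inn ↥(D.group F)) β ∧ SbData R β π := by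
    intro α
    obtain ⟨π, g, hg⟩ := sb_type_exists p hD R T hL α
    exact ⟨MulAut.conj g * α, π, (hmkconj g α).symm, hg⟩
  have hconjD : ∀ β π, SbData R β π → ∀ δ ∈ Dn, β * δ * β⁻¹ ∈ Dn := by
    intro β π hβ δ hδ
    rw [hDn] at hδ
    obtain ⟨c, rfl⟩ := hδ
    obtain ⟨c', hc'⟩ := sb_data_conj_diag R hOK hco hβ c
    rw [sbDiagHom_apply, hc', mul_inv_cancel_right]
    exact hDmem c'
  have hconjDF : ∀ β π, SbData R β π → ∀ δ ∈ Dn ⊔ Fn, β * δ * β⁻¹ ∈ Dn ⊔ Fn := by
    intro β π hβ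
    have hle : Dn ⊔ Fn ≤ (Dn ⊔ Fn).comap (MulAut.conj β).toMonoidHom := by
      apply sup_le
      · intro δ hδ
        show β * δ * β⁻¹ ∈ Dn ⊔ Fn
        exact Subgroup.mem_sup_left (hconjD β π hβ δ hδ)
      · rw [hFn, Subgroup.zpowers_le]
        show β * sbFrob D F p 1 * β⁻¹ ∈ Dn ⊔ Subgroup.zpowers (sbFrob D F p 1)
        obtain ⟨c', hc'⟩ := sb_data_conj_frob p R hOK hco hβ 1
        rw [hc', mul_inv_cancel_right]
        exact mul_mem (Subgroup.mem_sup_left (hDmem c'))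
          (Subgroup.mem_sup_right (Subgroup.mem_zpowers _))
    intro δ hδ
    exact hle hδ
  have hK : Dn ⊔ Fn ≤ sbKer p hD R T hL := by
    apply sup_le
    · intro δ hδ
      rw [hDn] at hδ
      obtain ⟨c, rfl⟩ := hδ
      exact ⟨1, by rw [map_one, one_mul]; exact sb_data_diag R hOK hco c⟩
    · rw [hFn, Subgroup.zpowers_le]
      exact ⟨1, by rw [map_one, one_mul]; exact sb_data_frob p R 1⟩
  have hmem1 : ∀ α : MulAut ↥(D.group F),
      QuotientGroup.mk' (Cfsg.Inn ↥(D.group F)) α ∈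
        (Dn ⊔ Fn).map (QuotientGroup.mk' (Cfsg.Inn ↥(D.group F))) → SbType R α 1 := by
    intro α hα
    obtain ⟨m, hm, hmα⟩ := hα
    have hm1 : SbType R m 1 := hK hm
    have hinn : m⁻¹ * α ∈ Cfsg.Inn ↥(D.group F) := QuotientGroup.eq.mp hmα
    obtain ⟨g, hg⟩ := hinn
    have e : α = m * MulAut.conj g := by rw [hg, mul_inv_cancel_left]
    rw [e]
    have h := hm1.mul (sb_type_conj R g)
    rwa [mul_one] at h
  have hindex : ((Dn ⊔ Fn).map (QuotientGroup.mk' (Cfsg.Inn ↥(D.group F)))).index =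
      Nat.card {π : Equiv.Perm (Fin D.rank) // ∃ α, SbType R α π} := by
    apply index_of_transversal _
      (fun π : {π : Equiv.Perm (Fin D.rank) // ∃ α, SbType R α π} =>
        QuotientGroup.mk' (Cfsg.Inn ↥(D.group F)) π.2.choose)
    · intro x
      obtain ⟨α, rfl⟩ := QuotientGroup.mk'_surjective _ x
      obtain ⟨π, hπ⟩ := sb_type_exists p hD R T hL α
      have hspec := Exists.choose_spec (⟨α, hπ⟩ : ∃ α, SbType R α π)
      refine ⟨⟨π, α, hπ⟩, QuotientGroup.mk' (Cfsg.Inn ↥(D.group F))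
        (α * (Exists.choose (⟨α, hπ⟩ : ∃ α, SbType R α π))⁻¹), ?_, ?_⟩
      · have h1 := hπ.mul (SbType.inv p hD T hL hspec)
        rw [mul_inv_cancel] at h1
        obtain ⟨g, c, k, hk⟩ := sb_type_one_decomp p f hF hD R hco h0 hsig h1
        rw [hk, hmkconj]
        exact ⟨_, mul_mem (Subgroup.mem_sup_left (hDmem c)) (Subgroup.mem_sup_right (hFmem k)),
          rfl⟩
      · rw [← map_mul, inv_mul_cancel_right]
    · intro π π' h
      have hs := π.2.choose_spec
      have hs' := π'.2.choose_spec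
      have h1 : QuotientGroup.mk' (Cfsg.Inn ↥(D.group F)) (π.2.choose * (π'.2.choose)⁻¹) ∈
          (Dn ⊔ Fn).map (QuotientGroup.mk' (Cfsg.Inn ↥(D.group F))) := by
        rw [map_mul, map_inv]
        exact h
      have h2 := hmem1 _ h1
      have h3 := hs.mul (SbType.inv p hD T hL hs')
      have h4 := sb_type_unique hD R T hL h3 h2
      exact Subtype.ext (mul_inv_eq_one.mp h4)
  refine ⟨?_, ?_, ?_, ?_, ?_, ?_⟩
  · exact sb_map_normal _ Dn (fun α => by
      obtain ⟨β, π, h1, h2⟩ := hrep α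
      exact ⟨β, h1, hconjD β π h2⟩)
  · haveI : IsMulCommutative ↥Dn := by
      rw [hDn]
      exact Subgroup.range_isMulCommutative _
    exact Subgroup.map_isMulCommutative _ _
  · rw [hFn, MonoidHom.map_zpowers]
    exact Subgroup.isCyclic_zpowers _
  · rw [hsup]
    exact sb_map_normal _ (Dn ⊔ Fn) (fun α => by
      obtain ⟨β, π, h1, h2⟩ := hrep α
      exact ⟨β, h1, hconjDF β π h2⟩)
  · rw [hsup]
    exact hindex
  · rw [hsup]
    exact hmem1

/-- The case of a diagram with at most one non-trivial symmetry. -/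
theorem sb_out_final_two (p f : ℕ) [Fact p.Prime] [CharP F p] (hF : Fintype.card F = p ^ f)
    (hD : D ∈ [chevG2, chevB2, chevD4, chevF4, chevE6, chevE7, chevE8]) (R : BRel D F η)
    (T : SbTab D) {L₀ : List ℕ} (hL : SbLong D L₀) (hco : SbCoord D co) (h0 : 0 < D.rank)
    (hsig : ∀ (β : MulAut ↥(D.group F)) (c : Fin D.rank → F) (σ : Fin D.rank → F →+* F),
      (∀ i, c i ≠ 0) → (∀ i : Fin D.rank, SbAt R β i i (c i) (σ i)) →
        ∀ i t, σ i t = σ ⟨0, h0⟩ t)
    (fl : Equiv.Perm (Fin D.rank))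
    (hcases : ∀ (β : MulAut ↥(D.group F)) (π : Equiv.Perm (Fin D.rank)),
      SbData R β π → π = 1 ∨ π = fl)
    (Dbar Fbar : Subgroup (Cfsg.Out ↥(D.group F)))
    (hDbar : Dbar = (Subgroup.closure {φ : MulAut ↥(D.group F) | D.IsDiagonalAut φ}).map
      (QuotientGroup.mk' (Cfsg.Inn ↥(D.group F))))
    (hFbar : Fbar = (Subgroup.closure {φ : MulAut ↥(D.group F) | D.IsFieldAut φ}).map
      (QuotientGroup.mk' (Cfsg.Inn ↥(D.group F)))) :
    Dbar.Normal ∧ IsMulCommutative ↥Dbar ∧ IsCyclic ↥Fbar ∧ (Dbar ⊔ Fbar).Normal ∧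
      ((Dbar ⊔ Fbar).index = 1 ∨ (Dbar ⊔ Fbar).index = 2 ∨
        ((Dbar ⊔ Fbar).index = 6 ∧
          ¬ commutator (Cfsg.Out ↥(D.group F)) ≤ Dbar ⊔ Fbar)) := by
  obtain ⟨h1, h2, h3, h4, h5, -⟩ :=
    sb_out_struct p f hF hD R T hL hco h0 hsig Dbar Fbar hDbar hFbar
  refine ⟨h1, h2, h3, h4, ?_⟩
  have hsub : {π : Equiv.Perm (Fin D.rank) | ∃ α, SbType R α π} ⊆ {1, fl} := by
    rintro π ⟨α, g, hg⟩
    rcases hcases _ _ hg with h | h
    · left; exact h
    · right; exact h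
  have hcard : Nat.card {π : Equiv.Perm (Fin D.rank) // ∃ α, SbType R α π} =
      Set.ncard {π : Equiv.Perm (Fin D.rank) | ∃ α, SbType R α π} := Nat.card_coe_set_eq _
  have hle : Set.ncard {π : Equiv.Perm (Fin D.rank) | ∃ α, SbType R α π} ≤ 2 := by
    refine (Set.ncard_le_ncard hsub (Set.toFinite _)).trans ?_
    refine (Set.ncard_insert_le _ _).trans ?_
    rw [Set.ncard_singleton]
  have hpos : 0 < Set.ncard {π : Equiv.Perm (Fin D.rank) | ∃ α, SbType R α π} :=
    (Set.ncard_pos (Set.toFinite _)).mpr ⟨1, 1, sb_type_one R⟩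
  rw [h5, hcard]
  omega

/-- A graph automorphism with signs induces its permutation of the diagram. -/
theorem sb_data_of_gs (hD : D ∈ [chevG2, chevB2, chevD4, chevF4, chevE6, chevE7, chevE8])
    (R : BRel D F η) (π : Equiv.Perm (Fin D.rank)) (ρ ρ' : ℕ → ℕ) (ε : ℕ → ℤ)
    (hOK : ∀ r < D.nroots, gsRootOK D ρ ρ' ε r = true)
    (hpos : ∀ r, D.IsPosRoot r → D.IsPosRoot (ρ r)) (hneg : ∀ r, D.IsNegRoot r → D.IsNegRoot (ρ r))
    (hga : ∀ j : Fin D.rank, ρ (D.simple j) = D.simple (π j) ∧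
      ρ (D.neg (D.simple j)) = D.neg (D.simple (π j)) ∧
      ε (D.simple j) = 1 ∧ ε (D.neg (D.simple j)) = 1) :
    ∃ γ : MulAut ↥(D.group F), SbData R γ π := by
  obtain ⟨γ, hγ⟩ := gs_main hD ρ ρ' ε hOK (K := F)
  refine ⟨γ, ?_, fun _ => 1, fun _ => RingHom.id F, fun _ => one_ne_zero, ?_⟩
  · apply sb_norm_of_gens R
    · intro g r t hr hg
      have h1 := hγ g r t hr.1 (by rw [hg, xGL_val])
      rw [eq_xGL R.xadd h1]
      exact xGL_mem_posUnipotent _ (hpos r hr) _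
    · intro g r t hr hg
      have h1 := hγ g r t hr.1 (by rw [hg, xGL_val])
      rw [eq_xGL R.xadd h1]
      exact xGL_mem_negUnipotent _ (hneg r hr) _
  · intro i t x
    obtain ⟨g1, g2, g3, g4⟩ := hga i
    have hlt := R.wf.simple_lt i i.isLt
    constructor
    · intro hx
      have h1 := hγ x _ t (R.wf.neg_lt _ hlt) (by rw [hx, xGL_val])
      rw [g2, g4, Int.cast_one, one_mul] at h1
      rw [eq_xGL R.xadd h1, one_mul]
      rfl
    · intro hx
      have h1 := hγ x _ t hlt (by rw [hx, xGL_val])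
      rw [g1, g3, Int.cast_one, one_mul] at h1
      rw [eq_xGL R.xadd h1, inv_one, one_mul]
      rfl

end

end Cfsg.Agent.Helper36
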