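import Cfsg.Agent.Helper36.SbU

/-!
# Automorphisms of Chevalley groups, XVII: the structure of `Out` for the seven types (helper36)

`sb_x_out`: for each type, `D̄` is normal abelian, `F̄` cyclic, `D̄ F̄` normal of index 1 or 2, or (type `D₄`) of
index 6 with non-abelian quotient.
-/

set_option autoImplicit false
set_option linter.unusedSectionVars false
set_option linter.unusedVariables false

namespace Cfsg.Agent.Helper36

open Cfsg Cfsg.Lie Cfsg.Agent.Helper17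

theorem sb_d4_perm_inj : ∀ k k' : Fin 6, sbFlD4 k.val 0 = sbFlD4 k'.val 0 →
    sbFlD4 k.val 2 = sbFlD4 k'.val 2 → k = k' := by decide

theorem sb_d4_noncomm : sbPermD4 1 (by decide) * sbPermD4 3 (by decide) *
    (sbPermD4 1 (by decide))⁻¹ * (sbPermD4 3 (by decide))⁻¹ ≠ 1 := by decide

section

variable {F : Type*} [Field F] [Fintype F] {η : ℕ → ℕ → ℤ}

theorem sb_d4_graph (R : BRel chevD4 F η) (k : Fin 6) :
    ∃ γ : MulAut ↥(chevD4.group F), SbData R γ (sbPermD4 k.val k.isLt) :=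
  sb_data_of_gs (by simp) R (sbPermD4 k.val k.isLt) (gsRhoD4 k.val) (gsRhoD4 (sbInvD4 k.val))
    (gsEpsD4 k.val) (gsOK_D4 k.val k.isLt)
    (fun r hr => (sb_d4_ga_pos k.val k.isLt r hr.1).1 hr)
    (fun r hr => (sb_d4_ga_pos k.val k.isLt r hr.1).2 hr)
    (fun j => sb_d4_ga k.val k.isLt j.val j.isLt)

theorem sb_g2_out (p f : ℕ) [Fact p.Prime] [CharP F p] (hF : Fintype.card F = p ^ f)
    (Dbar Fbar : Subgroup (Cfsg.Out ↥(chevG2.group F)))
    (hDbar : Dbar = (Subgroup.closure {φ : MulAut ↥(chevG2.group F) | chevG2.IsDiagonalAut φ}).map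
      (QuotientGroup.mk' (Cfsg.Inn ↥(chevG2.group F))))
    (hFbar : Fbar = (Subgroup.closure {φ : MulAut ↥(chevG2.group F) | chevG2.IsFieldAut φ}).map
      (QuotientGroup.mk' (Cfsg.Inn ↥(chevG2.group F)))) :
    Dbar.Normal ∧ IsMulCommutative ↥Dbar ∧ IsCyclic ↥Fbar ∧ (Dbar ⊔ Fbar).Normal ∧
      ((Dbar ⊔ Fbar).index = 1 ∨ (Dbar ⊔ Fbar).index = 2 ∨
        ((Dbar ⊔ Fbar).index = 6 ∧
          ¬ commutator (Cfsg.Out ↥(chevG2.group F)) ≤ Dbar ⊔ Fbar)) := by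
  have hD : chevG2 ∈ [chevG2, chevB2, chevD4, chevF4, chevE6, chevE7, chevE8] := by simp
  have R := bRel_of_mem (F := F) hD
  obtain ⟨co, hco⟩ := sbCoord_exists hD
  exact sb_out_final_two p f hF hD R sbTab_G2 sbLong_G2 hco (by decide)
    (fun β c σ hc hβ => sb_g2_sig R β c σ hc hβ) sbPermG2
    (fun β π h => (sb_g2_types p f hF R h).imp id And.right) Dbar Fbar hDbar hFbar

theorem sb_b2_out (p f : ℕ) [Fact p.Prime] [CharP F p] (hF : Fintype.card F = p ^ f)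
    (Dbar Fbar : Subgroup (Cfsg.Out ↥(chevB2.group F)))
    (hDbar : Dbar = (Subgroup.closure {φ : MulAut ↥(chevB2.group F) | chevB2.IsDiagonalAut φ}).map
      (QuotientGroup.mk' (Cfsg.Inn ↥(chevB2.group F))))
    (hFbar : Fbar = (Subgroup.closure {φ : MulAut ↥(chevB2.group F) | chevB2.IsFieldAut φ}).map
      (QuotientGroup.mk' (Cfsg.Inn ↥(chevB2.group F)))) :
    Dbar.Normal ∧ IsMulCommutative ↥Dbar ∧ IsCyclic ↥Fbar ∧ (Dbar ⊔ Fbar).Normal ∧
      ((Dbar ⊔ Fbar).index = 1 ∨ (Dbar ⊔ Fbar).index = 2 ∨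
        ((Dbar ⊔ Fbar).index = 6 ∧
          ¬ commutator (Cfsg.Out ↥(chevB2.group F)) ≤ Dbar ⊔ Fbar)) := by
  have hD : chevB2 ∈ [chevG2, chevB2, chevD4, chevF4, chevE6, chevE7, chevE8] := by simp
  have R := bRel_of_mem (F := F) hD
  obtain ⟨co, hco⟩ := sbCoord_exists hD
  exact sb_out_final_two p f hF hD R sbTab_B2 sbLong_B2 hco (by decide)
    (fun β c σ hc hβ => sb_b2_sig R β c σ hc hβ) sbPermB2
    (fun β π h => (sb_b2_types p R h).imp id And.right) Dbar Fbar hDbar hFbar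

theorem sb_f4_out (p f : ℕ) [Fact p.Prime] [CharP F p] (hF : Fintype.card F = p ^ f)
    (Dbar Fbar : Subgroup (Cfsg.Out ↥(chevF4.group F)))
    (hDbar : Dbar = (Subgroup.closure {φ : MulAut ↥(chevF4.group F) | chevF4.IsDiagonalAut φ}).map
      (QuotientGroup.mk' (Cfsg.Inn ↥(chevF4.group F))))
    (hFbar : Fbar = (Subgroup.closure {φ : MulAut ↥(chevF4.group F) | chevF4.IsFieldAut φ}).map
      (QuotientGroup.mk' (Cfsg.Inn ↥(chevF4.group F)))) :
    Dbar.Normal ∧ IsMulCommutative ↥Dbar ∧ IsCyclic ↥Fbar ∧ (Dbar ⊔ Fbar).Normal ∧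
      ((Dbar ⊔ Fbar).index = 1 ∨ (Dbar ⊔ Fbar).index = 2 ∨
        ((Dbar ⊔ Fbar).index = 6 ∧
          ¬ commutator (Cfsg.Out ↥(chevF4.group F)) ≤ Dbar ⊔ Fbar)) := by
  have hD : chevF4 ∈ [chevG2, chevB2, chevD4, chevF4, chevE6, chevE7, chevE8] := by simp
  have R := bRel_of_mem (F := F) hD
  obtain ⟨co, hco⟩ := sbCoord_exists hD
  exact sb_out_final_two p f hF hD R sbTab_F4 sbLong_F4 hco (by decide)
    (fun β c σ hc hβ => sb_f4_sig R β c σ hc hβ) sbPermF4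
    (fun β π h => (sb_f4_types p R h).imp id And.right) Dbar Fbar hDbar hFbar

theorem sb_e6_out (p f : ℕ) [Fact p.Prime] [CharP F p] (hF : Fintype.card F = p ^ f)
    (Dbar Fbar : Subgroup (Cfsg.Out ↥(chevE6.group F)))
    (hDbar : Dbar = (Subgroup.closure {φ : MulAut ↥(chevE6.group F) | chevE6.IsDiagonalAut φ}).map
      (QuotientGroup.mk' (Cfsg.Inn ↥(chevE6.group F))))
    (hFbar : Fbar = (Subgroup.closure {φ : MulAut ↥(chevE6.group F) | chevE6.IsFieldAut φ}).map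
      (QuotientGroup.mk' (Cfsg.Inn ↥(chevE6.group F)))) :
    Dbar.Normal ∧ IsMulCommutative ↥Dbar ∧ IsCyclic ↥Fbar ∧ (Dbar ⊔ Fbar).Normal ∧
      ((Dbar ⊔ Fbar).index = 1 ∨ (Dbar ⊔ Fbar).index = 2 ∨
        ((Dbar ⊔ Fbar).index = 6 ∧
          ¬ commutator (Cfsg.Out ↥(chevE6.group F)) ≤ Dbar ⊔ Fbar)) := by
  have hD : chevE6 ∈ [chevG2, chevB2, chevD4, chevF4, chevE6, chevE7, chevE8] := by simp
  have R := bRel_of_mem (F := F) hD
  exact sb_out_final_two p f hF hD R sbTab_E6 sbLong_E6 sbCoord_E6 (by decide)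
    (fun β c σ hc hβ => sb_e6_sig R β c σ hc hβ) sbPermE6
    (fun β π h => sb_e6_types R h) Dbar Fbar hDbar hFbar

theorem sb_e7_out (p f : ℕ) [Fact p.Prime] [CharP F p] (hF : Fintype.card F = p ^ f)
    (Dbar Fbar : Subgroup (Cfsg.Out ↥(chevE7.group F)))
    (hDbar : Dbar = (Subgroup.closure {φ : MulAut ↥(chevE7.group F) | chevE7.IsDiagonalAut φ}).map
      (QuotientGroup.mk' (Cfsg.Inn ↥(chevE7.group F))))
    (hFbar : Fbar = (Subgroup.closure {φ : MulAut ↥(chevE7.group F) | chevE7.IsFieldAut φ}).map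
      (QuotientGroup.mk' (Cfsg.Inn ↥(chevE7.group F)))) :
    Dbar.Normal ∧ IsMulCommutative ↥Dbar ∧ IsCyclic ↥Fbar ∧ (Dbar ⊔ Fbar).Normal ∧
      ((Dbar ⊔ Fbar).index = 1 ∨ (Dbar ⊔ Fbar).index = 2 ∨
        ((Dbar ⊔ Fbar).index = 6 ∧
          ¬ commutator (Cfsg.Out ↥(chevE7.group F)) ≤ Dbar ⊔ Fbar)) := by
  have hD : chevE7 ∈ [chevG2, chevB2, chevD4, chevF4, chevE6, chevE7, chevE8] := by simp
  have R := bRel_of_mem (F := F) hD
  exact sb_out_final_two p f hF hD R sbTab_E7 sbLong_E7 sbCoord_E7 (by decide)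
    (fun β c σ hc hβ => sb_e7_sig R β c σ hc hβ) 1
    (fun β π h => Or.inl (sb_e7_types R h)) Dbar Fbar hDbar hFbar

theorem sb_e8_out (p f : ℕ) [Fact p.Prime] [CharP F p] (hF : Fintype.card F = p ^ f)
    (Dbar Fbar : Subgroup (Cfsg.Out ↥(chevE8.group F)))
    (hDbar : Dbar = (Subgroup.closure {φ : MulAut ↥(chevE8.group F) | chevE8.IsDiagonalAut φ}).map
      (QuotientGroup.mk' (Cfsg.Inn ↥(chevE8.group F))))
    (hFbar : Fbar = (Subgroup.closure {φ : MulAut ↥(chevE8.group F) | chevE8.IsFieldAut φ}).map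
      (QuotientGroup.mk' (Cfsg.Inn ↥(chevE8.group F)))) :
    Dbar.Normal ∧ IsMulCommutative ↥Dbar ∧ IsCyclic ↥Fbar ∧ (Dbar ⊔ Fbar).Normal ∧
      ((Dbar ⊔ Fbar).index = 1 ∨ (Dbar ⊔ Fbar).index = 2 ∨
        ((Dbar ⊔ Fbar).index = 6 ∧
          ¬ commutator (Cfsg.Out ↥(chevE8.group F)) ≤ Dbar ⊔ Fbar)) := by
  have hD : chevE8 ∈ [chevG2, chevB2, chevD4, chevF4, chevE6, chevE7, chevE8] := by simp
  have R := bRel_of_mem (F := F) hD
  obtain ⟨co, hco⟩ := sbCoord_exists hD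
  exact sb_out_final_two p f hF hD R sbTab_E8 sbLong_E8 hco (by decide)
    (fun β c σ hc hβ => sb_e8_sig R β c σ hc hβ) 1
    (fun β π h => Or.inl (sb_e8_types R h)) Dbar Fbar hDbar hFbar

theorem sb_d4_out (p f : ℕ) [Fact p.Prime] [CharP F p] (hF : Fintype.card F = p ^ f)
    (Dbar Fbar : Subgroup (Cfsg.Out ↥(chevD4.group F)))
    (hDbar : Dbar = (Subgroup.closure {φ : MulAut ↥(chevD4.group F) | chevD4.IsDiagonalAut φ}).map
      (QuotientGroup.mk' (Cfsg.Inn ↥(chevD4.group F))))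
    (hFbar : Fbar = (Subgroup.closure {φ : MulAut ↥(chevD4.group F) | chevD4.IsFieldAut φ}).map
      (QuotientGroup.mk' (Cfsg.Inn ↥(chevD4.group F)))) :
    Dbar.Normal ∧ IsMulCommutative ↥Dbar ∧ IsCyclic ↥Fbar ∧ (Dbar ⊔ Fbar).Normal ∧
      ((Dbar ⊔ Fbar).index = 1 ∨ (Dbar ⊔ Fbar).index = 2 ∨
        ((Dbar ⊔ Fbar).index = 6 ∧
          ¬ commutator (Cfsg.Out ↥(chevD4.group F)) ≤ Dbar ⊔ Fbar)) := by
  classical
  have hD : chevD4 ∈ [chevG2, chevB2, chevD4, chevF4, chevE6, chevE7, chevE8] := by simp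
  have R := bRel_of_mem (F := F) hD
  obtain ⟨co, hco⟩ := sbCoord_exists hD
  obtain ⟨h1, h2, h3, h4, h5, h6⟩ := sb_out_struct p f hF hD R sbTab_D4 sbLong_D4 hco (by decide)
    (fun β c σ hc hβ => sb_d4_sig R β c σ hc hβ) Dbar Fbar hDbar hFbar
  refine ⟨h1, h2, h3, h4, Or.inr (Or.inr ⟨?_, ?_⟩)⟩
  · rw [h5]
    have hbij : Function.Bijective (fun k : Fin 6 =>
        (⟨sbPermD4 k.val k.isLt, (sb_d4_graph R k).choose, 1, by
          rw [map_one, one_mul]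
          exact (sb_d4_graph R k).choose_spec⟩ :
          {π : Equiv.Perm (Fin chevD4.rank) // ∃ α, SbType R α π})) := by
      constructor
      · intro k k' hkk
        have e : sbPermD4 k.val k.isLt = sbPermD4 k'.val k'.isLt := congrArg Subtype.val hkk
        have e0 := congrArg (fun π : Equiv.Perm (Fin 4) => (π 0).val) e
        have e2 := congrArg (fun π : Equiv.Perm (Fin 4) => (π 2).val) e
        exact sb_d4_perm_inj k k' e0 e2
      · rintro ⟨π, α, g, hg⟩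
        obtain ⟨k, hk⟩ := sb_d4_types R hg
        exact ⟨k, Subtype.ext hk.symm⟩
    rw [← Nat.card_congr (Equiv.ofBijective _ hbij), Nat.card_eq_fintype_card, Fintype.card_fin]
  · intro hcomm
    obtain ⟨γ1, hγ1⟩ := sb_d4_graph R 1
    obtain ⟨γ3, hγ3⟩ := sb_d4_graph R 3
    have t1 : SbType R γ1 (sbPermD4 1 (by decide)) := ⟨1, by rw [map_one, one_mul]; exact hγ1⟩
    have t3 : SbType R γ3 (sbPermD4 3 (by decide)) := ⟨1, by rw [map_one, one_mul]; exact hγ3⟩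
    have hmem : QuotientGroup.mk' (Cfsg.Inn ↥(chevD4.group F)) (γ1 * γ3 * γ1⁻¹ * γ3⁻¹) ∈
        Dbar ⊔ Fbar := by
      apply hcomm
      rw [map_mul, map_mul, map_mul, map_inv, map_inv]
      exact Subgroup.commutator_mem_commutator (Subgroup.mem_top _) (Subgroup.mem_top _)
    have ht := h6 _ hmem
    have ht' : SbType R (γ1 * γ3 * γ1⁻¹ * γ3⁻¹) (sbPermD4 1 (by decide) * sbPermD4 3 (by decide) *
        (sbPermD4 1 (by decide))⁻¹ * (sbPermD4 3 (by decide))⁻¹) :=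
      ((t1.mul t3).mul (SbType.inv p hD sbTab_D4 sbLong_D4 t1)).mul
        (SbType.inv p hD sbTab_D4 sbLong_D4 t3)
    exact sb_d4_noncomm (sb_type_unique hD R sbTab_D4 sbLong_D4 ht' ht)

end

end Cfsg.Agent.Helper36
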