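import Cfsg.Agent.Helper36.Tz20
import Mathlib.GroupTheory.IsPerfect

/-!
# `²F₄(2^(2m+1))`, `m ≥ 1`, is simple (helper36)
-/

set_option autoImplicit false
set_option maxRecDepth 100000

namespace Cfsg.Agent.Helper36

open Cfsg Cfsg.Lie Cfsg.Agent.Helper17

/-- The negatives of the two fundamental classes. -/
def tfNegJ (j : Bool) : List ℕ := if j then [14, 23] else [20, 22, 19, 17]

theorem tfPerm_one : ∀ s < 48, tfPerm 1 s = s := by decide +kernel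

theorem tfNegJ_lt : ∀ j : Bool, ∀ r ∈ tfNegJ j, r < 48 := by decide

theorem tf_neg_cases : ∀ d : DihedralGroup 8, d ≠ 1 →
    ∃ j : Bool, ∀ r ∈ (tfNegJ j).map (tfPerm d⁻¹), chevF4.IsPosRoot r := by decide +kernel

theorem tf_neg_step : ∀ j : Bool,
    (∀ r ∈ (tfNegJ (!j)).map (tfPerm ((tfS (!j) * (tfS (!j) * tfS j)⁻¹)⁻¹)⁻¹),
      chevF4.IsPosRoot r) ∧
    (∀ r ∈ (tfNegJ (!j)).map (tfPerm (((tfS (!j) * tfS j)⁻¹)⁻¹)⁻¹), chevF4.IsPosRoot r) := by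
  decide +kernel

section tz21

variable {K : Type*} [Field K]

theorem TfCos.inv {d : DihedralGroup 8} {x : GL chevF4.Idx K} (hx : TfCos K d x) :
    TfCos K d⁻¹ x⁻¹ := by
  have R := bRel_of_mem (F := K) f4_mem
  have h1 : tfNW K (tfWord d) * tfNW K (tfWord d⁻¹) ∈ chevF4.diagonalSubgroup K := by
    have h := (TfCos.self (K := K) d).mul (TfCos.self d⁻¹)
    rw [mul_inv_cancel] at h
    exact TfCos.one_iff.mp h
  unfold TfCos at hx ⊢
  have e : (tfNW K (tfWord d⁻¹))⁻¹ * x⁻¹ =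
      ((tfNW K (tfWord d) * ((tfNW K (tfWord d))⁻¹ * x) * (tfNW K (tfWord d))⁻¹) *
        (tfNW K (tfWord d) * tfNW K (tfWord d⁻¹)))⁻¹ := by group
  rw [e]
  exact inv_mem (mul_mem (R.N_conj_H _ (tfNW_mem (tfWord_valid d)) _ hx) h1)

theorem TfCos.nJ (j : Bool) : TfCos K (tfS j) (tfNW K (tfJ j)) := by
  have h := TfCos.self (K := K) (tfS j)
  rw [tfS_word] at h
  exact h

/-- Conjugating a negative class into `U`. -/
theorem tf_neg_gen_conj {d : DihedralGroup 8} {n : GL chevF4.Idx K} (hn : TfCos K d n)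
    (J : List ℕ) (hJ : ∀ r ∈ J, r < 48)
    (hpos : ∀ r ∈ J.map (tfPerm d⁻¹), chevF4.IsPosRoot r) :
    ∀ y ∈ rootsSubgroup chevF4 K J, n⁻¹ * y * n ∈ chevF4.posUnipotent K := by
  have R := bRel_of_mem (F := K) f4_mem
  intro y hy
  have hJ' : ∀ r ∈ J.map (tfPerm d⁻¹), r < 48 := by
    intro r hr
    obtain ⟨s, hs, rfl⟩ := List.mem_map.mp hr
    exact tfPerm_lt _ s (hJ s hs)
  have hmap : (J.map (tfPerm d⁻¹)).map (tfPerm d) = J := by
    rw [List.map_map]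
    have : ∀ r ∈ J, (tfPerm d ∘ tfPerm d⁻¹) r = id r := by
      intro r hr
      show tfPerm d (tfPerm d⁻¹ r) = r
      rw [← tfPerm_mul d d⁻¹ r (hJ r hr), mul_inv_cancel, tfPerm_one r (hJ r hr)]
    rw [List.map_congr_left this, List.map_id]
  have h1 := (tf_conj_roots (K := K) (J.map (tfPerm d⁻¹)) hJ' d).2 y (by rw [hmap]; exact hy)
  have h2 := roots_le_U hpos h1
  have e : n⁻¹ * y * n = ((tfNW K (tfWord d))⁻¹ * n)⁻¹ *
      ((tfNW K (tfWord d))⁻¹ * y * tfNW K (tfWord d)) * ((tfNW K (tfWord d))⁻¹ * n)⁻¹⁻¹ := by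
    group
  rw [e]
  exact (Subgroup.mem_normalizer_iff.mp (R.hU (inv_mem hn)) _).mp h2

variable [CharP K 2] [Fintype K] {m : ℕ} {σ : ↥(chevF4.group K) →* ↥(chevF4.group K)}

theorem tf_U_solvable (hK : Fintype.card K = 2 ^ (2 * m + 1)) :
    Group.IsSolvable ↥(chevF4.posUnipotent K ⊓ twistedF4 K (2 ^ m)) := by
  haveI : Fact (Nat.Prime 2) := ⟨Nat.prime_two⟩
  have hc : Nat.card ↥(chevF4.posUnipotent K ⊓ twistedF4 K (2 ^ m)) = 2 ^ ((2 * m + 1) * 12) := by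
    rw [tf_U_card hK, pow_mul]
  have hnil := (IsPGroup.of_card hc).isNilpotent
  infer_instance

/-- A subgroup containing `U¹` and a representative of `d` contains a negative class. -/
theorem tf_negIn_of (hK : Fintype.card K = 2 ^ (2 * m + 1))
    (hσ : TzSig chevF4 K gaRhoF4 (tfPw K m) σ) {T : Subgroup (GL chevF4.Idx K)}
    (hTG : T ≤ twistedF4 K (2 ^ m))
    (hTU : chevF4.posUnipotent K ⊓ twistedF4 K (2 ^ m) ≤ T) {d : DihedralGroup 8}
    {n : GL chevF4.Idx K} (hnT : n ∈ T) (hn : TfCos K d n) (j : Bool)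
    (hpos : ∀ r ∈ (tfNegJ j).map (tfPerm d⁻¹), chevF4.IsPosRoot r) :
    ∀ y ∈ rootsSubgroup chevF4 K (tfNegJ j), y ∈ twistedF4 K (2 ^ m) → y ∈ T := by
  intro y hy hyG
  have hnG := hTG hnT
  have h1 : n⁻¹ * y * n ∈ T :=
    hTU (Subgroup.mem_inf.mpr ⟨tf_neg_gen_conj hn (tfNegJ j) (tfNegJ_lt j) hpos y hy,
      mul_mem (mul_mem (inv_mem hnG) hyG) hnG⟩)
  have e : y = n * (n⁻¹ * y * n) * n⁻¹ := by group
  rw [e]
  exact mul_mem (mul_mem hnT h1) (inv_mem hnT)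

/-- A subgroup containing `U¹` and a negative class contains the reflection. -/
theorem tf_nJ_mem_of (hX : XAdd chevF4 K) {T : Subgroup (GL chevF4.Idx K)}
    (hTU : chevF4.posUnipotent K ⊓ twistedF4 K (2 ^ m) ≤ T) (j : Bool)
    (hneg : ∀ y ∈ rootsSubgroup chevF4 K (tfNegJ j), y ∈ twistedF4 K (2 ^ m) → y ∈ T) :
    tfNW K (tfJ j) ∈ T := by
  cases j with
  | true =>
    have e : tfJ true = [0, 3] := rfl
    rw [e, tfN1_eq hX m]
    have hp : tfP hX m 33 24 1 ∈ T :=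
      hTU (Subgroup.mem_inf.mpr ⟨mul_mem (xGL_mem_posUnipotent hX (by decide) _)
        (xGL_mem_posUnipotent hX (by decide) _), tfP_mem_pos hX m 1⟩)
    have hq : tfP hX m 14 23 1 ∈ T :=
      hneg _ (mul_mem (xGL_mem_roots hX (by decide) _) (xGL_mem_roots hX (by decide) _))
        (tfP_mem_neg hX m 1)
    exact mul_mem (mul_mem hp hq) hp
  | false =>
    have e : tfJ false = [1, 2, 1, 2] := rfl
    rw [e, tfN2_eq hX m]
    have hp : ∀ t u : K, tfB hX m 27 25 28 30 t u ∈ T := fun t u =>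
      hTU (Subgroup.mem_inf.mpr ⟨mul_mem (mul_mem (mul_mem
        (xGL_mem_posUnipotent hX (by decide) _) (xGL_mem_posUnipotent hX (by decide) _))
        (xGL_mem_posUnipotent hX (by decide) _)) (xGL_mem_posUnipotent hX (by decide) _),
        tfB_mem_pos hX m t u⟩)
    have hq : tfB hX m 20 22 19 17 1 0 ∈ T :=
      hneg _ (mul_mem (mul_mem (mul_mem (xGL_mem_roots hX (by decide) _)
        (xGL_mem_roots hX (by decide) _)) (xGL_mem_roots hX (by decide) _))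
        (xGL_mem_roots hX (by decide) _)) (tfB_mem_neg hX m 1 0)
    exact mul_mem (mul_mem (mul_mem (hp _ _) (hp _ _)) hq) (hp _ _)

/-- The irreducibility step: from one negative class to the other. -/
theorem tf_neg_switch (hK : Fintype.card K = 2 ^ (2 * m + 1))
    (hσ : TzSig chevF4 K gaRhoF4 (tfPw K m) σ) {M T : Subgroup (GL chevF4.Idx K)}
    (hMT : M ≤ T) (hTG : T ≤ twistedF4 K (2 ^ m))
    (hTU : chevF4.posUnipotent K ⊓ twistedF4 K (2 ^ m) ≤ T)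
    (hnorm : ∀ g ∈ twistedF4 K (2 ^ m), ∀ x ∈ M, g * x * g⁻¹ ∈ M)
    (hquot : ∀ t ∈ T, ∃ u ∈ chevF4.posUnipotent K ⊓ twistedF4 K (2 ^ m), t * u⁻¹ ∈ M)
    (j : Bool)
    (hneg : ∀ y ∈ rootsSubgroup chevF4 K (tfNegJ j), y ∈ twistedF4 K (2 ^ m) → y ∈ T) :
    ∀ y ∈ rootsSubgroup chevF4 K (tfNegJ (!j)), y ∈ twistedF4 K (2 ^ m) → y ∈ T := by
  have R := bRel_of_mem (F := K) f4_mem
  have hX := R.xadd
  have hFix := tf_fix_eq hK hσ
  have hnjT : tfNW K (tfJ j) ∈ T := tf_nJ_mem_of hX hTU j hneg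
  obtain ⟨u₀, hu₀, hμ⟩ := hquot _ hnjT
  obtain ⟨hu₀U, hu₀G⟩ := Subgroup.mem_inf.mp hu₀
  have hsG : tfNW K (tfJ (!j)) ∈ twistedF4 K (2 ^ m) := tfNJ_mem m (!j)
  have hjG : tfNW K (tfJ j) ∈ twistedF4 K (2 ^ m) := tfNJ_mem m j
  have hμ' : tfNW K (tfJ (!j)) * u₀ * (tfNW K (tfJ (!j)) * tfNW K (tfJ j))⁻¹ ∈ M := by
    have h1 := inv_mem (hnorm _ hsG _ hμ)
    have e : (tfNW K (tfJ (!j)) * (tfNW K (tfJ j) * u₀⁻¹) * (tfNW K (tfJ (!j)))⁻¹)⁻¹ =
        tfNW K (tfJ (!j)) * u₀ * (tfNW K (tfJ (!j)) * tfNW K (tfJ j))⁻¹ := by group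
    rwa [e] at h1
  have hcn : TfCos K (tfS (!j) * tfS j)⁻¹ (tfNW K (tfJ (!j)) * tfNW K (tfJ j))⁻¹ :=
    ((TfCos.nJ (!j)).mul (TfCos.nJ j)).inv
  have hnN : (tfNW K (tfJ (!j)) * tfNW K (tfJ j))⁻¹ ∈ chevF4.monomialSubgroup K ⊓ tzFix σ := by
    rw [hFix]
    exact Subgroup.mem_inf.mpr ⟨inv_mem (mul_mem (tfNJ_mem_N _) (tfNJ_mem_N _)),
      inv_mem (mul_mem hsG hjG)⟩
  have hbB : u₀ ∈ chevF4.borelSubgroup K ⊓ tzFix σ := by
    rw [hFix]
    exact Subgroup.mem_inf.mpr ⟨BRel.U_le_B _ _ hu₀U, hu₀G⟩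
  -- the common conclusion for both double cosets
  have fin : ∀ (e : DihedralGroup 8) (n'' x y : GL chevF4.Idx K), TfCos K e n'' →
      x ∈ chevF4.borelSubgroup K ⊓ tzFix σ → y ∈ chevF4.borelSubgroup K ⊓ tzFix σ →
      x * n'' * y ∈ M →
      (∀ r ∈ (tfNegJ (!j)).map (tfPerm (e⁻¹)⁻¹), chevF4.IsPosRoot r) →
      ∀ y ∈ rootsSubgroup chevF4 K (tfNegJ (!j)), y ∈ twistedF4 K (2 ^ m) → y ∈ T := by
    intro e n'' x y hc hx hy hM hpos
    obtain ⟨ux, hux, hx', hhx, rfl⟩ := tf_B_decomp hK hσ (Subgroup.mem_inf.mp hx).1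
      (Subgroup.mem_inf.mp hx).2
    obtain ⟨uy, huy, hy', hhy, ey⟩ := tf_B_decomp hK hσ (inv_mem (Subgroup.mem_inf.mp hy).1)
      (inv_mem (Subgroup.mem_inf.mp hy).2)
    have ey' : y = hy'⁻¹ * uy⁻¹ := by
      have : y = (y⁻¹)⁻¹ := (inv_inv y).symm
      rw [this, ey]; group
    rw [hFix] at hux huy
    have hn3 : hx' * n'' * hy'⁻¹ ∈ T := by
      have e3 : hx' * n'' * hy'⁻¹ = ux⁻¹ * (ux * hx' * n'' * y) * uy := by
        rw [ey']; group
      rw [e3]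
      exact mul_mem (mul_mem (inv_mem (hTU hux)) (hMT hM)) (hTU huy)
    have hc3 : TfCos K e (hx' * n'' * hy'⁻¹) := by
      have h := ((TfCos.one_iff.mpr (Subgroup.mem_inf.mp hhx).1).mul hc).mul
        (TfCos.one_iff.mpr (inv_mem (Subgroup.mem_inf.mp hhy).1))
      rw [one_mul, mul_one] at h
      exact h
    exact tf_negIn_of hK hσ hTG hTU (inv_mem hn3) hc3.inv (!j) hpos
  obtain ⟨hp1, hp2⟩ := tf_neg_step j
  rcases tf_bn_mul hK hσ (!j) hnN hbB with ⟨x, hx, y, hy, e⟩ | ⟨x, hx, y, hy, e⟩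
  · rw [e] at hμ'
    exact fin _ _ x y ((TfCos.nJ (!j)).mul hcn) hx hy hμ' hp1
  · rw [e] at hμ'
    exact fin _ _ x y hcn hx hy hμ' hp2

/-- A subgroup `T = M U¹` with `M` normal and not contained in `B` is everything. -/
theorem tf_simple_aux (hK : Fintype.card K = 2 ^ (2 * m + 1))
    (hσ : TzSig chevF4 K gaRhoF4 (tfPw K m) σ) {M T : Subgroup (GL chevF4.Idx K)}
    (hMT : M ≤ T) (hTG : T ≤ twistedF4 K (2 ^ m))
    (hTU : chevF4.posUnipotent K ⊓ twistedF4 K (2 ^ m) ≤ T)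
    (hnorm : ∀ g ∈ twistedF4 K (2 ^ m), ∀ x ∈ M, g * x * g⁻¹ ∈ M)
    (hquot : ∀ t ∈ T, ∃ u ∈ chevF4.posUnipotent K ⊓ twistedF4 K (2 ^ m), t * u⁻¹ ∈ M)
    {x : GL chevF4.Idx K} (hxM : x ∈ M) (hxB : x ∉ chevF4.borelSubgroup K) :
    twistedF4 K (2 ^ m) ≤ T := by
  have R := bRel_of_mem (F := K) f4_mem
  have hX := R.xadd
  have hFix := tf_fix_eq hK hσ
  have hxG := hTG (hMT hxM)
  obtain ⟨d, u, hu, h, hh, u₂, hu₂, e⟩ := tf_cell_exists hK hσ (by rw [hFix]; exact hxG)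
  rw [hFix] at hu hh hu₂
  obtain ⟨huU, huG⟩ := Subgroup.mem_inf.mp hu
  obtain ⟨hhH, hhG⟩ := Subgroup.mem_inf.mp hh
  obtain ⟨hu₂R, hu₂G⟩ := Subgroup.mem_inf.mp hu₂
  have hu₂U : u₂ ∈ chevF4.posUnipotent K :=
    unGens_le_posUnipotent _ (tf_roots_le_unGens d hu₂R)
  have hnT : h * tfNW K (tfWord d) ∈ T := by
    have e2 : h * tfNW K (tfWord d) = u⁻¹ * x * u₂⁻¹ := by rw [e]; group
    rw [e2]
    exact mul_mem (mul_mem (inv_mem (hTU hu)) (hMT hxM))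
      (inv_mem (hTU (Subgroup.mem_inf.mpr ⟨hu₂U, hu₂G⟩)))
  have hc : TfCos K d (h * tfNW K (tfWord d)) := by
    have h1 := (TfCos.one_iff.mpr hhH).mul (TfCos.self (K := K) d)
    rw [one_mul] at h1
    exact h1
  have hd : d ≠ 1 := by
    rintro rfl
    apply hxB
    rw [e]
    exact mul_mem (mul_mem (mul_mem (BRel.U_le_B _ _ huU) (BRel.H_le_B _ _ hhH))
      (BRel.H_le_B _ _ (TfCos.one_iff.mp (TfCos.self 1)))) (BRel.U_le_B _ _ hu₂U)
  obtain ⟨j, hpos⟩ := tf_neg_cases d hd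
  have hj := tf_negIn_of hK hσ hTG hTU hnT hc j hpos
  have hj' := tf_neg_switch hK hσ hMT hTG hTU hnorm hquot j hj
  have hboth : ∀ b : Bool, ∀ y ∈ rootsSubgroup chevF4 K (tfNegJ b),
      y ∈ twistedF4 K (2 ^ m) → y ∈ T := by
    intro b
    cases j with
    | true =>
      cases b with
      | true => exact hj
      | false => exact hj'
    | false =>
      cases b with
      | true => exact hj'
      | false => exact hj
  unfold twistedF4 ChevalleyDatum.genSubgroup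
  rw [Subgroup.closure_le]
  rintro g ⟨w, ⟨t, rfl | rfl⟩ | ⟨t, u', rfl | rfl⟩, hgw⟩
  · have e' : g = tfP hX m 33 24 t := Units.ext (by rw [hgw, ← tfP_word, wordGL_val]; rfl)
    rw [e']
    exact hTU (Subgroup.mem_inf.mpr ⟨mul_mem (xGL_mem_posUnipotent hX (by decide) _)
      (xGL_mem_posUnipotent hX (by decide) _), tfP_mem_pos hX m t⟩)
  · have e' : g = tfP hX m 14 23 t := Units.ext (by rw [hgw, ← tfP_word, wordGL_val]; rfl)
    rw [e']
    exact hboth true _ (mul_mem (xGL_mem_roots hX (by decide) _)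
      (xGL_mem_roots hX (by decide) _)) (tfP_mem_neg hX m t)
  · have e' : g = tfB hX m 27 25 28 30 t u' :=
      Units.ext (by rw [hgw, ← tfB_word, wordGL_val]; rfl)
    rw [e']
    exact hTU (Subgroup.mem_inf.mpr ⟨mul_mem (mul_mem (mul_mem
      (xGL_mem_posUnipotent hX (by decide) _) (xGL_mem_posUnipotent hX (by decide) _))
      (xGL_mem_posUnipotent hX (by decide) _)) (xGL_mem_posUnipotent hX (by decide) _),
      tfB_mem_pos hX m t u'⟩)
  · have e' : g = tfB hX m 20 22 19 17 t u' :=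
      Units.ext (by rw [hgw, ← tfB_word, wordGL_val]; rfl)
    rw [e']
    exact hboth false _ (mul_mem (mul_mem (mul_mem (xGL_mem_roots hX (by decide) _)
      (xGL_mem_roots hX (by decide) _)) (xGL_mem_roots hX (by decide) _))
      (xGL_mem_roots hX (by decide) _)) (tfB_mem_neg hX m t u')

end tz21

end Cfsg.Agent.Helper36
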