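import Cfsg.Agent.Helper36.Tz21

/-!
# `²F₄(2^(2m+1))`, `m ≥ 1`, is simple: the statement (helper36)
-/

set_option autoImplicit false
set_option maxRecDepth 100000

namespace Cfsg.Agent.Helper36

open Cfsg Cfsg.Lie Cfsg.Agent.Helper17

section tz22

variable {K : Type*} [Field K] [CharP K 2] [Fintype K] {m : ℕ}

theorem tf_not_comm (hK : Fintype.card K = 2 ^ (2 * m + 1)) :
    ¬ IsMulCommutative ↥(twistedF4 K (2 ^ m)) := by
  obtain ⟨σ, hσ⟩ := exists_tfSig hK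
  have hFix := tf_fix_eq hK hσ
  obtain ⟨b, hb, hne⟩ := tf_bn_conj_ne hK hσ true
  rw [hFix] at hb
  obtain ⟨hbU, hbG⟩ := Subgroup.mem_inf.mp hb
  have hsG := tfNJ_mem (K := K) m true
  intro hc
  apply hne
  have hcomm : (⟨b, hbG⟩ : ↥(twistedF4 K (2 ^ m))) * ⟨tfNW K (tfJ true), hsG⟩ =
      ⟨tfNW K (tfJ true), hsG⟩ * ⟨b, hbG⟩ := hc.is_comm.comm _ _
  have hcomm' : b * tfNW K (tfJ true) = tfNW K (tfJ true) * b := congrArg Subtype.val hcomm
  rw [mul_assoc, hcomm', ← mul_assoc]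
  exact mul_mem (BRel.H_le_B _ _ (tfNJ_sq true)) (BRel.U_le_B _ _ hbU)

/-- `²F₄(2^(2m+1))` is simple for `m ≥ 1`. -/
theorem tf_simple (hK : Fintype.card K = 2 ^ (2 * m + 1)) (hm : 1 ≤ m) :
    IsSimpleGroup ↥(twistedF4 K (2 ^ m)) := by
  obtain ⟨σ, hσ⟩ := exists_tfSig hK
  have R := bRel_of_mem (F := K) f4_mem
  have hX := R.xadd
  have hnt : Nontrivial ↥(twistedF4 K (2 ^ m)) := by
    refine ⟨⟨⟨tfP hX m 33 24 1, tfP_mem_pos hX m 1⟩, 1, fun h => ?_⟩⟩
    have h' : tfP hX m 33 24 1 = 1 := congrArg Subtype.val h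
    rw [← tfP_zero hX m 33 24] at h'
    exact one_ne_zero (tfP_inj hX m h')
  refine ⟨fun M hM => ?_⟩
  by_cases hMB : ∀ x ∈ M, (x : GL chevF4.Idx K) ∈ chevF4.borelSubgroup K
  · left
    rw [Subgroup.eq_bot_iff_forall]
    intro x hx
    apply Subtype.ext
    apply tf_core hK hσ x.2
    intro b hb
    have := hMB _ (hM.conj_mem x hx ⟨b, hb⟩)
    simpa only [Subgroup.coe_mul, Subgroup.coe_inv] using this
  · right
    push Not at hMB
    obtain ⟨x, hxM, hxB⟩ := hMB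
    have hsolv := tf_U_solvable (m := m) hK
    let f : ↥(twistedF4 K (2 ^ m)) →* ↥(twistedF4 K (2 ^ m)) ⧸ M := QuotientGroup.mk' M
    let ι : ↥(chevF4.posUnipotent K ⊓ twistedF4 K (2 ^ m)) →* ↥(twistedF4 K (2 ^ m)) :=
      Subgroup.inclusion inf_le_right
    let T : Subgroup ↥(twistedF4 K (2 ^ m)) := (f.comp ι).range.comap f
    have hTU : ∀ (u : GL chevF4.Idx K) (hu : u ∈ chevF4.posUnipotent K ⊓ twistedF4 K (2 ^ m)),
        (⟨u, (Subgroup.mem_inf.mp hu).2⟩ : ↥(twistedF4 K (2 ^ m))) ∈ T :=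
      fun u hu => ⟨⟨u, hu⟩, rfl⟩
    have hTM : ∀ y ∈ M, y ∈ T := by
      intro y hy
      refine ⟨1, ?_⟩
      rw [map_one]
      exact ((QuotientGroup.eq_one_iff y).mpr hy).symm
    have hle : twistedF4 K (2 ^ m) ≤ T.map (twistedF4 K (2 ^ m)).subtype := by
      apply tf_simple_aux hK hσ (M := M.map (twistedF4 K (2 ^ m)).subtype)
        (x := (x : GL chevF4.Idx K))
      · exact Subgroup.map_mono hTM
      · exact Subgroup.map_subtype_le T
      · intro u hu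
        exact ⟨⟨u, (Subgroup.mem_inf.mp hu).2⟩, hTU u hu, rfl⟩
      · rintro g hg _ ⟨y, hy, rfl⟩
        exact ⟨⟨g, hg⟩ * y * ⟨g, hg⟩⁻¹, hM.conj_mem y hy ⟨g, hg⟩, rfl⟩
      · rintro _ ⟨y, hy, rfl⟩
        obtain ⟨u, hu⟩ := hy
        refine ⟨(u : GL chevF4.Idx K), u.2, ⟨y * (ι u)⁻¹, ?_, rfl⟩⟩
        have h1 : f (y * (ι u)⁻¹) = 1 := by
          rw [map_mul, map_inv]
          have : f (ι u) = f y := hu
          rw [this, mul_inv_cancel]
        exact (QuotientGroup.eq_one_iff _).mp h1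
      · exact ⟨x, hxM, rfl⟩
      · exact hxB
    have hsurj : Function.Surjective (f.comp ι) := by
      intro q
      obtain ⟨g, rfl⟩ := QuotientGroup.mk'_surjective M q
      obtain ⟨y, hy, ey⟩ := hle g.2
      have : y = g := Subtype.ext ey
      rw [this] at hy
      exact hy
    have hperf : Group.IsPerfect ↥(twistedF4 K (2 ^ m)) := ⟨tf_perfect hK hm⟩
    have hsolvQ : Group.IsSolvable (↥(twistedF4 K (2 ^ m)) ⧸ M) :=
      Group.isSolvable_of_surjective hsurj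
    have hsub : Subsingleton (↥(twistedF4 K (2 ^ m)) ⧸ M) :=
      not_nontrivial_iff_subsingleton.mp
        (fun hnt => Group.IsPerfect.not_isSolvable (↥(twistedF4 K (2 ^ m)) ⧸ M) inferInstance)
    exact QuotientGroup.subgroup_eq_top_of_subsingleton M hsub

end tz22

end Cfsg.Agent.Helper36
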