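import Cfsg.Agent.Helper36.Tz23
import Cfsg.Agent.Helper36.Tz21
import Cfsg.Agent.Helper36.EulerFix

/-!
helper36: Bruhat cells of `²F₄(q)`, the two maximal parabolic subgroups, and the primes dividing the order of
the centraliser of an involution.
-/

set_option autoImplicit false
set_option linter.unusedSectionVars false
set_option linter.unusedVariables false

namespace Cfsg.Agent.Helper36

open Cfsg Cfsg.Lie Cfsg.Agent.Helper17

/-- `j` is a right ascent of `d`: `d` keeps the `j`-th fundamental class positive. -/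
def tfAsc (j : Bool) (d : DihedralGroup 8) : Prop := (if j then 33 else 27) ∉ (tfSeg d).flatten

instance (j : Bool) (d : DihedralGroup 8) : Decidable (tfAsc j d) := by
  unfold tfAsc; infer_instance

theorem tfAsc_pos : ∀ j : Bool, ∀ d : DihedralGroup 8, tfAsc j d →
    ∀ r ∈ (tfSeg d).flatten.map (tfPerm (tfS j)), chevF4.IsPosRoot r := by decide +kernel

theorem tfAsc_mul : ∀ j : Bool, ∀ d : DihedralGroup 8, tfAsc j d → ¬ tfAsc j (d * tfS j) := by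
  decide +kernel

theorem tfAsc_mul' : ∀ j : Bool, ∀ d : DihedralGroup 8, ¬ tfAsc j d → tfAsc j (d * tfS j) := by
  decide +kernel

theorem tfAsc_both : ∀ d : DihedralGroup 8, (tfAsc true d ∧ tfAsc false d) ↔ d = 1 := by
  decide +kernel

theorem tfAsc_none : ∀ d : DihedralGroup 8, ¬ tfAsc true d → ¬ tfAsc false d →
    d = DihedralGroup.r 4 := by decide +kernel

theorem tfSeg_map_sq : ∀ j : Bool, ∀ d : DihedralGroup 8,
    ((tfSeg d).flatten.map (tfPerm (tfS j))).map (tfPerm (tfS j)) = (tfSeg d).flatten := by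
  decide +kernel

theorem tfExp_S : tfExp (tfS true) = 1 ∧ tfExp (tfS false) = 2 ∧ tfExp 1 = 0 := by decide +kernel

section tz24

variable {K : Type*} [Field K]

/-- `g ∈ B n_d B` (double coset of the untwisted Borel subgroup). -/
def TfCell (K : Type*) [Field K] (d : DihedralGroup 8) (g : GL chevF4.Idx K) : Prop :=
  ∃ b₁ ∈ chevF4.borelSubgroup K, ∃ b₂ ∈ chevF4.borelSubgroup K, g = b₁ * tfNW K (tfWord d) * b₂

theorem TfCell.unique {d d' : DihedralGroup 8} {g : GL chevF4.Idx K} (h : TfCell K d g)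
    (h' : TfCell K d' g) : d = d' := by
  have R := bRel_of_mem (F := K) f4_mem
  obtain ⟨b₁, hb₁, b₂, hb₂, e⟩ := h
  obtain ⟨b₁', hb₁', b₂', hb₂', e'⟩ := h'
  apply tf_d_unique (K := K)
  apply R.double_coset_unique (tfNW_mem (tfWord_valid d)) (tfNW_mem (tfWord_valid d'))
    (mul_mem (inv_mem hb₁) hb₁') (mul_mem hb₂' (inv_mem hb₂))
  have e1 : tfNW K (tfWord d) = b₁⁻¹ * (b₁ * tfNW K (tfWord d) * b₂) * b₂⁻¹ := by group
  rw [e1, ← e, e']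
  group

theorem TfCell.of_cos {d : DihedralGroup 8} {n : GL chevF4.Idx K} (hn : TfCos K d n)
    {b₁ b₂ : GL chevF4.Idx K} (hb₁ : b₁ ∈ chevF4.borelSubgroup K)
    (hb₂ : b₂ ∈ chevF4.borelSubgroup K) : TfCell K d (b₁ * n * b₂) := by
  refine ⟨b₁, hb₁, (tfNW K (tfWord d))⁻¹ * n * b₂, mul_mem (BRel.H_le_B _ _ hn) hb₂, ?_⟩
  group

theorem TfCell.mul_left {d : DihedralGroup 8} {g b : GL chevF4.Idx K}
    (hb : b ∈ chevF4.borelSubgroup K) (h : TfCell K d g) : TfCell K d (b * g) := by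
  obtain ⟨b₁, hb₁, b₂, hb₂, rfl⟩ := h
  exact ⟨b * b₁, mul_mem hb hb₁, b₂, hb₂, by group⟩

theorem TfCell.mul_right {d : DihedralGroup 8} {g b : GL chevF4.Idx K}
    (hb : b ∈ chevF4.borelSubgroup K) (h : TfCell K d g) : TfCell K d (g * b) := by
  obtain ⟨b₁, hb₁, b₂, hb₂, rfl⟩ := h
  exact ⟨b₁, hb₁, b₂ * b, mul_mem hb₂ hb, by group⟩

theorem tfCell_one_iff {g : GL chevF4.Idx K} : TfCell K 1 g ↔ g ∈ chevF4.borelSubgroup K := by
  have h1 : tfNW K (tfWord 1) = 1 := by rw [tfWord_one]; rfl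
  constructor
  · rintro ⟨b₁, hb₁, b₂, hb₂, rfl⟩
    rw [h1, mul_one]
    exact mul_mem hb₁ hb₂
  · intro hg
    exact ⟨g, hg, 1, one_mem _, by rw [h1, mul_one, mul_one]⟩

theorem TfCell.inv {d : DihedralGroup 8} {g : GL chevF4.Idx K} (h : TfCell K d g) :
    TfCell K d⁻¹ g⁻¹ := by
  obtain ⟨b₁, hb₁, b₂, hb₂, rfl⟩ := h
  have e : (b₁ * tfNW K (tfWord d) * b₂)⁻¹ = b₂⁻¹ * (tfNW K (tfWord d))⁻¹ * b₁⁻¹ := by group
  rw [e]
  exact TfCell.of_cos (TfCos.inv (TfCos.self d)) (inv_mem hb₂) (inv_mem hb₁)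

/-- `B` normalises `U`. -/
theorem f4_B_conj_U {b u : GL chevF4.Idx K} (hb : b ∈ chevF4.borelSubgroup K)
    (hu : u ∈ chevF4.posUnipotent K) : b * u * b⁻¹ ∈ chevF4.posUnipotent K := by
  have R := bRel_of_mem (F := K) f4_mem
  have hle : chevF4.borelSubgroup K ≤
      Subgroup.normalizer (chevF4.posUnipotent K : Set (GL chevF4.Idx K)) :=
    sup_le Subgroup.le_normalizer R.hU
  exact (Subgroup.mem_normalizer_iff.mp (hle hb) u).mp hu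

variable [CharP K 2] [Fintype K] {m : ℕ} {σ : ↥(chevF4.group K) →* ↥(chevF4.group K)}

theorem tfCell_exists' (hK : Fintype.card K = 2 ^ (2 * m + 1))
    (hσ : TzSig chevF4 K gaRhoF4 (tfPw K m) σ) {g : GL chevF4.Idx K} (hg : g ∈ tzFix σ) :
    ∃ d : DihedralGroup 8, TfCell K d g := by
  obtain ⟨d, u, hu, h, hh, u₂, hu₂, rfl⟩ := tf_cell_exists hK hσ hg
  obtain ⟨huU, huF⟩ := Subgroup.mem_inf.mp hu
  obtain ⟨hhH, hhF⟩ := Subgroup.mem_inf.mp hh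
  obtain ⟨hu₂R, hu₂F⟩ := Subgroup.mem_inf.mp hu₂
  have hu₂U : u₂ ∈ chevF4.posUnipotent K :=
    unGens_le_posUnipotent _ (tf_roots_le_unGens d hu₂R)
  exact ⟨d, u * h, mul_mem (BRel.U_le_B _ _ huU) (BRel.H_le_B _ _ hhH), u₂,
    BRel.U_le_B _ _ hu₂U, rfl⟩

/-- The twisted normal form of an element of a given cell. -/
theorem tfCell_nf (hK : Fintype.card K = 2 ^ (2 * m + 1))
    (hσ : TzSig chevF4 K gaRhoF4 (tfPw K m) σ) {g : GL chevF4.Idx K} (hg : g ∈ tzFix σ)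
    {d : DihedralGroup 8} (hd : TfCell K d g) :
    ∃ u ∈ chevF4.posUnipotent K ⊓ tzFix σ, ∃ h ∈ chevF4.diagonalSubgroup K ⊓ tzFix σ,
      ∃ u₂ ∈ rootsSubgroup chevF4 K (tfSeg d).flatten ⊓ tzFix σ,
        g = u * h * tfNW K (tfWord d) * u₂ := by
  obtain ⟨d', u, hu, h, hh, u₂, hu₂, e⟩ := tf_cell_exists hK hσ hg
  obtain ⟨huU, huF⟩ := Subgroup.mem_inf.mp hu
  obtain ⟨hhH, hhF⟩ := Subgroup.mem_inf.mp hh
  obtain ⟨hu₂R, hu₂F⟩ := Subgroup.mem_inf.mp hu₂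
  have hu₂U : u₂ ∈ chevF4.posUnipotent K :=
    unGens_le_posUnipotent _ (tf_roots_le_unGens d' hu₂R)
  have hd' : TfCell K d' g :=
    ⟨u * h, mul_mem (BRel.U_le_B _ _ huU) (BRel.H_le_B _ _ hhH), u₂, BRel.U_le_B _ _ hu₂U, e⟩
  have hdd := hd.unique hd'
  subst hdd
  exact ⟨u, hu, h, hh, u₂, hu₂, e⟩

/-- The sharp double coset rule at an ascent. -/
theorem tfCell_mul_nJ (hK : Fintype.card K = 2 ^ (2 * m + 1))
    (hσ : TzSig chevF4 K gaRhoF4 (tfPw K m) σ) {g : GL chevF4.Idx K} (hg : g ∈ tzFix σ)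
    {d : DihedralGroup 8} (hd : TfCell K d g) (j : Bool) (hasc : tfAsc j d) :
    TfCell K (d * tfS j) (g * tfNW K (tfJ j)) := by
  obtain ⟨u, hu, h, hh, u₂, hu₂, rfl⟩ := tfCell_nf hK hσ hg hd
  obtain ⟨huU, huF⟩ := Subgroup.mem_inf.mp hu
  obtain ⟨hhH, hhF⟩ := Subgroup.mem_inf.mp hh
  obtain ⟨hu₂R, hu₂F⟩ := Subgroup.mem_inf.mp hu₂
  have hpos := tfAsc_pos j d hasc
  have h1 := (tf_conj_roots (K := K) ((tfSeg d).flatten.map (tfPerm (tfS j)))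
    (fun r hr => (hpos r hr).1) (tfS j)).2 u₂ (by rw [tfSeg_map_sq]; exact hu₂R)
  rw [tfS_word] at h1
  have h2 : (tfNW K (tfJ j))⁻¹ * u₂ * tfNW K (tfJ j) ∈ chevF4.borelSubgroup K :=
    BRel.U_le_B _ _ (roots_le_U hpos h1)
  have e : u * h * tfNW K (tfWord d) * u₂ * tfNW K (tfJ j) =
      (u * h) * (tfNW K (tfWord d) * tfNW K (tfJ j)) *
        ((tfNW K (tfJ j))⁻¹ * u₂ * tfNW K (tfJ j)) := by group
  rw [e]
  exact TfCell.of_cos ((TfCos.self d).mul (TfCos.nJ j))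
    (mul_mem (BRel.U_le_B _ _ huU) (BRel.H_le_B _ _ hhH)) h2

/-- Moving to the neighbouring cell. -/
theorem tfCell_desc (hK : Fintype.card K = 2 ^ (2 * m + 1))
    (hσ : TzSig chevF4 K gaRhoF4 (tfPw K m) σ) {g : GL chevF4.Idx K} (hg : g ∈ tzFix σ)
    {d : DihedralGroup 8} (hd : TfCell K d g) (j : Bool) :
    ∃ u₂ ∈ chevF4.posUnipotent K ⊓ tzFix σ,
      TfCell K (d * tfS j) (g * (u₂⁻¹ * tfNW K (tfJ j) * 1)) := by
  obtain ⟨u, hu, h, hh, u₂, hu₂, rfl⟩ := tfCell_nf hK hσ hg hd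
  obtain ⟨huU, huF⟩ := Subgroup.mem_inf.mp hu
  obtain ⟨hhH, hhF⟩ := Subgroup.mem_inf.mp hh
  obtain ⟨hu₂R, hu₂F⟩ := Subgroup.mem_inf.mp hu₂
  have hu₂U : u₂ ∈ chevF4.posUnipotent K :=
    unGens_le_posUnipotent _ (tf_roots_le_unGens d hu₂R)
  refine ⟨u₂, Subgroup.mem_inf.mpr ⟨hu₂U, hu₂F⟩, ?_⟩
  have e : u * h * tfNW K (tfWord d) * u₂ * (u₂⁻¹ * tfNW K (tfJ j) * 1) =
      (u * h) * (tfNW K (tfWord d) * tfNW K (tfJ j)) * 1 := by group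
  rw [e]
  exact TfCell.of_cos ((TfCos.self d).mul (TfCos.nJ j))
    (mul_mem (BRel.U_le_B _ _ huU) (BRel.H_le_B _ _ hhH)) (one_mem _)

/-- No non-trivial element of `U` fixes a chamber opposite to the standard one. -/
theorem tfCell_top_not_fixed {g a : GL chevF4.Idx K} (hd : TfCell K (DihedralGroup.r 4) g)
    (ha : a ∈ chevF4.posUnipotent K) (ha1 : a ≠ 1) :
    g⁻¹ * a * g ∉ chevF4.borelSubgroup K := by
  have R := bRel_of_mem (F := K) f4_mem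
  obtain ⟨b₁, hb₁, b₂, hb₂, rfl⟩ := hd
  intro hc
  obtain ⟨n0, hn0⟩ : ∃ n0 : GL chevF4.Idx K, n0 = tfNW K (tfWord (DihedralGroup.r 4)) := ⟨_, rfl⟩
  rw [← hn0] at hc
  have ha' : b₁⁻¹ * a * b₁⁻¹⁻¹ ∈ chevF4.posUnipotent K := f4_B_conj_U (inv_mem hb₁) ha
  have hinv : TfCos K (DihedralGroup.r 4) n0⁻¹ := by
    have h := TfCos.inv (TfCos.self (K := K) (DihedralGroup.r 4))
    have e4 : (DihedralGroup.r 4 : DihedralGroup 8)⁻¹ = DihedralGroup.r 4 := by decide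
    rw [e4, ← hn0] at h
    exact h
  unfold TfCos at hinv
  rw [← hn0] at hinv
  have h1 : n0⁻¹ * (b₁⁻¹ * a * b₁⁻¹⁻¹) * n0 ∈ chevF4.borelSubgroup K := by
    have e : n0⁻¹ * (b₁⁻¹ * a * b₁⁻¹⁻¹) * n0 = b₂ * ((b₁ * n0 * b₂)⁻¹ * a * (b₁ * n0 * b₂)) * b₂⁻¹ := by
      group
    rw [e]
    exact mul_mem (mul_mem hb₂ hc) (inv_mem hb₂)
  have h2 : n0⁻¹ * (b₁⁻¹ * a * b₁⁻¹⁻¹) * n0 ∈ chevF4.negUnipotent K := by
    have e : n0⁻¹ * (b₁⁻¹ * a * b₁⁻¹⁻¹) * n0 =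
        n0 * ((n0⁻¹ * n0⁻¹) * (b₁⁻¹ * a * b₁⁻¹⁻¹) * (n0⁻¹ * n0⁻¹)⁻¹) * n0⁻¹ := by group
    rw [e, hn0]
    apply tf_n0_conj_U
    rw [← hn0]
    exact f4_B_conj_U (BRel.H_le_B _ _ hinv) ha'
  have h3 : n0⁻¹ * (b₁⁻¹ * a * b₁⁻¹⁻¹) * n0 ∈ chevF4.borelSubgroup K ⊓ chevF4.negUnipotent K :=
    Subgroup.mem_inf.mpr ⟨h1, h2⟩
  rw [R.bv, Subgroup.mem_bot] at h3
  apply ha1
  have e : a = b₁ * n0 * (n0⁻¹ * (b₁⁻¹ * a * b₁⁻¹⁻¹) * n0) * n0⁻¹ * b₁⁻¹ := by group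
  rw [e, h3]
  group

end tz24

end Cfsg.Agent.Helper36
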