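import Cfsg.Agent.Helper36.Tz24

/-!
helper36: the maximal parabolic subgroups of `²F₄(q)` and the centralisers of involutions.
-/

set_option autoImplicit false
set_option linter.unusedSectionVars false
set_option linter.unusedVariables false

namespace Cfsg.Agent.Helper36

open Cfsg Cfsg.Lie Cfsg.Agent.Helper17

theorem tfS_inv : ∀ j : Bool, (tfS j)⁻¹ = tfS j := by decide

/-- The two cells of a maximal parabolic subgroup. -/
def tfParD (j : Bool) : Bool → DihedralGroup 8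
  | true => tfS j
  | false => 1

section tz25

variable {K : Type*} [Field K] [CharP K 2] [Fintype K] {m : ℕ}

/-- The maximal parabolic subgroups `B ∪ B n_j B`. -/
theorem tfPar_exists (hK : Fintype.card K = 2 ^ (2 * m + 1)) (j : Bool) :
    ∃ P : Subgroup ↥(twistedF4 K (2 ^ m)), ∀ g : ↥(twistedF4 K (2 ^ m)),
      g ∈ P ↔ (TfCell K 1 (g : GL chevF4.Idx K) ∨ TfCell K (tfS j) (g : GL chevF4.Idx K)) := by
  obtain ⟨σ, hσ⟩ := exists_tfSig hK
  have hFix := tf_fix_eq hK hσ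
  have R := bRel_of_mem (F := K) f4_mem
  refine ⟨{ carrier := {g | TfCell K 1 (g : GL chevF4.Idx K) ∨
                TfCell K (tfS j) (g : GL chevF4.Idx K)}
            mul_mem' := ?_
            one_mem' := ?_
            inv_mem' := ?_ }, fun g => Iff.rfl⟩
  · rintro ⟨x, hx⟩ ⟨y, hy⟩ hxc hyc
    show TfCell K 1 (x * y) ∨ TfCell K (tfS j) (x * y)
    have hxc' : TfCell K 1 x ∨ TfCell K (tfS j) x := hxc
    have hyc' : TfCell K 1 y ∨ TfCell K (tfS j) y := hyc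
    rcases hxc' with h1 | h1
    · have hxB := tfCell_one_iff.mp h1
      rcases hyc' with h2 | h2
      · exact Or.inl (h2.mul_left hxB)
      · exact Or.inr (h2.mul_left hxB)
    · rcases hyc' with h2 | h2
      · exact Or.inr (h1.mul_right (tfCell_one_iff.mp h2))
      · have hxF : x ∈ tzFix σ := by rw [hFix]; exact hx
        have hyF : y ∈ tzFix σ := by rw [hFix]; exact hy
        obtain ⟨u, hu, h, hh, u₂, hu₂, ex⟩ := tfCell_nf hK hσ hxF h1
        obtain ⟨u', hu', h', hh', u₂', hu₂', ey⟩ := tfCell_nf hK hσ hyF h2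
        rw [tfS_word] at ex ey
        obtain ⟨huU, huF⟩ := Subgroup.mem_inf.mp hu
        obtain ⟨hhH, hhF⟩ := Subgroup.mem_inf.mp hh
        obtain ⟨hu₂R, hu₂F⟩ := Subgroup.mem_inf.mp hu₂
        obtain ⟨hu'U, hu'F⟩ := Subgroup.mem_inf.mp hu'
        obtain ⟨hh'H, hh'F⟩ := Subgroup.mem_inf.mp hh'
        obtain ⟨hu₂'R, hu₂'F⟩ := Subgroup.mem_inf.mp hu₂'
        have hu₂U : u₂ ∈ chevF4.posUnipotent K :=
          unGens_le_posUnipotent _ (tf_roots_le_unGens (tfS j) hu₂R)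
        have hu₂'U : u₂' ∈ chevF4.posUnipotent K :=
          unGens_le_posUnipotent _ (tf_roots_le_unGens (tfS j) hu₂'R)
        have hnF : tfNW K (tfJ j) ∈ tzFix σ := by
          rw [← tfS_word]; exact tfNW_word_fix hK hσ (tfS j)
        have hb : u₂ * u' * h' ∈ chevF4.borelSubgroup K ⊓ tzFix σ :=
          Subgroup.mem_inf.mpr ⟨mul_mem (mul_mem (BRel.U_le_B _ _ hu₂U) (BRel.U_le_B _ _ hu'U))
            (BRel.H_le_B _ _ hh'H), mul_mem (mul_mem hu₂F hu'F) hh'F⟩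
        have hxy : x * y = (u * h) * (tfNW K (tfJ j) * (u₂ * u' * h') * tfNW K (tfJ j)) * u₂' := by
          rw [ex, ey]; group
        have huh : u * h ∈ chevF4.borelSubgroup K :=
          mul_mem (BRel.U_le_B _ _ huU) (BRel.H_le_B _ _ hhH)
        rcases tf_bn_mul hK hσ j (Subgroup.mem_inf.mpr ⟨tfNJ_mem_N j, hnF⟩) hb with
          ⟨x', hx', y', hy', e⟩ | ⟨x', hx', y', hy', e⟩
        · left
          rw [hxy, e]
          apply tfCell_one_iff.mpr
          exact mul_mem (mul_mem huh (mul_mem (mul_mem (Subgroup.mem_inf.mp hx').1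
            (BRel.H_le_B _ _ (tfNJ_sq j))) (Subgroup.mem_inf.mp hy').1)) (BRel.U_le_B _ _ hu₂'U)
        · right
          rw [hxy, e]
          have e' : u * h * (x' * tfNW K (tfJ j) * y') * u₂' =
              (u * h * x') * tfNW K (tfJ j) * (y' * u₂') := by group
          rw [e']
          exact TfCell.of_cos (TfCos.nJ j) (mul_mem huh (Subgroup.mem_inf.mp hx').1)
            (mul_mem (Subgroup.mem_inf.mp hy').1 (BRel.U_le_B _ _ hu₂'U))
  · left
    show TfCell K 1 (((1 : ↥(twistedF4 K (2 ^ m))) : GL chevF4.Idx K))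
    rw [Subgroup.coe_one]
    exact tfCell_one_iff.mpr (one_mem _)
  · rintro ⟨x, hx⟩ hxc
    show TfCell K 1 x⁻¹ ∨ TfCell K (tfS j) x⁻¹
    have hxc' : TfCell K 1 x ∨ TfCell K (tfS j) x := hxc
    rcases hxc' with h1 | h1
    · left
      have := h1.inv
      rwa [inv_one] at this
    · right
      have := h1.inv
      rwa [tfS_inv] at this

/-- The order of a maximal parabolic subgroup. -/
theorem tfPar_card (hK : Fintype.card K = 2 ^ (2 * m + 1)) (j : Bool)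
    (P : Subgroup ↥(twistedF4 K (2 ^ m)))
    (hP : ∀ g : ↥(twistedF4 K (2 ^ m)),
      g ∈ P ↔ (TfCell K 1 (g : GL chevF4.Idx K) ∨ TfCell K (tfS j) (g : GL chevF4.Idx K))) :
    Nat.card ↥P = (2 ^ (2 * m + 1)) ^ 12 * (2 ^ (2 * m + 1) - 1) ^ 2 *
        (2 ^ (2 * m + 1)) ^ tfExp (tfS j) +
      (2 ^ (2 * m + 1)) ^ 12 * (2 ^ (2 * m + 1) - 1) ^ 2 * (2 ^ (2 * m + 1)) ^ tfExp 1 := by
  obtain ⟨σ, hσ⟩ := exists_tfSig hK
  have hFix := tf_fix_eq hK hσ
  let f : (Σ i : Bool, ↥(chevF4.posUnipotent K ⊓ tzFix σ) ×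
      ↥(chevF4.diagonalSubgroup K ⊓ tzFix σ) ×
      ↥(rootsSubgroup chevF4 K (tfSeg (tfParD j i)).flatten ⊓ tzFix σ)) → GL chevF4.Idx K :=
    fun p => (p.2.1 : GL chevF4.Idx K) * (p.2.2.1 : GL chevF4.Idx K) *
      tfNW K (tfWord (tfParD j p.1)) * (p.2.2.2 : GL chevF4.Idx K)
  have hinj : Function.Injective f := by
    rintro ⟨i, ⟨u, hu⟩, ⟨h, hh⟩, ⟨u₂, hu₂⟩⟩ ⟨i', ⟨u', hu'⟩, ⟨h', hh'⟩, ⟨u₂', hu₂'⟩⟩ e
    obtain ⟨hd, rfl, rfl, rfl⟩ := tf_cell_unique (Subgroup.mem_inf.mp hu).1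
      (Subgroup.mem_inf.mp hu').1 (Subgroup.mem_inf.mp hh).1 (Subgroup.mem_inf.mp hh').1
      (Subgroup.mem_inf.mp hu₂).1 (Subgroup.mem_inf.mp hu₂').1 e
    have hii : i = i' := by
      cases i <;> cases i'
      · rfl
      · exact absurd hd.symm (by cases j <;> decide)
      · exact absurd hd (by cases j <;> decide)
      · rfl
    subst hii
    rfl
  have hrange : Set.range f =
      ((P.map (twistedF4 K (2 ^ m)).subtype : Subgroup (GL chevF4.Idx K)) :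
        Set (GL chevF4.Idx K)) := by
    ext g
    constructor
    · rintro ⟨⟨i, ⟨u, hu⟩, ⟨h, hh⟩, ⟨u₂, hu₂⟩⟩, rfl⟩
      obtain ⟨huU, huF⟩ := Subgroup.mem_inf.mp hu
      obtain ⟨hhH, hhF⟩ := Subgroup.mem_inf.mp hh
      obtain ⟨hu₂R, hu₂F⟩ := Subgroup.mem_inf.mp hu₂
      have hu₂U : u₂ ∈ chevF4.posUnipotent K :=
        unGens_le_posUnipotent _ (tf_roots_le_unGens _ hu₂R)
      have hgF : u * h * tfNW K (tfWord (tfParD j i)) * u₂ ∈ tzFix σ :=
        mul_mem (mul_mem (mul_mem huF hhF) (tfNW_word_fix hK hσ _)) hu₂F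
      have hcell : TfCell K (tfParD j i) (u * h * tfNW K (tfWord (tfParD j i)) * u₂) :=
        ⟨u * h, mul_mem (BRel.U_le_B _ _ huU) (BRel.H_le_B _ _ hhH), u₂,
          BRel.U_le_B _ _ hu₂U, rfl⟩
      rw [hFix] at hgF
      refine Subgroup.mem_map.mpr ⟨⟨_, hgF⟩, (hP _).mpr ?_, rfl⟩
      cases i
      · exact Or.inl hcell
      · exact Or.inr hcell
    · intro hg
      obtain ⟨x, hxP, rfl⟩ := Subgroup.mem_map.mp hg
      have hxF : (x : GL chevF4.Idx K) ∈ tzFix σ := by rw [hFix]; exact x.2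
      rcases (hP x).mp hxP with h1 | h1
      · obtain ⟨u, hu, h, hh, u₂, hu₂, e⟩ := tfCell_nf hK hσ hxF h1
        exact ⟨⟨false, ⟨u, hu⟩, ⟨h, hh⟩, ⟨u₂, hu₂⟩⟩, e.symm⟩
      · obtain ⟨u, hu, h, hh, u₂, hu₂, e⟩ := tfCell_nf hK hσ hxF h1
        exact ⟨⟨true, ⟨u, hu⟩, ⟨h, hh⟩, ⟨u₂, hu₂⟩⟩, e.symm⟩
  have hc : Nat.card ↥P = Nat.card (Set.range f) := by
    rw [hrange]
    exact Nat.card_congr
      (P.equivMapOfInjective _ (Subgroup.subtype_injective _)).toEquiv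
  rw [hc, Nat.card_range_of_injective hinj, Nat.card_sigma, Fintype.sum_bool]
  have hcard : ∀ d : DihedralGroup 8, Nat.card (↥(chevF4.posUnipotent K ⊓ tzFix σ) ×
      ↥(chevF4.diagonalSubgroup K ⊓ tzFix σ) ×
      ↥(rootsSubgroup chevF4 K (tfSeg d).flatten ⊓ tzFix σ)) =
        (2 ^ (2 * m + 1)) ^ 12 * (2 ^ (2 * m + 1) - 1) ^ 2 * (2 ^ (2 * m + 1)) ^ tfExp d := by
    intro d
    rw [Nat.card_prod, Nat.card_prod, tf_seg_card hK hσ d, hK, ← tf_U_inf hK hσ, tf_U_card hK,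
      tf_fix_eq hK hσ, tf_H_card hK, mul_assoc]
  rw [hcard, hcard]
  rfl

end tz25

end Cfsg.Agent.Helper36
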