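import Cfsg.Agent.Helper36.Tz25

/-!
helper36: in `²F₄(q)` the order of an element commuting with an involution involves only primes dividing
`q (q⁴ - 1)`: the fixed points of an involution on the chambers and the two kinds of vertices of the
building form a tree, so an element of prime order commuting with it lies in a parabolic subgroup.
-/

set_option autoImplicit false
set_option linter.unusedSectionVars false
set_option linter.unusedVariables false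

namespace Cfsg.Agent.Helper36

open Cfsg Cfsg.Lie Cfsg.Agent.Helper17

theorem tf_par_prime_aux (q p e : ℕ) (hq : 1 ≤ q) (hp : p.Prime) (he : e = 1 ∨ e = 2)
    (h : p ∣ q ^ 12 * (q - 1) ^ 2 * q ^ e + q ^ 12 * (q - 1) ^ 2 * q ^ 0) :
    p ∣ q * (q ^ 4 - 1) := by
  obtain ⟨Q, rfl⟩ : ∃ Q, q = Q + 1 := ⟨q - 1, (Nat.sub_add_cancel hq).symm⟩
  have e1 : Q + 1 - 1 = Q := Nat.add_sub_cancel _ _
  have e2 : (Q + 1) ^ 4 - 1 = Q * (Q + 2) * ((Q + 1) ^ 2 + 1) := by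
    apply Nat.sub_eq_of_eq_add
    ring
  rw [e1] at h
  rw [e2]
  have e3 : (Q + 1) ^ 12 * Q ^ 2 * (Q + 1) ^ e + (Q + 1) ^ 12 * Q ^ 2 * (Q + 1) ^ 0 =
      (Q + 1) ^ 12 * Q ^ 2 * ((Q + 1) ^ e + 1) := by ring
  rw [e3] at h
  rcases (Nat.Prime.dvd_mul hp).mp h with h | h
  · rcases (Nat.Prime.dvd_mul hp).mp h with h | h
    · exact dvd_mul_of_dvd_left (hp.dvd_of_dvd_pow h) _
    · exact dvd_mul_of_dvd_right (dvd_mul_of_dvd_left (dvd_mul_of_dvd_left
        (hp.dvd_of_dvd_pow h) _) _) _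
  · rcases he with rfl | rfl
    · rw [pow_one] at h
      exact dvd_mul_of_dvd_right (dvd_mul_of_dvd_left (dvd_mul_of_dvd_right h _) _) _
    · exact dvd_mul_of_dvd_right (dvd_mul_of_dvd_right h _) _

section tz26

variable {K : Type*} [Field K] [CharP K 2] [Fintype K] {m : ℕ}

/-- Every prime divisor of the order of an element commuting with an involution divides `q (q⁴ - 1)`. -/
theorem tf_cent_invol_primes (hK : Fintype.card K = 2 ^ (2 * m + 1))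
    (a b : ↥(twistedF4 K (2 ^ m))) (ha : orderOf a = 2) (hab : Commute a b) :
    (orderOf b).primeFactors ⊆
      (2 ^ (2 * m + 1) * ((2 ^ (2 * m + 1)) ^ 4 - 1)).primeFactors := by
  intro p hp
  obtain ⟨hpp, hpd, hb0⟩ := Nat.mem_primeFactors.mp hp
  have hq1 : 1 ≤ 2 ^ (2 * m + 1) := Nat.one_le_two_pow
  have hq2 : 2 ≤ 2 ^ (2 * m + 1) := by
    calc 2 = 2 ^ 1 := rfl
      _ ≤ 2 ^ (2 * m + 1) := Nat.pow_le_pow_right (by norm_num) (by omega)
  have hne : 2 ^ (2 * m + 1) * ((2 ^ (2 * m + 1)) ^ 4 - 1) ≠ 0 := by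
    have h4 : 2 ^ 4 ≤ (2 ^ (2 * m + 1)) ^ 4 := Nat.pow_le_pow_left hq2 4
    have : 1 ≤ (2 ^ (2 * m + 1)) ^ 4 - 1 := by omega
    positivity
  refine Nat.mem_primeFactors.mpr ⟨hpp, ?_, hne⟩
  by_contra hnd
  haveI : Fact p.Prime := ⟨hpp⟩
  obtain ⟨σ, hσ⟩ := exists_tfSig hK
  have hFix := tf_fix_eq hK hσ
  have R := bRel_of_mem (F := K) f4_mem
  obtain ⟨b₁, hb₁, hab₁⟩ : ∃ b₁ : ↥(twistedF4 K (2 ^ m)), orderOf b₁ = p ∧ Commute a b₁ :=
    ⟨b ^ (orderOf b / p), orderOf_pow_orderOf_div hb0 hpd, hab.pow_right _⟩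
  obtain ⟨hPp, hidx⟩ := tf_U_sylow (m := m) hK
  obtain ⟨g, hmem⟩ := exists_conj_mem_of_two_pow _ hPp hidx a 1 (by rw [ha, pow_one])
  obtain ⟨a', ha'⟩ : ∃ a' : ↥(twistedF4 K (2 ^ m)), a' = g * a * g⁻¹ := ⟨_, rfl⟩
  obtain ⟨b', hb'⟩ : ∃ b' : ↥(twistedF4 K (2 ^ m)), b' = g * b₁ * g⁻¹ := ⟨_, rfl⟩
  rw [← ha'] at hmem
  have hab' : Commute a' b' := by
    have h1 : a' * b' = g * (a * b₁) * g⁻¹ := by rw [ha', hb']; group
    have h2 : b' * a' = g * (b₁ * a) * g⁻¹ := by rw [ha', hb']; group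
    show a' * b' = b' * a'
    rw [h1, h2, hab₁.eq]
  have hb'p : orderOf b' = p := by
    have e : b' = MulAut.conj g b₁ := by rw [hb', MulAut.conj_apply]
    rw [e, MulEquiv.orderOf_eq, hb₁]
  have ha'2 : orderOf a' = 2 := by
    have e : a' = MulAut.conj g a := by rw [ha', MulAut.conj_apply]
    rw [e, MulEquiv.orderOf_eq, ha]
  have ha'U : (a' : GL chevF4.Idx K) ∈ chevF4.posUnipotent K := Subgroup.mem_subgroupOf.mp hmem
  have ha'1 : (a' : GL chevF4.Idx K) ≠ 1 := by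
    intro h
    have h1 : a' = 1 := Subtype.ext h
    rw [h1, orderOf_one] at ha'2
    omega
  choose P hP using tfPar_exists (m := m) hK
  have hmemF : ∀ x : ↥(twistedF4 K (2 ^ m)), (x : GL chevF4.Idx K) ∈ tzFix σ := by
    intro x; rw [hFix]; exact x.2
  have hex : ∀ x : ↥(twistedF4 K (2 ^ m)), ∃ d, TfCell K d (x : GL chevF4.Idx K) :=
    fun x => tfCell_exists' hK hσ (hmemF x)
  choose c hc using hex
  have hcu : ∀ (x : ↥(twistedF4 K (2 ^ m))) (d : DihedralGroup 8),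
      TfCell K d (x : GL chevF4.Idx K) → c x = d := fun x d h => (hc x).unique h
  have hBP : ∀ j, (chevF4.borelSubgroup K).subgroupOf (twistedF4 K (2 ^ m)) ≤ P j := by
    intro j x hx
    exact (hP j x).mpr (Or.inl (tfCell_one_iff.mpr (Subgroup.mem_subgroupOf.mp hx)))
  have hcB : ∀ x : ↥(twistedF4 K (2 ^ m)),
      ∀ y ∈ (chevF4.borelSubgroup K).subgroupOf (twistedF4 K (2 ^ m)),
      ∀ y' ∈ (chevF4.borelSubgroup K).subgroupOf (twistedF4 K (2 ^ m)),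
        c (y * x * y') = c x := by
    intro x y hy y' hy'
    apply hcu
    exact ((hc x).mul_left (Subgroup.mem_subgroupOf.mp hy)).mul_right
      (Subgroup.mem_subgroupOf.mp hy')
  have hPc : ∀ j, ∀ x ∈ P j, x ∈ (chevF4.borelSubgroup K).subgroupOf (twistedF4 K (2 ^ m)) ∨
      ∃ y ∈ (chevF4.borelSubgroup K).subgroupOf (twistedF4 K (2 ^ m)),
      ∃ y' ∈ (chevF4.borelSubgroup K).subgroupOf (twistedF4 K (2 ^ m)),
        x = y * (⟨tfNW K (tfJ j), tfNJ_mem m j⟩ : ↥(twistedF4 K (2 ^ m))) * y' := by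
    intro j x hx
    rcases (hP j x).mp hx with h1 | h1
    · left
      exact Subgroup.mem_subgroupOf.mpr (tfCell_one_iff.mp h1)
    · right
      obtain ⟨u, hu, h, hh, u₂, hu₂, e⟩ := tfCell_nf hK hσ (hmemF x) h1
      rw [tfS_word] at e
      obtain ⟨huU, huF⟩ := Subgroup.mem_inf.mp hu
      obtain ⟨hhH, hhF⟩ := Subgroup.mem_inf.mp hh
      obtain ⟨hu₂R, hu₂F⟩ := Subgroup.mem_inf.mp hu₂
      have hu₂U : u₂ ∈ chevF4.posUnipotent K :=
        unGens_le_posUnipotent _ (tf_roots_le_unGens (tfS j) hu₂R)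
      have h1G : u * h ∈ twistedF4 K (2 ^ m) := by rw [← hFix]; exact mul_mem huF hhF
      have h2G : u₂ ∈ twistedF4 K (2 ^ m) := by rw [← hFix]; exact hu₂F
      exact ⟨⟨u * h, h1G⟩, Subgroup.mem_subgroupOf.mpr
        (mul_mem (BRel.U_le_B _ _ huU) (BRel.H_le_B _ _ hhH)), ⟨u₂, h2G⟩,
        Subgroup.mem_subgroupOf.mpr (BRel.U_le_B _ _ hu₂U), Subtype.ext e⟩
  have h1' : ∀ j (x : ↥(twistedF4 K (2 ^ m))), tfAsc j (c x) →
      ¬ tfAsc j (c (x * (⟨tfNW K (tfJ j), tfNJ_mem m j⟩ : ↥(twistedF4 K (2 ^ m))))) := by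
    intro j x hx
    have h := tfCell_mul_nJ hK hσ (hmemF x) (hc x) j hx
    rw [hcu (x * (⟨tfNW K (tfJ j), tfNJ_mem m j⟩ : ↥(twistedF4 K (2 ^ m)))) _ h]
    exact tfAsc_mul j _ hx
  have h2' : ∀ j (x : ↥(twistedF4 K (2 ^ m))), ¬ tfAsc j (c x) →
      ∃ y ∈ P j, tfAsc j (c (x * y)) := by
    intro j x hx
    obtain ⟨u₂, hu₂, hcell⟩ := tfCell_desc hK hσ (hmemF x) (hc x) j
    obtain ⟨hu₂U, hu₂F⟩ := Subgroup.mem_inf.mp hu₂
    have hpG : u₂⁻¹ * tfNW K (tfJ j) * 1 ∈ twistedF4 K (2 ^ m) :=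
      mul_mem (mul_mem (inv_mem (by rw [← hFix]; exact hu₂F)) (tfNJ_mem m j)) (one_mem _)
    refine ⟨⟨_, hpG⟩, (hP j _).mpr (Or.inr (TfCell.of_cos (TfCos.nJ j)
      (inv_mem (BRel.U_le_B _ _ hu₂U)) (one_mem _))), ?_⟩
    rw [hcu (x * ⟨_, hpG⟩) _ hcell]
    exact tfAsc_mul' j _ hx
  have h3' : ∀ x : ↥(twistedF4 K (2 ^ m)), (tfAsc true (c x) ∧ tfAsc false (c x)) ↔
      x ∈ (chevF4.borelSubgroup K).subgroupOf (twistedF4 K (2 ^ m)) := by
    intro x
    rw [tfAsc_both]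
    constructor
    · intro h
      have h' := hc x
      rw [h] at h'
      exact Subgroup.mem_subgroupOf.mpr (tfCell_one_iff.mp h')
    · intro h
      exact hcu x 1 (tfCell_one_iff.mpr (Subgroup.mem_subgroupOf.mp h))
  have ha'B : a' ∈ (chevF4.borelSubgroup K).subgroupOf (twistedF4 K (2 ^ m)) :=
    Subgroup.mem_subgroupOf.mpr (BRel.U_le_B _ _ ha'U)
  have h4' : ∀ x : ↥(twistedF4 K (2 ^ m)), ¬ tfAsc true (c x) → ¬ tfAsc false (c x) →
      x⁻¹ * a' * x ∉ (chevF4.borelSubgroup K).subgroupOf (twistedF4 K (2 ^ m)) := by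
    intro x ht hf hmemB
    have hd := tfAsc_none (c x) ht hf
    have hcell := hc x
    rw [hd] at hcell
    exact tfCell_top_not_fixed hcell ha'U ha'1 (Subgroup.mem_subgroupOf.mp hmemB)
  have hE := euler_fixed_rank2 ((chevF4.borelSubgroup K).subgroupOf (twistedF4 K (2 ^ m))) P c
    tfAsc (fun j => (⟨tfNW K (tfJ j), tfNJ_mem m j⟩ : ↥(twistedF4 K (2 ^ m)))) a'
    hBP hcB hPc h1' h2' h3' ha'B h4'
  have hPcard : ∀ j, ¬ p ∣ Nat.card ↥(P j) := by
    intro j hdv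
    rw [tfPar_card hK j (P j) (hP j), tfExp_S.2.2] at hdv
    apply hnd
    refine tf_par_prime_aux _ p (tfExp (tfS j)) hq1 hpp ?_ hdv
    cases j
    · right; exact tfExp_S.2.1
    · left; exact tfExp_S.1
  have hBcard : ¬ p ∣ Nat.card ↥((chevF4.borelSubgroup K).subgroupOf (twistedF4 K (2 ^ m))) :=
    fun h => hPcard true (h.trans (Subgroup.card_dvd_of_le (hBP true)))
  have d0 := card_fixed_dvd_of_commute _ a' b' hab' p hb'p hBcard
  have d1 := card_fixed_dvd_of_commute _ a' b' hab' p hb'p (hPcard true)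
  have d2 := card_fixed_dvd_of_commute _ a' b' hab' p hb'p (hPcard false)
  have h := dvd_add d1 d2
  rw [hE] at h
  exact hpp.ne_one (Nat.dvd_one.mp ((Nat.dvd_add_right d0).mp h))

end tz26

end Cfsg.Agent.Helper36
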