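import Cfsg.Agent.Helper36.UCFast
import Cfsg.Agent.Helper64.UC2Defs

/-!
# Fast row checkers for `Cert2 D` (CALL S2107, piece CE8X)

All facts are read off helper17's packed chain table; the witnesses (the decomposition of a
commuting pair, the root of the move linking two decompositions, the reference decomposition of
a root) come from packed witness tables.
-/

set_option autoImplicit false

namespace Cfsg.Agent.Helper36

open Cfsg Cfsg.Lie Cfsg.Agent.Helper17 Cfsg.Agent.Helper64.UC Cfsg.Agent.Helper64.UC2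

/-- The chain entry read off the packed table. -/
def ceP (packs : List ℕ) (r s : ℕ) : List (ℕ × ℤ) := unpackEntry (cfld (packs.getD r 0) s)

/-- `Is0 D p q`, packed table. -/
def is0B (D : ChevalleyDatum) (ng : ℕ → ℕ) (packs : List ℕ) (p q : ℕ) : Bool :=
  decide (p < D.nroots) && decide (q < D.nroots) && (q != p) && (q != ng p) &&
    (ceP packs p q).isEmpty && (ceP packs q p).isEmpty

theorem is0B_spec {D : ChevalleyDatum} {ng : ℕ → ℕ} {packs : List ℕ} {p q : ℕ}
    (hp : chainPackOK D packs = true) (hng : ∀ r < D.nroots, D.neg r = ng r)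
    (h : is0B D ng packs p q = true) : Is0 D p q := by
  unfold is0B at h
  simp only [Bool.and_eq_true, decide_eq_true_eq, bne_iff_ne, ne_eq, List.isEmpty_iff] at h
  obtain ⟨⟨⟨⟨⟨hpn, hqn⟩, h1⟩, h2⟩, e1⟩, e2⟩ := h
  rw [← hng p hpn] at h2
  unfold ceP at e1 e2
  rw [← chainEntry_of_packOK hp hpn hqn] at e1
  rw [← chainEntry_of_packOK hp hqn hpn] at e2
  exact ⟨⟨hpn, hqn, h1, h2⟩, commTerms_nil_of_entries e1 e2⟩

/-- The entries of a pair with one commutator term `(k; 1, 1)`, constant `± 1`. -/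
def oneB (k : ℕ) (e e' : List (ℕ × ℤ)) : Bool :=
  match e, e' with
  | [(k', C)], [_] => (k' == k) && (C == 1 || C == -1)
  | _, _ => false

theorem oneB_spec {k : ℕ} {e e' : List (ℕ × ℤ)} (h : oneB k e e' = true) :
    ∃ (C : ℤ) (f : ℕ × ℤ), e = [(k, C)] ∧ e' = [f] ∧ (C = 1 ∨ C = -1) := by
  unfold oneB at h
  split at h
  · next k' C f =>
    simp only [Bool.and_eq_true, beq_iff_eq, Bool.or_eq_true] at h
    obtain ⟨rfl, hC⟩ := h
    exact ⟨C, f, rfl, rfl, hC⟩
  · exact absurd h (by simp)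

/-- `∃ C, T1 D r s k C`, packed table. -/
def t1B (D : ChevalleyDatum) (ng : ℕ → ℕ) (packs : List ℕ) (r s k : ℕ) : Bool :=
  decide (r < D.nroots) && decide (s < D.nroots) && (s != r) && (s != ng r) &&
    decide (k < D.nroots) && oneB k (ceP packs r s) (ceP packs s r)

theorem t1B_spec {D : ChevalleyDatum} {ng : ℕ → ℕ} {packs : List ℕ} {r s k : ℕ}
    (hp : chainPackOK D packs = true) (hng : ∀ r < D.nroots, D.neg r = ng r)
    (h : t1B D ng packs r s k = true) : ∃ C : ℤ, T1 D r s k C := by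
  unfold t1B at h
  simp only [Bool.and_eq_true, decide_eq_true_eq, bne_iff_ne, ne_eq] at h
  obtain ⟨⟨⟨⟨⟨hr, hs⟩, h1⟩, h2⟩, hk⟩, h3⟩ := h
  rw [← hng r hr] at h2
  unfold ceP at h3
  rw [← chainEntry_of_packOK hp hr hs, ← chainEntry_of_packOK hp hs hr] at h3
  obtain ⟨C, f, e1, e2, hC⟩ := oneB_spec h3
  exact ⟨C, ⟨hr, hs, h1, h2⟩, hk, hC, commTerms_one_of_entries e1 e2⟩

/-- `Gen1 D k a b q p` with the root `c` of the move, packed table. -/
def gen1B (D : ChevalleyDatum) (ng : ℕ → ℕ) (packs : List ℕ) (k a b q p c : ℕ) : Bool :=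
  t1B D ng packs c q b && t1B D ng packs a c p && is0B D ng packs q a && is0B D ng packs b p &&
    is0B D ng packs b k

theorem gen1B_spec {D : ChevalleyDatum} {ng : ℕ → ℕ} {packs : List ℕ} {k a b q p c : ℕ}
    (hp : chainPackOK D packs = true) (hng : ∀ r < D.nroots, D.neg r = ng r)
    (h : gen1B D ng packs k a b q p c = true) : Gen1 D k a b q p := by
  unfold gen1B at h
  simp only [Bool.and_eq_true] at h
  obtain ⟨⟨⟨⟨h1, h2⟩, h3⟩, h4⟩, h5⟩ := h
  obtain ⟨C1, hC1⟩ := t1B_spec hp hng h1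
  obtain ⟨C2, hC2⟩ := t1B_spec hp hng h2
  exact ⟨c, C1, C2, hC1, hC2, is0B_spec hp hng h3, is0B_spec hp hng h4, is0B_spec hp hng h5⟩

/-- The reference decomposition `k = a + b` of the root `k` (packed witness table `R`). -/
def refA (R k : ℕ) : ℕ := fld R 8 (5 * k)

/-- The reference decomposition `k = a + b` of the root `k` (packed witness table `R`). -/
def refB (R k : ℕ) : ℕ := fld R 8 (5 * k + 1)

/-- The check of the pair `(p, q)`: a commuting pair has a decomposition `p = a + b` with `x_a`,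
`x_b` commuting with `x_q`; a pair with one term `(k; 1, 1)` is linked to the reference
decomposition of `k`. -/
def x2Pair (D : ChevalleyDatum) (ng : ℕ → ℕ) (packs W : List ℕ) (R p q : ℕ) : Bool :=
  match ceP packs p q, ceP packs q p with
  | [], [] =>
    t1B D ng packs (fld (W.getD p 0) 8 (2 * q)) (fld (W.getD p 0) 8 (2 * q + 1)) p &&
      is0B D ng packs (fld (W.getD p 0) 8 (2 * q)) q &&
      is0B D ng packs (fld (W.getD p 0) 8 (2 * q + 1)) q
  | [(k, C)], [_] =>
    decide (k < D.nroots) && (C == 1 || C == -1) &&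
      ((q == refB R k && p == refA R k) || (q == refA R k && p == refB R k) ||
        gen1B D ng packs k (refA R k) (refB R k) q p (fld (W.getD p 0) 8 (2 * q)) ||
        gen1B D ng packs k (refB R k) (refA R k) q p (fld (W.getD p 0) 8 (2 * q)))
  | _, _ => false

theorem x2Pair_spec {D : ChevalleyDatum} {ng : ℕ → ℕ} {packs W : List ℕ} {R p q : ℕ}
    (hp : chainPackOK D packs = true) (hng : ∀ r < D.nroots, D.neg r = ng r) (hv : VP D p q)
    (h : x2Pair D ng packs W R p q = true) :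
    (D.commTerms p q = [] ∧ ∃ a b : ℕ, ∃ C : ℤ, T1 D a b p C ∧ Is0 D a q ∧ Is0 D b q) ∨
      ∃ k : ℕ, ∃ C : ℤ, T1 D p q k C ∧ Link D k (refA R k) (refB R k) p q := by
  obtain ⟨hpn, hqn, h1, h2⟩ := hv
  unfold x2Pair at h
  unfold ceP at h
  rw [← chainEntry_of_packOK hp hpn hqn, ← chainEntry_of_packOK hp hqn hpn] at h
  split at h
  · next e1 e2 =>
    simp only [Bool.and_eq_true] at h
    obtain ⟨⟨h3, h4⟩, h5⟩ := h
    obtain ⟨C, hC⟩ := t1B_spec hp hng h3
    exact Or.inl ⟨commTerms_nil_of_entries e1 e2, _, _, C, hC, is0B_spec hp hng h4,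
      is0B_spec hp hng h5⟩
  · next k C f e1 e2 =>
    simp only [Bool.and_eq_true, decide_eq_true_eq, Bool.or_eq_true, beq_iff_eq] at h
    obtain ⟨⟨hk, hC⟩, h3⟩ := h
    refine Or.inr ⟨k, C, ⟨⟨hpn, hqn, h1, h2⟩, hk, hC, commTerms_one_of_entries e1 e2⟩, ?_⟩
    rcases h3 with ((h3 | h3) | h3) | h3
    · exact Or.inl h3
    · exact Or.inr (Or.inl h3)
    · exact Or.inr (Or.inr (Or.inl (gen1B_spec hp hng h3)))
    · exact Or.inr (Or.inr (Or.inr (gen1B_spec hp hng h3)))
  · exact absurd h (by simp)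

/-- All pairs `(p, q)`, `q ≠ ± p`, pass `x2Pair`. -/
def x2Row (D : ChevalleyDatum) (ng : ℕ → ℕ) (packs W : List ℕ) (R p : ℕ) : Bool :=
  (List.range D.nroots).all fun q => q == p || q == ng p || x2Pair D ng packs W R p q

theorem x2Row_spec {D : ChevalleyDatum} {ng : ℕ → ℕ} {packs W : List ℕ} {R p q : ℕ}
    (hp : chainPackOK D packs = true) (hng : ∀ r < D.nroots, D.neg r = ng r) (hv : VP D p q)
    (h : x2Row D ng packs W R p = true) :
    (D.commTerms p q = [] ∧ ∃ a b : ℕ, ∃ C : ℤ, T1 D a b p C ∧ Is0 D a q ∧ Is0 D b q) ∨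
      ∃ k : ℕ, ∃ C : ℤ, T1 D p q k C ∧ Link D k (refA R k) (refB R k) p q := by
  unfold x2Row at h
  rw [List.all_eq_true] at h
  have h3 := h q (List.mem_range.mpr hv.2.1)
  simp only [Bool.or_eq_true, beq_iff_eq] at h3
  rcases h3 with (h3 | h3) | h3
  · exact absurd h3 hv.2.2.1
  · rw [← hng p hv.1] at h3
    exact absurd h3 hv.2.2.2
  · exact x2Pair_spec hp hng hv h3

/-- The reference decomposition of `k` is a decomposition, with one move out of it. -/
def x2Dec (D : ChevalleyDatum) (ng : ℕ → ℕ) (packs : List ℕ) (R k : ℕ) : Bool :=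
  t1B D ng packs (refA R k) (refB R k) k && is0B D ng packs (refA R k) k &&
    gen1B D ng packs k (refA R k) (refB R k) (fld R 8 (5 * k + 2)) (fld R 8 (5 * k + 3))
      (fld R 8 (5 * k + 4))

/-- The certificate `Cert2 D` from the fast row checks. -/
theorem cert2_of_fast {D : ChevalleyDatum} {ng : ℕ → ℕ} {packs W : List ℕ} {R : ℕ}
    (hp : chainPackOK D packs = true) (hng : ∀ r < D.nroots, D.neg r = ng r)
    (h1 : ∀ p < D.nroots, x2Row D ng packs W R p = true)
    (h2 : ∀ k < D.nroots, x2Dec D ng packs R k = true) : Cert2 D where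
  shape := by
    intro r hr s hs hsr hsn
    rcases x2Row_spec hp hng ⟨hr, hs, hsr, hsn⟩ (h1 r hr) with ⟨h0, -⟩ | ⟨k, C, hT, -⟩
    · exact Or.inl h0
    · exact Or.inr ⟨k, C, hT⟩
  czero := by
    intro r s h0
    rcases x2Row_spec hp hng h0.1 (h1 r h0.1.1) with ⟨-, h3⟩ | ⟨k, C, hT, -⟩
    · exact h3
    · have h4 := hT.2.2.2
      rw [h0.2] at h4
      exact absurd h4 (by simp)
  dec := by
    intro k hk
    have h3 := h2 k hk
    unfold x2Dec at h3
    simp only [Bool.and_eq_true] at h3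
    obtain ⟨⟨h4, h5⟩, h6⟩ := h3
    obtain ⟨C, hC⟩ := t1B_spec hp hng h4
    refine ⟨refA R k, refB R k, C, hC, is0B_spec hp hng h5, ⟨_, _, gen1B_spec hp hng h6⟩, ?_⟩
    intro p q C' hT
    rcases x2Row_spec hp hng hT.1 (h1 p hT.1.1) with ⟨h0, -⟩ | ⟨k', C'', hT', hL⟩
    · have h7 := hT.2.2.2
      rw [h0] at h7
      exact absurd h7 (by simp)
    · have h7 := hT.2.2.2
      rw [hT'.2.2.2] at h7
      simp only [List.cons.injEq, Prod.mk.injEq, and_true] at h7
      obtain ⟨rfl, -⟩ := h7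
      exact hL

end Cfsg.Agent.Helper36
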