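import Cfsg.Agent.Helper64.UCDefs

/-!
# Row checkers for the table certificate `Cert D` (CALL S2100 / S2398)
-/

set_option autoImplicit false

namespace Cfsg.Agent.Helper36

open Cfsg Cfsg.Lie Cfsg.Agent.Helper64.UC

/-- All pairs `(r, s)`, `s ≠ ± r`, have one of the shapes. -/
def shapeRow (D : ChevalleyDatum) (r : ℕ) : Bool :=
  (List.range D.nroots).all fun s => s == r || s == D.neg r || decide (Shape D r s)

/-- For all `s ≠ ± r` some coroot vanishes on `r` and not on `s`. -/
def orthRow (D : ChevalleyDatum) (r : ℕ) : Bool :=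
  (List.range D.nroots).all fun s => s == r || s == D.neg r ||
    (List.range D.nroots).any fun γ =>
      decide (D.pairing γ r = 0 ∧ D.pairing γ s ≠ 0 ∧ (D.pairing γ s).natAbs ≤ 3)

/-- Some coroot has the value `± 1` on `r`. -/
def fullRow (D : ChevalleyDatum) (r : ℕ) : Bool :=
  (List.range D.nroots).any fun γ => decide (D.pairing γ r = 1 ∨ D.pairing γ r = -1)

/-- A row check on the rows `lo ≤ r < lo + len`. -/
def rowsOK (f : ℕ → Bool) (lo len : ℕ) : Bool := (List.range len).all fun i => f (lo + i)

theorem rowsOK_spec {f : ℕ → Bool} {lo len : ℕ} (h : rowsOK f lo len = true) (r : ℕ)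
    (h1 : lo ≤ r) (h2 : r < lo + len) : f r = true := by
  unfold rowsOK at h
  rw [List.all_eq_true] at h
  have h3 := h (r - lo) (List.mem_range.mpr (by omega))
  rwa [Nat.add_sub_cancel' h1] at h3

theorem shapeRow_spec {D : ChevalleyDatum} {r : ℕ} (h : shapeRow D r = true) {s : ℕ}
    (hs : s < D.nroots) (h1 : s ≠ r) (h2 : s ≠ D.neg r) : Shape D r s := by
  unfold shapeRow at h
  rw [List.all_eq_true] at h
  have h3 := h s (List.mem_range.mpr hs)
  simp only [Bool.or_eq_true, beq_iff_eq, decide_eq_true_eq] at h3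
  rcases h3 with (h3 | h3) | h3
  · exact absurd h3 h1
  · exact absurd h3 h2
  · exact h3

theorem orthRow_spec {D : ChevalleyDatum} {r : ℕ} (h : orthRow D r = true) {s : ℕ}
    (hs : s < D.nroots) (h1 : s ≠ r) (h2 : s ≠ D.neg r) :
    ∃ γ < D.nroots, D.pairing γ r = 0 ∧ D.pairing γ s ≠ 0 ∧ (D.pairing γ s).natAbs ≤ 3 := by
  unfold orthRow at h
  rw [List.all_eq_true] at h
  have h3 := h s (List.mem_range.mpr hs)
  simp only [Bool.or_eq_true, beq_iff_eq, List.any_eq_true, decide_eq_true_eq,
    List.mem_range] at h3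
  rcases h3 with (h3 | h3) | h3
  · exact absurd h3 h1
  · exact absurd h3 h2
  · exact h3

theorem fullRow_spec {D : ChevalleyDatum} {r : ℕ} (h : fullRow D r = true) :
    ∃ γ < D.nroots, D.pairing γ r = 1 ∨ D.pairing γ r = -1 := by
  unfold fullRow at h
  simp only [List.any_eq_true, decide_eq_true_eq, List.mem_range] at h
  exact h

/-- The certificate from the row checks (types without the special long roots). -/
theorem cert_of_rows {D : ChevalleyDatum} (h1 : ∀ r < D.nroots, shapeRow D r = true)
    (h2 : ∀ r < D.nroots, orthRow D r = true) (h3 : ∀ r < D.nroots, fullRow D r = true) :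
    Cert D where
  shape := fun r hr _ hs hsr hsn => shapeRow_spec (h1 r hr) hs hsr hsn
  orth := fun r hr _ hs hsr hsn => orthRow_spec (h2 r hr) hs hsr hsn
  full := fun r hr => Or.inl (fullRow_spec (h3 r hr))

end Cfsg.Agent.Helper36
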