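import Cfsg.Agent.Helper36.UCCert
import Cfsg.Agent.Helper36.ChevCFP

/-!
# Fast row checkers for `Cert D`, simply laced types (CALL S2100 / S2398)

The shapes are read off helper17's packed chain table, the pairing off the packed Cartan table
and a packed table of the coroot coordinates.
-/

set_option autoImplicit false

namespace Cfsg.Agent.Helper36

open Cfsg Cfsg.Lie Cfsg.Agent.Helper17 Cfsg.Agent.Helper64.UC

/-! ### The commutator formula from the chain entries -/

theorem commTerms_nil_of_entries {D : ChevalleyDatum} {r s : ℕ} (h1 : D.chainEntry r s = [])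
    (h2 : D.chainEntry s r = []) : D.commTerms r s = [] := by
  unfold ChevalleyDatum.commTerms ChevalleyDatum.chainRoot ChevalleyDatum.chainM
  rw [h1, h2]
  rfl

theorem commTerms_one_of_entries {D : ChevalleyDatum} {r s k : ℕ} {M : ℤ} {e : ℕ × ℤ}
    (h1 : D.chainEntry r s = [(k, M)]) (h2 : D.chainEntry s r = [e]) :
    D.commTerms r s = [(k, M, 1, 1)] := by
  unfold ChevalleyDatum.commTerms ChevalleyDatum.chainRoot ChevalleyDatum.chainM
  rw [h1, h2]
  rfl

/-! ### Shapes, simply laced types -/

/-- The pair `(r, s)` has no commutator term, or one term `(k; 1, 1)` with `x_k`, `x_s`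
commuting; read off the packed chain table. -/
def slPair (D : ChevalleyDatum) (packs : List ℕ) (r s : ℕ) : Bool :=
  match unpackEntry (cfld (packs.getD r 0) s), unpackEntry (cfld (packs.getD s 0) r) with
  | [], [] => true
  | [(k, _)], [_] => decide (k < D.nroots) && (k != s) && (k != D.neg s) &&
      (unpackEntry (cfld (packs.getD s 0) k)).isEmpty &&
      (unpackEntry (cfld (packs.getD k 0) s)).isEmpty
  | _, _ => false

theorem slPair_spec {D : ChevalleyDatum} {packs : List ℕ} {r s : ℕ}
    (hp : chainPackOK D packs = true) (hr : r < D.nroots) (hs : s < D.nroots)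
    (h : slPair D packs r s = true) : Shape D r s := by
  unfold slPair at h
  rw [← chainEntry_of_packOK hp hr hs, ← chainEntry_of_packOK hp hs hr] at h
  split at h
  · next h1 h2 =>
    refine Or.inl ?_
    unfold sig
    rw [commTerms_nil_of_entries h1 h2]
    rfl
  · next k M e h1 h2 =>
    simp only [Bool.and_eq_true, decide_eq_true_eq, bne_iff_ne, ne_eq, List.isEmpty_iff] at h
    obtain ⟨⟨⟨⟨hk, hks⟩, hkn⟩, he1⟩, he2⟩ := h
    rw [← chainEntry_of_packOK hp hs hk] at he1
    rw [← chainEntry_of_packOK hp hk hs] at he2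
    have hc := commTerms_one_of_entries h1 h2
    have hsig : sig D r s = [(k, 1, 1)] := by unfold sig; rw [hc]; rfl
    have hkk : kk D r s 0 = k := by unfold kk; rw [hc]; rfl
    refine Or.inr (Or.inl ?_)
    unfold Sh1
    rw [hkk]
    exact ⟨hsig, ⟨hs, hk, hks, hkn⟩, commTerms_nil_of_entries he1 he2⟩
  · exact absurd h (by simp)

/-- All pairs `(r, s)`, `s ≠ ± r`, pass `slPair`. -/
def slRow (D : ChevalleyDatum) (packs : List ℕ) (r : ℕ) : Bool :=
  (List.range D.nroots).all fun s => s == r || s == D.neg r || slPair D packs r s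

theorem slRow_spec {D : ChevalleyDatum} {packs : List ℕ} {r : ℕ}
    (hp : chainPackOK D packs = true) (hr : r < D.nroots) (h : slRow D packs r = true) {s : ℕ}
    (hs : s < D.nroots) (h1 : s ≠ r) (h2 : s ≠ D.neg r) : Shape D r s := by
  unfold slRow at h
  rw [List.all_eq_true] at h
  have h3 := h s (List.mem_range.mpr hs)
  simp only [Bool.or_eq_true, beq_iff_eq] at h3
  rcases h3 with (h3 | h3) | h3
  · exact absurd h3 h1
  · exact absurd h3 h2
  · exact slPair_spec hp hr hs h3

/-! ### The pairing from packed tables -/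

/-- The coroot coordinate read off a packed table. -/
def corP (D : ChevalleyDatum) (QP γ i : ℕ) : ℤ := ((fld QP 5 (D.rank * γ + i) : ℕ) : ℤ) - 8

/-- `QP` is a packed copy of the coroot table of `D`. -/
def corPackOK (D : ChevalleyDatum) (QP : ℕ) : Bool :=
  (List.range D.nroots).all fun γ => (List.range D.rank).all fun i =>
    decide ((D.coroot.getD γ #[]).getD i 0 = corP D QP γ i)

theorem corP_eq {D : ChevalleyDatum} {QP : ℕ} (h : corPackOK D QP = true) {γ i : ℕ}
    (hγ : γ < D.nroots) (hi : i < D.rank) : (D.coroot.getD γ #[]).getD i 0 = corP D QP γ i := by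
  unfold corPackOK at h
  rw [List.all_eq_true] at h
  have h1 := h γ (List.mem_range.mpr hγ)
  rw [List.all_eq_true] at h1
  have h2 := h1 i (List.mem_range.mpr hi)
  exact of_decide_eq_true h2

/-- The pairing read off the packed tables. -/
def pairP (D : ChevalleyDatum) (CP QP γ s : ℕ) : ℤ :=
  ((List.range D.rank).map fun i => corP D QP γ i * cartP D CP i s).sum

theorem pairP_eq {D : ChevalleyDatum} {CP QP : ℕ} (hCP : cartanPackOK D CP = true)
    (hQP : corPackOK D QP = true) {γ s : ℕ} (hγ : γ < D.nroots) (hs : s < D.nroots) :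
    D.pairing γ s = pairP D CP QP γ s := by
  unfold ChevalleyDatum.pairing pairP
  congr 1
  apply List.map_congr_left
  intro i hi
  have hi' := List.mem_range.mp hi
  rw [cartP_eq hCP hi' hs, corP_eq hQP hγ hi']

/-- For all `s ≠ ± r` some coroot vanishes on `r` and not on `s` (packed tables). -/
def orthRowP (D : ChevalleyDatum) (CP QP r : ℕ) : Bool :=
  (List.range D.nroots).all fun s => s == r || s == D.neg r ||
    (List.range D.nroots).any fun γ =>
      decide (pairP D CP QP γ r = 0 ∧ pairP D CP QP γ s ≠ 0 ∧ (pairP D CP QP γ s).natAbs ≤ 3)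

theorem orthRowP_spec {D : ChevalleyDatum} {CP QP r : ℕ} (hCP : cartanPackOK D CP = true)
    (hQP : corPackOK D QP = true) (hr : r < D.nroots) (h : orthRowP D CP QP r = true) {s : ℕ}
    (hs : s < D.nroots) (h1 : s ≠ r) (h2 : s ≠ D.neg r) :
    ∃ γ < D.nroots, D.pairing γ r = 0 ∧ D.pairing γ s ≠ 0 ∧ (D.pairing γ s).natAbs ≤ 3 := by
  unfold orthRowP at h
  rw [List.all_eq_true] at h
  have h3 := h s (List.mem_range.mpr hs)
  simp only [Bool.or_eq_true, beq_iff_eq, List.any_eq_true, decide_eq_true_eq,
    List.mem_range] at h3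
  rcases h3 with (h3 | h3) | h3
  · exact absurd h3 h1
  · exact absurd h3 h2
  · obtain ⟨γ, hγ, h4⟩ := h3
    refine ⟨γ, hγ, ?_⟩
    rw [pairP_eq hCP hQP hγ hr, pairP_eq hCP hQP hγ hs]
    exact h4

/-- Some coroot has the value `± 1` on `r` (packed tables). -/
def fullRowP (D : ChevalleyDatum) (CP QP r : ℕ) : Bool :=
  (List.range D.nroots).any fun γ =>
    decide (pairP D CP QP γ r = 1 ∨ pairP D CP QP γ r = -1)

theorem fullRowP_spec {D : ChevalleyDatum} {CP QP r : ℕ} (hCP : cartanPackOK D CP = true)
    (hQP : corPackOK D QP = true) (hr : r < D.nroots) (h : fullRowP D CP QP r = true) :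
    ∃ γ < D.nroots, D.pairing γ r = 1 ∨ D.pairing γ r = -1 := by
  unfold fullRowP at h
  simp only [List.any_eq_true, decide_eq_true_eq, List.mem_range] at h
  obtain ⟨γ, hγ, h4⟩ := h
  refine ⟨γ, hγ, ?_⟩
  rw [pairP_eq hCP hQP hγ hr]
  exact h4

/-- The certificate from the fast row checks. -/
theorem cert_of_fast {D : ChevalleyDatum} {packs : List ℕ} {CP QP : ℕ}
    (hp : chainPackOK D packs = true) (hCP : cartanPackOK D CP = true)
    (hQP : corPackOK D QP = true) (h1 : ∀ r < D.nroots, slRow D packs r = true)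
    (h2 : ∀ r < D.nroots, orthRowP D CP QP r = true)
    (h3 : ∀ r < D.nroots, fullRowP D CP QP r = true) : Cert D where
  shape := fun r hr _ hs hsr hsn => slRow_spec hp hr (h1 r hr) hs hsr hsn
  orth := fun r hr _ hs hsr hsn => orthRowP_spec hCP hQP hr (h2 r hr) hs hsr hsn
  full := fun r hr => Or.inl (fullRowP_spec hCP hQP hr (h3 r hr))

end Cfsg.Agent.Helper36
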