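import Cfsg.Agent.Helper36.StR3
import Cfsg.Agent.Helper64.UCDefs

/-!
# The groups with Steinberg's relations are `GSys` (for CALL S2100 / S2398)

In a group `Γ` with Steinberg's relations (R1), (R2) mapping to the Chevalley group, the elements
`h̄_γ(a)` (all roots `γ`) act on the root elements through `s ↦ a ^ ⟨s, γ^∨⟩`; so `Γ` is perfect as
soon as the field has an element `a ≠ 0` with `a² ≠ 1`.
-/

set_option autoImplicit false

namespace Cfsg.Agent.Helper36

open Cfsg Cfsg.Lie Cfsg.Agent.Helper17 Cfsg.Agent.Helper64.UC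
open scoped commutatorElement

section

variable {D : ChevalleyDatum} {F : Type*} [Field F] {η : ℕ → ℕ → ℤ} {f₀ : ℕ → ℤ} {g : ℕ → ℕ → ℤ}
  {Γ : Type*} [Group Γ] {x : ℕ → F → Γ} {θ : Γ →* GL D.Idx F}

/-- `h̄_r(t)` lies in `H̄` for every root `r`. -/
theorem SCtx.hS_mem_HS_all (C : SCtx D F η f₀ g) (S : SRel D F x θ) {r : ℕ} (hr : r < D.nroots)
    {t : F} (ht : t ≠ 0) : hS D x r t ∈ HS D x := by
  have W := C.R.wf
  obtain ⟨L, hL, i, hi, hw⟩ := W.reach r hr
  have hp := W.simple_lt i hi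
  have hconj : ∀ c : F, nWS D x L * nS D x (D.simple i) c * (nWS D x L)⁻¹ =
      nS D x r ((eW D η L (D.simple i) : F) * c) := by
    intro c
    have h1 := C.conj_nWS_nS S hL hp c
    rw [hw] at h1
    exact h1
  have hsplit : ∀ t : F, nWS D x L * hS D x (D.simple i) t * (nWS D x L)⁻¹ =
      (nWS D x L * nS D x (D.simple i) t * (nWS D x L)⁻¹) *
        (nWS D x L * nS D x (D.simple i) (-1) * (nWS D x L)⁻¹) := by
    intro t; unfold hS; group
  have hmem : ∀ t : F, t ≠ 0 → nWS D x L * hS D x (D.simple i) t * (nWS D x L)⁻¹ ∈ HS D x :=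
    fun t ht => C.nWS_conj_HS S hL _ (hS_mem_HS hi ht)
  rcases C.R.eW_sgn hL hp with he | he
  · have h2 : nWS D x L * hS D x (D.simple i) t * (nWS D x L)⁻¹ = hS D x r t := by
      rw [hsplit, hconj, hconj, he]
      unfold hS
      simp
    rw [← h2]
    exact hmem t ht
  · have hk : ∀ t : F, nWS D x L * hS D x (D.simple i) t * (nWS D x L)⁻¹ =
        hS D x r (-t) * (hS D x r (-1))⁻¹ := by
      intro t
      rw [hsplit, hconj, hconj, he]
      have e1 : (((-1 : ℤ) : F)) * t = -t := by push_cast; ring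
      have e2 : (((-1 : ℤ) : F)) * (-1) = 1 := by push_cast; ring
      rw [e1, e2, ← S.nS_one_sq r]
      unfold hS
      rw [← S.nS_inv r 1]
      group
    have h1 : hS D x r 1 = 1 := by unfold hS; rw [← S.nS_inv r 1, mul_inv_cancel]
    have hm1 : hS D x r (-1) ∈ HS D x := by
      have h2 := hk (-1)
      rw [neg_neg, h1, one_mul] at h2
      have h3 := hmem (-1) (neg_ne_zero.mpr one_ne_zero)
      rw [h2] at h3
      exact inv_mem_iff.mp h3
    have h2 := hk (-t)
    rw [neg_neg] at h2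
    have h3 := hmem (-t) (neg_ne_zero.mpr ht)
    rw [h2] at h3
    have h4 := mul_mem h3 hm1
    rwa [inv_mul_cancel_right] at h4

/-- `h̄_γ(a)` acts on the root elements through `s ↦ a ^ ⟨s, γ^∨⟩`. -/
theorem SCtx.hS_diag (C : SCtx D F η f₀ g) (S : SRel D F x θ) (hT : TorusFacts D)
    (hHD : HDiag D F) {γ : ℕ} (hγ : γ < D.nroots) {a : F} (ha : a ≠ 0) :
    Diag D.nroots x (hS D x γ a) (fun s => a ^ D.pairing γ s) := by
  intro s hs u
  have hX := C.R.xadd
  obtain ⟨χ, -, h2⟩ := C.HS_char S _ (C.hS_mem_HS_all S hγ ha)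
  rw [h2 s hs u]
  congr 1
  apply C.xGL_inj hs
  have h3 : θ (hS D x γ a * x s u * (hS D x γ a)⁻¹) = xGL hX s ((χ s : F) * u) := by
    rw [h2 s hs u, S.map_x hX]
  rw [← h3, map_mul, map_mul, map_inv, S.map_hS hX, S.map_x hX]
  apply Units.ext
  rw [Units.val_mul, Units.val_mul, xGL_val, xGL_val]
  have hz : ((hGL hX γ a : GL D.Idx F) : Matrix D.Idx D.Idx F) = D.charDiag F
      (torusChar D (fun i => (Units.mk0 a ha) ^ (D.coroot.getD γ #[]).getD i 0)) := by
    rw [hGL_val, hMat_eq_charDiag hHD hγ ha]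
  rw [torus_conj_x hT.chain hT.cartan hz s hs u, torusChar_pow_coroot,
    Units.val_zpow_eq_zpow_val, Units.val_mk0]

/-- A group with Steinberg's relations mapping to the Chevalley group is a `GSys`, when the field
has an element `a ≠ 0` with `a² ≠ 1`. -/
theorem SCtx.gSys (C : SCtx D F η f₀ g) (S : SRel D F x θ) (hT : TorusFacts D)
    (hHD : HDiag D F) (hR : ∀ r < D.nroots, RankOne D r) (hF : ∃ a : F, a ≠ 0 ∧ a ^ 2 ≠ 1) :
    GSys D x where
  add := S.add
  comm := S.comm
  gen := S.gen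
  perf := by
    obtain ⟨a, ha, ha2⟩ := hF
    rw [eq_top_iff, ← S.gen, Subgroup.closure_le]
    rintro y ⟨r, hr, t, rfl⟩
    have hd : hS D x r a * x r ((a ^ 2 - 1)⁻¹ * t) * (hS D x r a)⁻¹ =
        x r (a ^ D.pairing r r * ((a ^ 2 - 1)⁻¹ * t)) :=
      C.hS_diag S hT hHD hr ha r hr ((a ^ 2 - 1)⁻¹ * t)
    rw [(hR r hr).pairing_self] at hd
    have hne : a ^ 2 - 1 ≠ 0 := sub_ne_zero.mpr ha2
    have h1 : x r t = ⁅hS D x r a, x r ((a ^ 2 - 1)⁻¹ * t)⁆ := by
      rw [commutatorElement_def, hd, S.inv, S.add]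
      congr 1
      have e : (a ^ (2 : ℤ) : F) = a ^ 2 := zpow_ofNat a 2
      rw [e]
      field_simp
      ring
    rw [h1]
    exact Subgroup.commutator_mem_commutator (Subgroup.mem_top _) (Subgroup.mem_top _)
  inj := by
    intro r hr t ht
    have hX := C.R.xadd
    have h1 : xGL hX r t = xGL hX r 0 := by
      rw [← S.map_x hX, ← S.map_x hX, ht, S.zero]
    exact C.xGL_inj hr h1
  tor := fun γ hγ a ha => ⟨hS D x γ a, C.hS_diag S hT hHD hγ ha⟩

end

/-- The group presented by the relations (R1), (R2) is a `GSys`. -/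
theorem gSys_cover (D : ChevalleyDatum) {K : Type*} [Field K]
    (hD : D ∈ [chevG2, chevB2, chevD4, chevF4, chevE6, chevE7, chevE8])
    (hK : ∃ a : K, a ≠ 0 ∧ a ^ 2 ≠ 1) : GSys D (D.scGen K) := by
  obtain ⟨f₀, g, C⟩ := sCtx_of_mem (F := K) hD
  have S := sRel_cover D (scTheta (K := K) D hD) (fun r t _ => scTheta_val D hD r t)
  exact C.gSys S (torusFacts_of_mem hD) (hDiag_of_mem hD) (fun r hr => rankOne_of_mem hD hr) hK

/-- A field with more than four elements has an element `a ≠ 0` with `a² ≠ 1`. -/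
theorem exists_sq_ne_one_of_card {K : Type*} [Field K] (hK : ∃ s : Finset K, 4 < s.card) :
    ∃ a : K, a ≠ 0 ∧ a ^ 2 ≠ 1 := by
  classical
  obtain ⟨s, hs⟩ := hK
  by_contra hcon
  have hcon : ∀ a : K, a ≠ 0 → a ^ 2 = 1 := by
    intro a ha
    by_contra h
    exact hcon ⟨a, ha, h⟩
  have hsub : s ⊆ ({0, 1, -1} : Finset K) := by
    intro a _
    by_cases ha : a = 0
    · simp [ha]
    · have h1 := hcon a ha
      have h2 : (a - 1) * (a + 1) = 0 := by ring_nf; rw [h1]; ring
      rcases mul_eq_zero.mp h2 with h3 | h3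
      · have : a = 1 := sub_eq_zero.mp h3
        simp [this]
      · have : a = -1 := eq_neg_of_add_eq_zero_left h3
        simp [this]
  have h3 := Finset.card_le_card hsub
  have h4 : ({0, 1, -1} : Finset K).card ≤ 3 := Finset.card_le_three
  omega

end Cfsg.Agent.Helper36
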